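import Cfsg.Agent.Lib.BR.Tens3

/-!
# The arithmetic reduction for the groups of order `p * r * q ^ b`
-/

set_option autoImplicit false
set_option linter.unusedSectionVars false
set_option linter.style.haveILetI false
set_option linter.unusedSimpArgs false
set_option linter.unnecessarySimpa false
set_option linter.unusedVariables false
set_option maxSynthPendingDepth 3

open scoped ComplexConjugate
open Subgroup

namespace Cfsg.Agent.Lib.BR

open Cfsg (classInner IsCharacter IsIrrCharacter IrrCharacter IsClassFunction indFun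
  extendByZero IsGeneralizedCharacter IsPModular principalBlock)
open Cfsg.Agent.Lib.Char
open Cfsg.Agent.Lib.Block hiding tr
open Cfsg.Agent.Lib.SmallSimple.BB
open Cfsg.Agent.Lib.FF

universe u

variable {G : Type u} [Group G] {p : ℕ} {z : G}

namespace BD0

variable [Fintype G] {t s : ℕ} {Xs Ys : Finset (IrrCharacter G)} {δ : IrrCharacter G → ℤ} {ε : ℤ}
  {deg : IrrCharacter G → ℕ} (D : BD0 p z t s Xs Ys δ ε deg)

include D

/-- The relation at the identity. -/
theorem rel_one {θ : IrrCharacter G} (hθ : θ ∈ Ys) : ε * (deg θ : ℤ) = ∑ χ ∈ Xs, δ χ * (deg χ : ℤ) := by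
  have h1 := D.hrel θ hθ 1 (by simpa using D.hp.one_lt.ne')
  rw [(D.hdeg θ).1] at h1
  have h2 : ∀ χ ∈ Xs, (δ χ : ℂ) * (χ : G → ℂ) 1 = ((δ χ * (deg χ : ℤ) : ℤ) : ℂ) := by
    intro χ _
    rw [(D.hdeg χ).1]
    push_cast
    ring
  rw [Finset.sum_congr rfl h2] at h1
  have h3 : ((ε * (deg θ : ℤ) : ℤ) : ℂ) = ((∑ χ ∈ Xs, δ χ * (deg χ : ℤ) : ℤ) : ℂ) := by
    push_cast at h1 ⊢
    exact h1
  exact_mod_cast h3

theorem deg_one' : deg (oneIrr G) = 1 := by
  have h1 : ((oneIrr G : IrrCharacter G) : G → ℂ) 1 = 1 := rfl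
  have h2 := (D.hdeg (oneIrr G)).1
  rw [h1] at h2
  exact_mod_cast h2.symm

end BD0

section Arith

variable {q r b : ℕ}

/-- The arithmetic in the case of the sign plus. -/
theorem arith_plus (hp : p.Prime) (hq : q.Prime) (hr : r.Prime) (hr3 : 3 ≤ r) (hpr : p = 2 * r + 1)
    (hd : p + 1 ∣ p * r * q ^ b) : q = 2 ∧ p = 7 ∧ r = 3 := by
  have hrodd : r % 2 = 1 := by
    rcases hr.eq_two_or_odd with h | h
    · omega
    · exact h
  have h1 : Nat.Coprime (p + 1) p := by simp
  have h2 : Nat.Coprime (p + 1) r := by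
    rw [hpr]
    have e : 2 * r + 1 + 1 = 2 * (r + 1) := by ring
    rw [e]
    apply Nat.Coprime.mul_left
    · exact (Nat.coprime_two_left).2 (Nat.odd_iff.mpr hrodd)
    · simp
  have h3 : p + 1 ∣ q ^ b := by
    have h4 : p + 1 ∣ p * (r * q ^ b) := by rwa [← mul_assoc]
    have h5 := h1.dvd_of_dvd_mul_left h4
    exact h2.dvd_of_dvd_mul_left h5
  obtain ⟨β, -, hβ⟩ := (Nat.dvd_prime_pow hq).1 h3
  have h4 : 2 ∣ q ^ β := by
    rw [← hβ, hpr]
    omega
  have hq2 : q = 2 := ((Nat.prime_dvd_prime_iff_eq Nat.prime_two hq).1 (Nat.prime_two.dvd_of_dvd_pow h4)).symm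
  subst hq2
  obtain ⟨β', rfl⟩ : ∃ β', β = β' + 1 := by
    rcases Nat.eq_zero_or_pos β with h | h
    · subst h
      simp at hβ
      omega
    · exact ⟨β - 1, by omega⟩
  have h5 : r + 1 = 2 ^ β' := by
    rw [pow_succ] at hβ
    omega
  have h6 : r = 2 ^ β' - 1 := by omega
  have h7 : p = 2 ^ (β' + 1) - 1 := by omega
  have hβ1 : β' ≠ 1 := by
    rintro rfl
    omega
  have hβ0 : β' ≠ 0 := by
    rintro rfl
    simp at h5
    omega
  have h8 := (Nat.prime_of_pow_sub_one_prime hβ1 (h6 ▸ hr)).2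
  have h9 := (Nat.prime_of_pow_sub_one_prime (by omega : β' + 1 ≠ 1) (h7 ▸ hp)).2
  have h10 : β' = 2 := by
    rcases h8.eq_two_or_odd with h | h
    · exact h
    · rcases h9.eq_two_or_odd with h' | h'
      · omega
      · omega
  subst h10
  refine ⟨rfl, ?_, ?_⟩ <;> omega

/-- Three divides `2 ^ m + 1` for odd `m`. -/
theorem three_dvd_of_odd {m : ℕ} (hm : m % 2 = 1) : 3 ∣ 2 ^ m + 1 := by
  have := Odd.nat_add_dvd_pow_add_pow 2 1 (Nat.odd_iff.mpr hm)
  simpa using this

/-- The arithmetic in the case of the sign minus with `t = 2`. -/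
theorem arith_minus_two (hp : p.Prime) (hr : r.Prime) (hr3 : 3 ≤ r) (hpr : r + 2 = p)
    (hd : r + 1 ∣ p * r * 2 ^ b) : p = 5 ∧ r = 3 := by
  have h1 : Nat.Coprime (r + 1) p := by
    rw [← hpr]
    have e : r + 2 = (r + 1) + 1 := by ring
    rw [e]
    simp
  have h2 : Nat.Coprime (r + 1) r := by simp
  have h3 : r + 1 ∣ 2 ^ b := by
    have h4 : r + 1 ∣ p * (r * 2 ^ b) := by rwa [← mul_assoc]
    have h5 := h1.dvd_of_dvd_mul_left h4
    exact h2.dvd_of_dvd_mul_left h5
  obtain ⟨m, -, hm⟩ := (Nat.dvd_prime_pow Nat.prime_two).1 h3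
  have h6 : r = 2 ^ m - 1 := by omega
  have hm1 : m ≠ 1 := by
    rintro rfl
    omega
  have h8 := (Nat.prime_of_pow_sub_one_prime hm1 (h6 ▸ hr)).2
  have h9 : m = 2 := by
    rcases h8.eq_two_or_odd with h | h
    · exact h
    · exfalso
      have h10 := three_dvd_of_odd h
      have h11 : p = 2 ^ m + 1 := by omega
      rw [← h11] at h10
      have h12 := (Nat.prime_dvd_prime_iff_eq Nat.prime_three hp).1 h10
      omega
  subst h9
  omega

/-- The arithmetic in the case of the sign minus with `4` dividing `t`. -/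
theorem arith_minus_four (hp : p.Prime) (hr : r.Prime) (hr3 : 3 ≤ r) {i : ℕ} (hi : 2 ≤ i) (hpr : r + 2 ^ i = p)
    (h2t : 2 * 2 ^ i + 1 = p) : False := by
  have hr1 : r = 2 ^ i + 1 := by omega
  have hp1 : p = 2 ^ (i + 1) + 1 := by
    rw [pow_succ]
    omega
  have h4 : 2 ^ 2 ≤ 2 ^ i := Nat.pow_le_pow_right (by norm_num) hi
  rcases Nat.mod_two_eq_zero_or_one i with h | h
  · have h10 := three_dvd_of_odd (m := i + 1) (by omega)
    rw [← hp1] at h10
    have h12 := (Nat.prime_dvd_prime_iff_eq Nat.prime_three hp).1 h10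
    omega
  · have h10 := three_dvd_of_odd h
    rw [← hr1] at h10
    have h12 := (Nat.prime_dvd_prime_iff_eq Nat.prime_three hr).1 h10
    omega

end Arith

section Reduce

variable [Fintype G] [IsSimpleGroup G] {t s : ℕ} {Xs Ys : Finset (IrrCharacter G)} {δ : IrrCharacter G → ℤ} {ε : ℤ}
  {deg : IrrCharacter G → ℕ} {q r b : ℕ}

/-- **The reduction.** -/
theorem reduce (D : BD0 p z t s Xs Ys δ ε deg) (hq : q.Prime) (hr : r.Prime) (hqr : q < r) (hrp : r < p)
    (hcard : Nat.card G = p * r * q ^ b) (hY : ∀ θ ∈ Ys, deg θ = r)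
    (hsign : (ε = 1 ∧ r = t) ∨ (ε = -1 ∧ r + t = p)) (ht : 2 ≤ t) (hs : 2 ≤ s)
    (hXq : ∀ χ ∈ Xs, χ ≠ oneIrr G → q ∣ deg χ)
    (hNc : Nat.card (normalizer ((zpowers z : Subgroup G) : Set G)) = t * p) :
    (q = 2 ∧ p = 7 ∧ r = 3 ∧ t = 3 ∧ ε = 1 ∧ s = 2) ∨ (q = 2 ∧ p = 5 ∧ r = 3 ∧ t = 2 ∧ ε = -1 ∧ s = 2) := by
  have hp := D.hp
  have hq2 := hq.two_le
  have hr3 : 3 ≤ r := by omega
  have hst := D.hst
  rcases hsign with ⟨hε, hrt⟩ | ⟨hε, hrt⟩
  · left
    subst hrt
    obtain ⟨m, -, -, hs2, hmX, χ, hχ1, hχm⟩ := D.tensor hε hY hs ht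
    obtain ⟨-, -, hdχ⟩ := hmX χ hχ1 hχm
    have hd := (D.hdeg χ).2.2
    rw [hdχ, hcard] at hd
    subst hs2
    obtain ⟨h1, h2, h3⟩ := arith_plus hp hq hr hr3 (by omega) hd
    exact ⟨h1, h2, h3, h3, hε, rfl⟩
  · right
    -- `t` is a power of `q`
    have hpos : 0 < p := hp.pos
    have h1 : t * p ∣ p * r * q ^ b := by
      rw [← hcard, ← hNc]
      exact Subgroup.card_subgroup_dvd_card _
    have h2 : t ∣ r * q ^ b := by
      rw [mul_comm t p, mul_assoc] at h1
      exact Nat.dvd_of_mul_dvd_mul_left hpos h1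
    have h3 : Nat.Coprime t r := by
      rw [Nat.coprime_comm, Nat.Prime.coprime_iff_not_dvd hr]
      intro h
      have h4 : r ∣ p := by
        rw [← hrt]
        exact dvd_add (dvd_refl r) h
      have := (Nat.prime_dvd_prime_iff_eq hr hp).1 h4
      omega
    have h4 : t ∣ q ^ b := h3.dvd_of_dvd_mul_left h2
    obtain ⟨i, -, hi⟩ := (Nat.dvd_prime_pow hq).1 h4
    have hi0 : 1 ≤ i := by
      rcases Nat.eq_zero_or_pos i with h | h
      · subst h
        simp at hi
        omega
      · exact h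
    have hqt : q ∣ t := by
      rw [hi]
      exact dvd_pow_self q (by omega)
    have htp : t ∣ p - 1 := by
      rw [← hst]
      simp
    obtain ⟨θ₀, hθ₀⟩ : Ys.Nonempty := by
      rw [← Finset.card_pos, D.hYc]
      omega
    have hrel := D.rel_one hθ₀
    rw [hY θ₀ hθ₀, hε, ← Finset.add_sum_erase _ _ D.hone, D.hδone, D.deg_one'] at hrel
    push_cast at hrel
    have hdvdsum : ∀ (A : Finset (IrrCharacter G)) (m : ℤ), (∀ χ ∈ A, χ ∈ Xs ∧ χ ≠ oneIrr G ∧ m ∣ (deg χ : ℤ)) →
        m ∣ ∑ χ ∈ A, δ χ * (deg χ : ℤ) := by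
      intro A m hA
      apply Finset.dvd_sum
      intro χ hχ
      exact Dvd.dvd.mul_left (hA χ hχ).2.2 _
    have hsumq := hdvdsum (Xs.erase (oneIrr G)) (q : ℤ) (fun χ hχ =>
      ⟨Finset.mem_of_mem_erase hχ, Finset.ne_of_mem_erase hχ, by
        exact_mod_cast hXq χ (Finset.mem_of_mem_erase hχ) (Finset.ne_of_mem_erase hχ)⟩)
    have h5 : (q : ℤ) ∣ (r : ℤ) + 1 := by
      have e : (r : ℤ) + 1 = -(∑ χ ∈ Xs.erase (oneIrr G), δ χ * (deg χ : ℤ)) := by linarith
      rw [e]
      exact (dvd_neg).2 hsumq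
    have h6 : q ∣ r + 1 := by exact_mod_cast h5
    have h7 : q ∣ p + 1 := by
      have e : p + 1 = (r + 1) + t := by omega
      rw [e]
      exact dvd_add h6 hqt
    have h8 : q ∣ p - 1 := dvd_trans hqt htp
    have h9 : q ∣ 2 := by
      have e : 2 = (p + 1) - (p - 1) := by omega
      rw [e]
      exact Nat.dvd_sub h7 h8
    have hq2' : q = 2 := by
      have := Nat.le_of_dvd (by norm_num) h9
      omega
    subst hq2'
    rcases Nat.lt_or_ge i 2 with hi2 | hi2
    · -- `t = 2`
      have hi1 : i = 1 := by omega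
      subst hi1
      rw [pow_one] at hi
      subst hi
      obtain ⟨χ₂, hχ₂⟩ : (Xs.erase (oneIrr G)).Nonempty := by
        rw [← Finset.card_pos, Finset.card_erase_of_mem D.hone, D.hXc]
        norm_num
      have hcard1 : (Xs.erase (oneIrr G)).card = 1 := by
        rw [Finset.card_erase_of_mem D.hone, D.hXc]
      obtain ⟨c, hc⟩ := Finset.card_eq_one.mp hcard1
      rw [hc, Finset.sum_singleton] at hrel
      have hcX : c ∈ Xs := by
        have : c ∈ Xs.erase (oneIrr G) := by rw [hc]; simp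
        exact Finset.mem_of_mem_erase this
      have hd : (deg c : ℤ) = (r : ℤ) + 1 := by
        rcases D.hδ c hcX with h | h <;> rw [h] at hrel
        · have h10 : (0 : ℤ) ≤ deg c := by positivity
          have h11 : (0 : ℤ) ≤ r := by positivity
          omega
        · linarith
      have hd' : deg c = r + 1 := by exact_mod_cast hd
      have hdd := (D.hdeg c).2.2
      rw [hd', hcard] at hdd
      obtain ⟨h10, h11⟩ := arith_minus_two hp hr hr3 hrt hdd
      refine ⟨rfl, h10, h11, rfl, hε, ?_⟩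
      omega
    · -- `4` divides `t`
      exfalso
      have h4t : 4 ∣ t := by
        rw [hi]
        exact pow_dvd_pow 2 hi2
      have h4p : 4 ∣ p - 1 := dvd_trans h4t htp
      obtain ⟨χ, hχ, hχ4⟩ : ∃ χ ∈ Xs.erase (oneIrr G), ¬ 4 ∣ deg χ := by
        by_contra hno
        push Not at hno
        have hsum4 := hdvdsum (Xs.erase (oneIrr G)) 4 (fun χ hχ =>
          ⟨Finset.mem_of_mem_erase hχ, Finset.ne_of_mem_erase hχ, by exact_mod_cast hno χ hχ⟩)
        have h10 : (4 : ℤ) ∣ (r : ℤ) + 1 := by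
          have e : (r : ℤ) + 1 = -(∑ χ ∈ Xs.erase (oneIrr G), δ χ * (deg χ : ℤ)) := by linarith
          rw [e]
          exact (dvd_neg).2 hsum4
        have h11 : 4 ∣ r + 1 := by exact_mod_cast h10
        omega
      have hχX := Finset.mem_of_mem_erase hχ
      have hχ1 := Finset.ne_of_mem_erase hχ
      have h2d := hXq χ hχX hχ1
      obtain ⟨d, hd⟩ := h2d
      have hdodd : ¬ 2 ∣ d := by
        intro h
        apply hχ4
        rw [hd]
        exact mul_dvd_mul (dvd_refl 2) h
      have hddv := (D.hdeg χ).2.2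
      rw [hcard, hd] at hddv
      have h10 : d ∣ p * r := by
        have h11 : d ∣ p * r * 2 ^ b := dvd_trans (Dvd.intro_left 2 rfl) hddv
        have h12 : Nat.Coprime d (2 ^ b) := Nat.Coprime.pow_right b
          ((Nat.Prime.coprime_iff_not_dvd Nat.prime_two).2 hdodd).symm
        exact h12.dvd_of_dvd_mul_right h11
      have hXm := D.hXdeg χ hχX
      have hpnd : ¬ p ∣ d := by
        intro hh
        have h11 : (p : ℤ) ∣ (deg χ : ℤ) := by
          have : p ∣ deg χ := by
            rw [hd]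
            exact Dvd.dvd.mul_left hh 2
          exact_mod_cast this
        have h12 : (p : ℤ) ∣ δ χ := (Int.ModEq.dvd_iff hXm).1 h11
        have hp5 : (5 : ℤ) ≤ p := by
          have : 5 ≤ p := by omega
          exact_mod_cast this
        rcases D.hδ χ hχX with h13 | h13 <;> rw [h13] at h12
        · have := Int.le_of_dvd (by norm_num) h12
          omega
        · have := Int.le_of_dvd (by norm_num) ((dvd_neg).2 h12)
          omega
      have h11 : Nat.Coprime d p := ((Nat.Prime.coprime_iff_not_dvd hp).2 hpnd).symm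
      have h12 : d ∣ r := h11.dvd_of_dvd_mul_left h10
      have hp5 : (5 : ℤ) ≤ p := by
        have : 5 ≤ p := by omega
        exact_mod_cast this
      have hdvdm := Int.modEq_iff_dvd.mp hXm
      rcases (Nat.dvd_prime hr).1 h12 with h13 | h13
      · -- degree two
        rw [hd, h13] at hdvdm
        rcases D.hδ χ hχX with h14 | h14 <;> rw [h14] at hdvdm
        · have := Int.le_of_dvd (by norm_num) ((dvd_neg).2 hdvdm)
          omega
        · have := Int.le_of_dvd (by norm_num) ((dvd_neg).2 hdvdm)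
          omega
      · -- degree `2 r`
        rw [hd, h13] at hdvdm
        have hrz : (r : ℤ) + t = p := by exact_mod_cast hrt
        have hst2 : 2 * t + 1 ≤ p := by
          rw [← hst]
          have := Nat.mul_le_mul_right t hs
          omega
        have hst2z : 2 * (t : ℤ) + 1 ≤ p := by exact_mod_cast hst2
        have ht0z : (2 : ℤ) ≤ t := by exact_mod_cast ht
        rcases D.hδ χ hχX with h14 | h14 <;> rw [h14] at hdvdm
        · -- `p ∣ 2 t + 1`
          have h15 : (p : ℤ) ∣ 2 * (t : ℤ) + 1 := by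
            obtain ⟨c, hc⟩ := hdvdm
            refine ⟨c + 2, ?_⟩
            push_cast at hc
            have e1 : (r : ℤ) = p - t := by linarith
            rw [e1] at hc
            linear_combination hc
          have h16 := Int.le_of_dvd (by omega) h15
          have h17 : 2 * t + 1 = p := by
            have : 2 * (t : ℤ) + 1 = p := by omega
            exact_mod_cast this
          rw [hi] at h17 hrt
          exact arith_minus_four hp hr hr3 hi2 hrt h17
        · -- `p ∣ 2 t - 1`
          have h15 : (p : ℤ) ∣ 2 * (t : ℤ) - 1 := by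
            obtain ⟨c, hc⟩ := hdvdm
            refine ⟨c + 2, ?_⟩
            push_cast at hc
            have e1 : (r : ℤ) = p - t := by linarith
            rw [e1] at hc
            linear_combination hc
          have h16 := Int.le_of_dvd (by omega) h15
          omega

end Reduce

end Cfsg.Agent.Lib.BR
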