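import Cfsg.Agent.Lib.BR.Tens4

/-!
# The closure of a set of characters under the product with a faithful character, and the block at the prime 3
-/

set_option autoImplicit false
set_option linter.unusedSectionVars false
set_option linter.style.haveILetI false
set_option linter.unusedSimpArgs false
set_option linter.unnecessarySimpa false
set_option linter.unusedVariables false
set_option maxSynthPendingDepth 3

open scoped ComplexConjugate
open Subgroup

namespace Cfsg.Agent.Lib.BR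

open Cfsg (classInner IsCharacter IsIrrCharacter IrrCharacter IsClassFunction indFun
  extendByZero IsGeneralizedCharacter IsPModular principalBlock)
open Cfsg.Agent.Lib.Char
open Cfsg.Agent.Lib.Block hiding tr
open Cfsg.Agent.Lib.SmallSimple.BB
open Cfsg.Agent.Lib.FF

universe u

variable {G : Type u} [Group G] {p : ℕ} {z : G}

section Closure

variable [Fintype G]

/-- A power of a class function. -/
theorem isClassFunction_pow (θ : IrrCharacter G) (k : ℕ) : IsClassFunction G (fun g => (θ : G → ℂ) g ^ k) := by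
  intro g x
  simp only [IsCharacter.conj_apply (IsIrrCharacter.isCharacter θ.2) g x]

open _root_.Classical in
/-- **Burnside--Brauer**: a set of irreducible characters containing the principal one and closed under
the product with a faithful character contains all the irreducible characters. -/
theorem irr_mem_of_closed (θ : IrrCharacter G) (hfaith : ∀ g : G, (θ : G → ℂ) g = (θ : G → ℂ) 1 → g = 1)
    (hne : ∀ χ : IrrCharacter G, (χ : G → ℂ) 1 ≠ 0) (S : Finset (IrrCharacter G)) (h1 : oneIrr G ∈ S)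
    (hcl : ∀ σ ∈ S, ∀ χ : IrrCharacter G, χ ∉ S → classInner (fun g => (θ : G → ℂ) g * (σ : G → ℂ) g) (χ : G → ℂ) = 0) :
    ∀ χ : IrrCharacter G, χ ∈ S := by
  have hk : ∀ k : ℕ, ∀ ψ : IrrCharacter G, ψ ∉ S → classInner (fun g => (θ : G → ℂ) g ^ k) (ψ : G → ℂ) = 0 := by
    intro k
    induction k with
    | zero =>
      intro ψ hψ
      have e : (fun g : G => (θ : G → ℂ) g ^ 0) = ((oneIrr G : IrrCharacter G) : G → ℂ) := by
        funext g
        simp
        rfl
      rw [e]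
      exact classInner_irr_of_ne (oneIrr G).2 ψ.2 (fun h => hψ (by
        have : ψ = oneIrr G := Subtype.ext h.symm
        rw [this]
        exact h1))
    | succ k ih =>
      intro ψ hψ
      have h2 := classFunction_eq_sum _ (isClassFunction_pow θ k)
      have e : (fun g : G => (θ : G → ℂ) g ^ (k + 1)) = ∑ σ : IrrCharacter G,
          classInner (fun g : G => (θ : G → ℂ) g ^ k) (σ : G → ℂ) • (fun g => (θ : G → ℂ) g * (σ : G → ℂ) g) := by
        funext g
        have h3 := congrFun h2 g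
        simp only [Finset.sum_apply, Pi.smul_apply, smul_eq_mul] at h3 ⊢
        rw [pow_succ, h3, Finset.sum_mul]
        refine Finset.sum_congr rfl fun σ _ => ?_
        ring
      rw [e, classInner_sum_left]
      apply Finset.sum_eq_zero
      intro σ _
      rw [classInner_smul_left]
      by_cases hσ : σ ∈ S
      · rw [hcl σ hσ ψ hψ, mul_zero]
      · rw [ih σ hσ, zero_mul]
  intro χ
  by_contra hχ
  have hc0 : ((Nat.card G : ℂ)⁻¹) ≠ 0 := inv_ne_zero (card_ne_zero_complex G)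
  have hpow : ∀ k : ℕ, ∑ g : G, (θ : G → ℂ) g ^ k * conj ((χ : G → ℂ) g) = 0 := by
    intro k
    have h2 := hk k χ hχ
    rw [classInner_def] at h2
    rcases mul_eq_zero.mp h2 with h3 | h3
    · exact absurd h3 hc0
    · exact h3
  have hpoly : ∀ P : Polynomial ℂ, ∑ g : G, P.eval ((θ : G → ℂ) g) * conj ((χ : G → ℂ) g) = 0 := by
    intro P
    simp only [Polynomial.eval_eq_sum_range, Finset.sum_mul]
    rw [Finset.sum_comm]
    apply Finset.sum_eq_zero
    intro i _
    have : ∀ g : G, P.coeff i * (θ : G → ℂ) g ^ i * conj ((χ : G → ℂ) g) =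
        P.coeff i * ((θ : G → ℂ) g ^ i * conj ((χ : G → ℂ) g)) := fun g => by ring
    simp only [this]
    rw [← Finset.mul_sum, hpow i, mul_zero]
  obtain ⟨V, hV⟩ : ∃ V : Finset ℂ, V = (Finset.univ.image (θ : G → ℂ)).erase ((θ : G → ℂ) 1) := ⟨_, rfl⟩
  have h2 := hpoly (∏ v ∈ V, (Polynomial.X - Polynomial.C v))
  simp only [Polynomial.eval_prod, Polynomial.eval_sub, Polynomial.eval_X, Polynomial.eval_C] at h2
  rw [Finset.sum_eq_single (1 : G)] at h2
  · rcases mul_eq_zero.mp h2 with h3 | h3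
    · rw [Finset.prod_eq_zero_iff] at h3
      obtain ⟨v, hv, h4⟩ := h3
      rw [hV] at hv
      exact (Finset.ne_of_mem_erase hv) (sub_eq_zero.mp h4).symm
    · exact hne χ (by simpa using h3)
  · intro g _ hg
    have h3 : ∏ v ∈ V, ((θ : G → ℂ) g - v) = 0 := by
      apply Finset.prod_eq_zero (i := (θ : G → ℂ) g)
      · rw [hV]
        refine Finset.mem_erase.mpr ⟨fun h => hg (hfaith g h), ?_⟩
        exact Finset.mem_image_of_mem _ (Finset.mem_univ g)
      · ring
    rw [h3, zero_mul]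
  · intro h
    exact absurd (Finset.mem_univ _) h

open _root_.Classical in
/-- A constituent of small degree. -/
theorem inner_eq_zero_of_deg (deg : IrrCharacter G → ℕ) (hdeg : ∀ χ : IrrCharacter G, (χ : G → ℂ) 1 = deg χ)
    {Φ : G → ℂ} (hΦ : IsCharacter G Φ) {D : ℕ} (hD : Φ 1 = D) (A : Finset (IrrCharacter G))
    (hA : ∀ c ∈ A, classInner Φ (c : G → ℂ) ≠ 0) {χ : IrrCharacter G} (hχ : χ ∉ A)
    (hbig : D < deg χ + ∑ c ∈ A, deg c) : classInner Φ (χ : G → ℂ) = 0 := by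
  choose n hn using fun ψ : IrrCharacter G => classInner_isCharacter_nat hΦ (IsIrrCharacter.isCharacter ψ.2)
  have h1 := congrFun (classFunction_eq_sum Φ (IsCharacter.isClassFunction hΦ)) 1
  simp only [Finset.sum_apply, Pi.smul_apply, smul_eq_mul] at h1
  have h2 : ∑ ψ : IrrCharacter G, n ψ * deg ψ = D := by
    have h3 : ((∑ ψ : IrrCharacter G, n ψ * deg ψ : ℕ) : ℂ) = (D : ℂ) := by
      rw [← hD, h1]
      push_cast
      refine Finset.sum_congr rfl fun ψ _ => ?_
      rw [hn ψ, hdeg ψ]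
    exact_mod_cast h3
  by_contra hne
  have hn1 : ∀ ψ ∈ insert χ A, 1 ≤ n ψ := by
    intro ψ hψ
    rcases Finset.mem_insert.mp hψ with h | h
    · rw [h]
      rw [hn χ] at hne
      exact Nat.pos_of_ne_zero (fun h0 => hne (by simp [h0]))
    · have := hA ψ h
      rw [hn ψ] at this
      exact Nat.pos_of_ne_zero (fun h0 => this (by simp [h0]))
  have h3 : ∑ ψ ∈ insert χ A, deg ψ ≤ ∑ ψ : IrrCharacter G, n ψ * deg ψ := by
    calc ∑ ψ ∈ insert χ A, deg ψ ≤ ∑ ψ ∈ insert χ A, n ψ * deg ψ := by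
          apply Finset.sum_le_sum
          intro ψ hψ
          exact Nat.le_mul_of_pos_left _ (hn1 ψ hψ)
      _ ≤ ∑ ψ : IrrCharacter G, n ψ * deg ψ :=
          Finset.sum_le_sum_of_subset (Finset.subset_univ _)
  rw [Finset.sum_insert hχ, h2] at h3
  omega

/-- The sum of the squares of the degrees. -/
theorem sum_deg_sq_eq (deg : IrrCharacter G → ℕ) (hdeg : ∀ χ : IrrCharacter G, (χ : G → ℂ) 1 = deg χ) :
    ∑ χ : IrrCharacter G, (deg χ) ^ 2 = Nat.card G := by
  have h1 := sum_degree_sq (G := G)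
  simp only [hdeg] at h1
  exact_mod_cast h1

/-- Sum over the cyclic group of order two. -/
theorem sum_zpowers_two {y : G} (hy : orderOf y = 2) (F : G → ℂ) [DecidablePred (fun g : G => g ∈ zpowers y)] :
    ∑ g ∈ Finset.univ.filter (fun g : G => g ∈ zpowers y), F g = F 1 + F y := by
  classical
  have hy1 : y ≠ 1 := by
    rintro rfl
    rw [orderOf_one] at hy
    omega
  have h1 : Finset.univ.filter (fun g : G => g ∈ zpowers y) = {1, y} := by
    ext g
    simp only [Finset.mem_filter, Finset.mem_univ, true_and, Finset.mem_insert, Finset.mem_singleton]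
    constructor
    · intro hg
      obtain ⟨k, rfl⟩ := mem_zpowers_iff.mp hg
      have h2 : y ^ k = y ^ (k % (orderOf y : ℤ)) := (zpow_mod_orderOf y k).symm
      rw [h2, hy]
      rcases Int.emod_two_eq_zero_or_one k with h3 | h3
      · left
        rw [show ((2 : ℕ) : ℤ) = 2 from rfl, h3, zpow_zero]
      · right
        rw [show ((2 : ℕ) : ℤ) = 2 from rfl, h3, zpow_one]
    · rintro (rfl | rfl)
      · exact one_mem _
      · exact mem_zpowers _
  rw [h1, Finset.sum_pair (Ne.symm hy1)]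

end Closure

section Three

variable [Fintype G] [IsSimpleGroup G] {w : G}

open _root_.Classical in
/-- **The principal block at the prime three**, for a Sylow subgroup of order three. -/
theorem three_data (hnc : ¬ IsMulCommutative G) (hw : orderOf w = 3) (h9 : ¬ 3 ^ 2 ∣ Nat.card G)
    (deg : IrrCharacter G → ℕ) (hdeg : ∀ χ : IrrCharacter G, (χ : G → ℂ) 1 = deg χ) :
    ∃ (B : Finset (IrrCharacter G)) (κ : IrrCharacter G → ℤ) (M : Ideal Cfsg.AlgInt), IsPModular 3 M ∧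
      (∀ χ : IrrCharacter G, χ ∈ principalBlock M G ↔ χ ∈ B) ∧ B.card = 3 ∧ oneIrr G ∈ B ∧ κ (oneIrr G) = 1 ∧
      (∀ χ ∈ B, κ χ = 1 ∨ κ χ = -1) ∧ (∀ χ ∈ B, (deg χ : ℤ) ≡ κ χ [ZMOD 3]) ∧
      (∀ χ ∈ B, ∑ u ∈ Finset.univ.filter (fun u : G => u ∈ zpowers w ∧ u ≠ 1), (χ : G → ℂ) u = 2 * (κ χ : ℂ)) ∧
      ∑ χ ∈ B, κ χ * (deg χ : ℤ) = 0 := by
  haveI hfp : Fact (Nat.Prime 3) := ⟨Nat.prime_three⟩
  obtain ⟨Q, hQ, hQc⟩ := exists_sylow_of_sq hw h9
  obtain ⟨e, he1, he2, hN⟩ := Lib.SmallSimple.BA.norm_data hnc Q hQc hw hQ.symm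
  have he : e = 2 := by
    have h1 : e ≤ 2 := Nat.le_of_dvd (by norm_num) he1
    have h2 : e ≠ 0 := by
      rintro rfl
      simpa using he1
    omega
  subst he
  obtain ⟨M, hM⟩ := exists_isPModular 3 Nat.prime_three
  obtain ⟨X, Y, δ, ε, deg', hdeg', hB, hdisj, hXc, hYt, he0, hXd, hε, hYdeg, hYeq, hrel, hYsum⟩ :=
    block_ext hM hw h9 2 hN
  have hdd : ∀ χ : IrrCharacter G, deg' χ = deg χ := by
    intro χ
    have h1 := (hdeg' χ).1
    rw [hdeg χ] at h1
    exact_mod_cast h1.symm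
  have hYc : Y.card = 1 := by omega
  obtain ⟨θ, hθ⟩ := Finset.card_eq_one.mp hYc
  have hθY : θ ∈ Y := by rw [hθ]; simp
  have hθX : θ ∉ X := fun h => (Finset.disjoint_left.mp hdisj h) hθY
  have hcardP : ((Finset.univ.filter (fun u : G => u ∈ zpowers w ∧ u ≠ 1)).card : ℂ) = 2 := by
    have h1 := card_Pn hw Nat.prime_three
    have h2 : (Finset.univ.filter (fun u : G => u ∈ zpowers w ∧ u ≠ 1)).card = 2 := by omega
    rw [h2]
    norm_num
  haveI hMp : M.IsPrime := hM.2.1.isPrime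
  have h1B : oneIrr G ∈ X ∪ Y := by
    rw [Finset.mem_union]
    exact (hB _).1 (mem_blockOf_self (oneIrr G))
  have hone_deg : deg (oneIrr G) = 1 := by
    have h1 : ((oneIrr G : IrrCharacter G) : G → ℂ) 1 = 1 := rfl
    have h2 := hdeg (oneIrr G)
    rw [h1] at h2
    exact_mod_cast h2.symm
  obtain ⟨κ, hκ⟩ : ∃ κ : IrrCharacter G → ℤ, κ = fun χ => if χ ∈ X then δ χ else -ε := ⟨_, rfl⟩
  have hκX : ∀ χ ∈ X, κ χ = δ χ := by
    intro χ hχ
    rw [hκ]
    simp [hχ]
  have hκY : κ θ = -ε := by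
    rw [hκ]
    simp [hθX]
  have hmemB : ∀ χ, χ ∈ X ∪ Y ↔ χ ∈ X ∨ χ = θ := by
    intro χ
    rw [Finset.mem_union, hθ, Finset.mem_singleton]
  have hκ1 : ∀ χ ∈ X ∪ Y, κ χ = 1 ∨ κ χ = -1 := by
    intro χ hχ
    rcases (hmemB χ).1 hχ with h | h
    · rw [hκX χ h]
      exact (hXd χ h).1
    · rw [h, hκY]
      rcases hε with h2 | h2
      · right
        rw [h2]
      · left
        rw [h2]
        norm_num
  have hκm : ∀ χ ∈ X ∪ Y, (deg χ : ℤ) ≡ κ χ [ZMOD 3] := by
    intro χ hχ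
    rcases (hmemB χ).1 hχ with h | h
    · rw [hκX χ h, ← hdd]
      exact (hXd χ h).2.1
    · rw [h, hκY, ← hdd]
      have h2 := hYdeg θ hθY
      push_cast at h2
      refine h2.trans ?_
      rw [Int.modEq_iff_dvd]
      refine ⟨-ε, ?_⟩
      ring
  refine ⟨X ∪ Y, κ, M, hM, fun χ => ?_, ?_, h1B, ?_, hκ1, hκm, ?_, ?_⟩
  · rw [hB, Finset.mem_union]
  · rw [Finset.card_union_of_disjoint hdisj, hXc, hYc]
  · have h2 := hκm _ h1B
    rw [hone_deg] at h2
    rcases hκ1 _ h1B with h3 | h3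
    · exact h3
    · exfalso
      rw [h3] at h2
      have h4 := Int.modEq_iff_dvd.mp h2
      norm_num at h4
  · intro χ hχ
    rcases (hmemB χ).1 hχ with h | h
    · rw [Finset.sum_congr rfl (fun u hu => (hXd χ h).2.2 u (Finset.mem_filter.mp hu).2.1
        (Finset.mem_filter.mp hu).2.2), Finset.sum_const, nsmul_eq_mul, hcardP, hκX χ h]
    · rw [h, hYsum θ hθY, hκY]
      push_cast
      ring
  · rw [Finset.sum_union hdisj, hθ, Finset.sum_singleton, hκY]
    have h2 := hrel θ hθY 1 (by norm_num)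
    rw [(hdeg' θ).1, hdd] at h2
    have h3 : ∀ χ ∈ X, (δ χ : ℂ) * (χ : G → ℂ) 1 = ((κ χ * (deg χ : ℤ) : ℤ) : ℂ) := by
      intro χ hχ
      rw [hdeg χ, hκX χ hχ]
      push_cast
      ring
    rw [Finset.sum_congr rfl h3] at h2
    have h4 : ((ε * (deg θ : ℤ) : ℤ) : ℂ) = ((∑ χ ∈ X, κ χ * (deg χ : ℤ) : ℤ) : ℂ) := by
      push_cast at h2 ⊢
      exact h2
    have h5 : ε * (deg θ : ℤ) = ∑ χ ∈ X, κ χ * (deg χ : ℤ) := by exact_mod_cast h4
    rw [← h5]
    ring

open _root_.Classical in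
/-- The structure of the principal block at the prime three in a group of order `p * 3 * 2 ^ b`. -/
theorem three_struct (hdeg1 : ∀ χ : IrrCharacter G, ∀ deg : ℕ, (χ : G → ℂ) 1 = deg → deg = 1 → χ = oneIrr G)
    (hp : p.Prime) (hpodd : p % 2 = 1) (hp3 : p ≠ 3) {b : ℕ} (hcard : Nat.card G = p * 3 * 2 ^ b)
    (B : Finset (IrrCharacter G)) (κ : IrrCharacter G → ℤ) (deg : IrrCharacter G → ℕ)
    (hdeg : ∀ χ : IrrCharacter G, (χ : G → ℂ) 1 = deg χ ∧ deg χ ≠ 0 ∧ deg χ ∣ Nat.card G)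
    (hBc : B.card = 3) (h1B : oneIrr G ∈ B) (hκ1 : κ (oneIrr G) = 1) (hκ : ∀ χ ∈ B, κ χ = 1 ∨ κ χ = -1)
    (hκm : ∀ χ ∈ B, (deg χ : ℤ) ≡ κ χ [ZMOD 3]) (hsum : ∑ χ ∈ B, κ χ * (deg χ : ℤ) = 0) :
    ∃ η ξ : IrrCharacter G, η ≠ ξ ∧ η ≠ oneIrr G ∧ ξ ≠ oneIrr G ∧ B = {oneIrr G, η, ξ} ∧ deg η = p ∧
      (p : ℤ) ≡ κ η [ZMOD 3] ∧ 1 + κ η * (p : ℤ) + κ ξ * (deg ξ : ℤ) = 0 := by
  have hone_deg : deg (oneIrr G) = 1 := by
    have h1 : ((oneIrr G : IrrCharacter G) : G → ℂ) 1 = 1 := rfl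
    have h2 := (hdeg (oneIrr G)).1
    rw [h1] at h2
    exact_mod_cast h2.symm
  have hcard2 : (B.erase (oneIrr G)).card = 2 := by
    rw [Finset.card_erase_of_mem h1B, hBc]
  obtain ⟨a, c, hac, hBe⟩ := Finset.card_eq_two.mp hcard2
  have haB : a ∈ B ∧ a ≠ oneIrr G := by
    have : a ∈ B.erase (oneIrr G) := by rw [hBe]; simp
    exact ⟨Finset.mem_of_mem_erase this, Finset.ne_of_mem_erase this⟩
  have hcB : c ∈ B ∧ c ≠ oneIrr G := by
    have : c ∈ B.erase (oneIrr G) := by rw [hBe]; simp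
    exact ⟨Finset.mem_of_mem_erase this, Finset.ne_of_mem_erase this⟩
  have hBeq : B = {oneIrr G, a, c} := by
    rw [← hBe, Finset.insert_erase h1B]
  have hrel : 1 + κ a * (deg a : ℤ) + κ c * (deg c : ℤ) = 0 := by
    rw [← Finset.add_sum_erase _ _ h1B, hBe, Finset.sum_pair hac, hκ1, hone_deg] at hsum
    push_cast at hsum
    linarith
  -- an odd degree is the degree of the prime
  have hodd : ∀ χ ∈ B, χ ≠ oneIrr G → deg χ % 2 = 1 → deg χ = p := by
    intro χ hχ h1 h2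
    have h3 := (hdeg χ).2.2
    rw [hcard] at h3
    have h4 : Nat.Coprime (deg χ) (2 ^ b) := Nat.Coprime.pow_right b
      ((Nat.coprime_two_right).2 (Nat.odd_iff.mpr h2))
    have h5 : deg χ ∣ p * 3 := h4.dvd_of_dvd_mul_right h3
    have h6 : ¬ 3 ∣ deg χ := by
      intro hd
      have h7 : (3 : ℤ) ∣ (deg χ : ℤ) := by exact_mod_cast hd
      have h8 : (3 : ℤ) ∣ κ χ := (Int.ModEq.dvd_iff (hκm χ hχ)).1 h7
      rcases hκ χ hχ with h9 | h9 <;> rw [h9] at h8 <;> omega
    have h7 : Nat.Coprime (deg χ) 3 := ((Nat.Prime.coprime_iff_not_dvd Nat.prime_three).2 h6).symm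
    have h8 : deg χ ∣ p := h7.dvd_of_dvd_mul_right h5
    rcases (Nat.dvd_prime hp).1 h8 with h9 | h9
    · exact absurd (hdeg1 χ _ (hdeg χ).1 h9) h1
    · exact h9
  -- one of the two degrees is odd
  have hpar : deg a % 2 = 1 ∨ deg c % 2 = 1 := by
    by_contra hno
    push Not at hno
    have h1 : (deg a : ℤ) % 2 = 0 := by omega
    have h2 : (deg c : ℤ) % 2 = 0 := by omega
    have h3 : (2 : ℤ) ∣ κ a * (deg a : ℤ) := Dvd.dvd.mul_left (Int.dvd_of_emod_eq_zero h1) _
    have h4 : (2 : ℤ) ∣ κ c * (deg c : ℤ) := Dvd.dvd.mul_left (Int.dvd_of_emod_eq_zero h2) _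
    omega
  rcases hpar with h1 | h1
  · have h2 := hodd a haB.1 haB.2 h1
    refine ⟨a, c, hac, haB.2, hcB.2, hBeq, h2, ?_, ?_⟩
    · have := hκm a haB.1
      rwa [h2] at this
    · rw [h2] at hrel
      exact hrel
  · have h2 := hodd c hcB.1 hcB.2 h1
    refine ⟨c, a, hac.symm, hcB.2, haB.2, ?_, h2, ?_, ?_⟩
    · rw [hBeq]
      ext x
      simp only [Finset.mem_insert, Finset.mem_singleton]
      tauto
    · have := hκm c hcB.1
      rwa [h2] at this
    · rw [h2] at hrel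
      linarith

/-- The centralizer of the element of order three. -/
theorem three_cent (hw : orderOf w = 3) (h9 : ¬ 3 ^ 2 ∣ Nat.card G) (hp : p.Prime) (hp3 : p ≠ 3) (hp2 : p ≠ 2) {b : ℕ}
    (hcard : Nat.card G = p * 3 * 2 ^ b) (hinv : ∀ y : G, Commute y w → orderOf y = 2 → y = 1)
    (hno : ∀ y : G, Commute y w → orderOf y = p → False) :
    centralizer ({w} : Set G) = zpowers w := by
  apply cent_of_reg Nat.prime_three hw h9
  intro y hy hyo
  by_contra hy1
  have ho : orderOf y ≠ 1 := fun h => hy1 (orderOf_eq_one_iff.mp h)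
  obtain ⟨ℓ, hℓ, hℓd⟩ := Nat.exists_prime_and_dvd ho
  have hℓG : ℓ ∣ p * 3 * 2 ^ b := by
    rw [← hcard]
    exact dvd_trans hℓd (orderOf_dvd_natCard y)
  have ho0 : orderOf y ≠ 0 := (orderOf_pos y).ne'
  have hor : orderOf (y ^ (orderOf y / ℓ)) = ℓ := orderOf_pow_orderOf_div ho0 hℓd
  have hcom : Commute (y ^ (orderOf y / ℓ)) w := hy.pow_left _
  have hne : y ^ (orderOf y / ℓ) ≠ 1 := by
    intro h
    rw [h, orderOf_one] at hor
    exact hℓ.one_lt.ne hor
  rcases (Nat.Prime.dvd_mul hℓ).1 hℓG with h1 | h1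
  · rcases (Nat.Prime.dvd_mul hℓ).1 h1 with h2 | h2
    · have h3 : ℓ = p := (Nat.prime_dvd_prime_iff_eq hℓ hp).1 h2
      exact hno _ hcom (hor.trans h3)
    · have h3 : ℓ = 3 := (Nat.prime_dvd_prime_iff_eq hℓ Nat.prime_three).1 h2
      rw [h3] at hℓd
      exact hyo hℓd
  · have h3 : ℓ = 2 := (Nat.prime_dvd_prime_iff_eq hℓ Nat.prime_two).1 (hℓ.dvd_of_dvd_pow h1)
    exact hne (hinv _ hcom (hor.trans h3))

end Three

end Cfsg.Agent.Lib.BR
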