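import Cfsg.Agent.Lib.BR.Tens5

/-!
# The order of the group in the case `(p, r, q) = (5, 3, 2)`
-/

set_option autoImplicit false
set_option linter.unusedSectionVars false
set_option linter.style.haveILetI false
set_option linter.unusedSimpArgs false
set_option linter.unnecessarySimpa false
set_option linter.unusedVariables false
set_option maxSynthPendingDepth 3

open scoped ComplexConjugate
open Subgroup

namespace Cfsg.Agent.Lib.BR

open Cfsg (classInner IsCharacter IsIrrCharacter IrrCharacter IsClassFunction indFun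
  extendByZero IsGeneralizedCharacter IsPModular principalBlock)
open Cfsg.Agent.Lib.Char
open Cfsg.Agent.Lib.Block hiding tr
open Cfsg.Agent.Lib.SmallSimple.BB
open Cfsg.Agent.Lib.FF

universe u

variable {G : Type u} [Group G] {p : ℕ} {z : G}

section Expand

variable [Fintype G]

/-- The expansion of the sum of a class function over a subset. -/
theorem sum_expand (A : Finset G) {F : G → ℂ} (hF : IsClassFunction G F) (B : Finset (IrrCharacter G))
    (hvan : ∀ χ : IrrCharacter G, χ ∉ B → ∑ u ∈ A, (χ : G → ℂ) u = 0) :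
    ∑ u ∈ A, F u = ∑ χ ∈ B, classInner F (χ : G → ℂ) * ∑ u ∈ A, (χ : G → ℂ) u := by
  have h1 : ∀ u : G, F u = ∑ χ : IrrCharacter G, classInner F (χ : G → ℂ) * (χ : G → ℂ) u := by
    intro u
    have h2 := congrFun (classFunction_eq_sum F hF) u
    simp only [Finset.sum_apply, Pi.smul_apply, smul_eq_mul] at h2
    exact h2
  simp only [h1]
  rw [Finset.sum_comm]
  simp only [← Finset.mul_sum]
  symm
  apply Finset.sum_subset (Finset.subset_univ _)
  intro χ _ hχ
  rw [hvan χ hχ, mul_zero]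

/-- The product with a conjugate. -/
theorem isCharacter_mul_conj (θ σ : IrrCharacter G) :
    IsCharacter G (fun g => (θ : G → ℂ) g * conj ((σ : G → ℂ) g)) :=
  IsCharacter.mul (IsIrrCharacter.isCharacter θ.2) (IsCharacter.conj_char (IsIrrCharacter.isCharacter σ.2))

/-- The product of two irreducible characters. -/
theorem isCharacter_mul' (θ σ : IrrCharacter G) :
    IsCharacter G (fun g => (θ : G → ℂ) g * (σ : G → ℂ) g) :=
  IsCharacter.mul (IsIrrCharacter.isCharacter θ.2) (IsIrrCharacter.isCharacter σ.2)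

/-- Frobenius reciprocity for products. -/
theorem inner_reciprocity (θ σ χ : IrrCharacter G) :
    classInner (fun g => (θ : G → ℂ) g * (σ : G → ℂ) g) (χ : G → ℂ) =
      conj (classInner (fun g => (χ : G → ℂ) g * conj ((σ : G → ℂ) g)) (θ : G → ℂ)) := by
  rw [classInner_def, classInner_def, map_mul, map_sum, map_inv₀, Complex.conj_natCast]
  congr 1
  refine Finset.sum_congr rfl fun g _ => ?_
  simp only [map_mul, Complex.conj_conj]
  ring

open _root_.Classical in
/-- The values of a principal block character on the products. -/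
theorem hval_of_block [hfp : Fact p.Prime] {M : Ideal Cfsg.AlgInt} (hM : IsPModular p M) (hz : orderOf z = p)
    (hsq : ¬ p ^ 2 ∣ Nat.card G) {θ : IrrCharacter G} (hθB : θ ∈ principalBlock M G) {y : G} (hy : Commute y z)
    (hyo : ¬ p ∣ orderOf y) :
    ∀ b ∈ zpowers y, ∀ u ∈ zpowers z, u ≠ 1 → (θ : G → ℂ) (u * b) = (θ : G → ℂ) u := by
  have hpr := hfp.out
  obtain ⟨K, hK⟩ := exists_compK (p := p) hz hsq
  intro b hb u hu hu1
  obtain ⟨i, rfl⟩ := mem_zpowers_iff.mp hb
  have hbK : y ^ i ∈ K := by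
    apply hK.reg
    · exact hy.zpow_left i
    · intro hd
      apply hyo
      exact dvd_trans hd (orderOf_dvd_of_mem_zpowers hb)
  have huo := orderOf_of_mem hpr hz hu hu1
  exact irr_mul_of_principal hM ⟨1, by rw [huo, pow_one]⟩ (mem_core_of_compK hK hz hu hu1 hbK) θ hθB

end Expand

section Final

variable [Fintype G] [IsSimpleGroup G] {t s : ℕ} {Xs Ys : Finset (IrrCharacter G)} {δ : IrrCharacter G → ℤ} {ε : ℤ}
  {deg : IrrCharacter G → ℕ}

open _root_.Classical in
/-- **The order in the case of the prime five.** -/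
theorem final5 (hnc : ¬ IsMulCommutative G) {b : ℕ} (hcard : Nat.card G = 5 * 3 * 2 ^ b)
    (D : BD0 5 z 2 2 Xs Ys δ ε deg) (hε : ε = -1) (hY : ∀ θ ∈ Ys, deg θ = 3)
    (hcent : ∀ z' : G, orderOf z' = 5 → centralizer ({z'} : Set G) = zpowers z') : Nat.card G = 60 := by
  haveI hf3 : Fact (Nat.Prime 3) := ⟨Nat.prime_three⟩
  haveI hf5 : Fact (Nat.Prime 5) := ⟨by norm_num⟩
  have hp5 : Nat.Prime 5 := by norm_num
  have h9 : ¬ 3 ^ 2 ∣ Nat.card G := by
    rw [hcard]
    intro h
    have h1 : 3 * 3 ∣ 3 * (5 * 2 ^ b) := by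
      have e1 : 3 * (5 * 2 ^ b) = 5 * 3 * 2 ^ b := by ring
      rw [e1]
      simpa [pow_two] using h
    have h2 : 3 ∣ 5 * 2 ^ b := Nat.dvd_of_mul_dvd_mul_left (by norm_num) h1
    rcases (Nat.Prime.dvd_mul Nat.prime_three).1 h2 with h3 | h3
    · omega
    · have := Nat.prime_three.dvd_of_dvd_pow h3
      omega
  have h3d : 3 ∣ Nat.card G := by
    rw [hcard]
    exact Dvd.dvd.mul_right (Dvd.intro_left 5 rfl) _
  obtain ⟨w, hw⟩ := exists_prime_orderOf_dvd_card' 3 h3d
  have hdeg' : ∀ χ : IrrCharacter G, (χ : G → ℂ) 1 = deg χ := fun χ => (D.hdeg χ).1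
  obtain ⟨B, κ, M, hM, hB, hBc, h1B, hκ1, hκ, hκm, hκsum, hsum⟩ := three_data hnc hw h9 deg hdeg'
  have hdeg1' : ∀ χ : IrrCharacter G, ∀ d : ℕ, (χ : G → ℂ) 1 = d → d = 1 → χ = oneIrr G := by
    intro χ d h1 h2
    apply D.hdeg1
    have h3 := (D.hdeg χ).1
    rw [h1, h2] at h3
    have : ((deg χ : ℕ) : ℂ) = 1 := by rw [← h3]; simp
    exact_mod_cast this
  obtain ⟨η, ξ, hηξ, hη1, hξ1, hBeq, hdη, hκη, hrel⟩ :=
    three_struct hdeg1' hp5 (by norm_num) (by norm_num) hcard B κ deg D.hdeg hBc h1B hκ1 hκ hκm hsum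
  have hηB : η ∈ B := by rw [hBeq]; simp
  have hξB : ξ ∈ B := by rw [hBeq]; simp
  have hκηv : κ η = -1 := by
    rcases hκ η hηB with h | h
    · exfalso
      rw [h] at hκη
      have := Int.modEq_iff_dvd.mp hκη
      norm_num at this
    · exact h
  have hdξz : κ ξ = 1 ∧ deg ξ = 4 := by
    rw [hκηv] at hrel
    push_cast at hrel
    rcases hκ ξ hξB with h | h <;> rw [h] at hrel
    · refine ⟨h, ?_⟩
      have : (deg ξ : ℤ) = 4 := by linarith
      exact_mod_cast this
    · exfalso
      have : (0 : ℤ) ≤ deg ξ := by positivity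
      omega
  obtain ⟨hκξ, hdξ⟩ := hdξz
  -- the characters in the block at five
  have hcardX : (Xs.erase (oneIrr G)).card = 1 := by
    rw [Finset.card_erase_of_mem D.hone, D.hXc]
  obtain ⟨c, hc⟩ := Finset.card_eq_one.mp hcardX
  have hcX : c ∈ Xs := by
    have : c ∈ Xs.erase (oneIrr G) := by rw [hc]; simp
    exact Finset.mem_of_mem_erase this
  have hc1 : c ≠ oneIrr G := by
    have : c ∈ Xs.erase (oneIrr G) := by rw [hc]; simp
    exact Finset.ne_of_mem_erase this
  have hXsum : ∀ {R : Type} [AddCommMonoid R] (f : IrrCharacter G → R), ∑ χ ∈ Xs, f χ = f (oneIrr G) + f c := by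
    intro R _ f
    rw [← Finset.add_sum_erase _ _ D.hone, hc, Finset.sum_singleton]
  obtain ⟨θ₁, θ₂, h12, hYeq⟩ := Finset.card_eq_two.mp D.hYc
  have hθ₁ : θ₁ ∈ Ys := by rw [hYeq]; simp
  have hθ₂ : θ₂ ∈ Ys := by rw [hYeq]; simp
  have hdθ₁ := hY θ₁ hθ₁
  have hdθ₂ := hY θ₂ hθ₂
  have hrelc := D.rel_one hθ₁
  rw [hXsum, D.hδone, D.deg_one', hdθ₁, hε] at hrelc
  push_cast at hrelc
  have hcv : δ c = -1 ∧ deg c = 4 := by
    rcases D.hδ c hcX with h | h <;> rw [h] at hrelc
    · exfalso
      have : (0 : ℤ) ≤ deg c := by positivity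
      omega
    · refine ⟨h, ?_⟩
      have : (deg c : ℤ) = 4 := by linarith
      exact_mod_cast this
  obtain ⟨hδc, hdc⟩ := hcv
  -- `ξ = c`
  have hξc : ξ = c := by
    by_cases h1 : ξ ∈ Xs
    · have h2 : ξ ∈ Xs.erase (oneIrr G) := Finset.mem_erase.mpr ⟨hξ1, h1⟩
      rw [hc] at h2
      exact Finset.mem_singleton.mp h2
    · exfalso
      by_cases h2 : ξ ∈ Ys
      · have := hY ξ h2
        omega
      · have := D.fx_Z h1 h2
        omega
  subst hξc
  have h1nc : (oneIrr G : IrrCharacter G) ≠ θ₁ := by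
    intro h
    have := D.deg_one'
    rw [h, hdθ₁] at this
    omega
  have hθ₁1 : θ₁ ≠ oneIrr G := h1nc.symm
  -- the values on the regular elements
  have hregval : ∀ g : G, ¬ 5 ∣ orderOf g → (θ₁ : G → ℂ) g = (ξ : G → ℂ) g - 1 := by
    intro g hg
    have h1 := D.hrel θ₁ hθ₁ g hg
    rw [hXsum, D.hδone, hδc, hε] at h1
    have h2 : ((oneIrr G : IrrCharacter G) : G → ℂ) g = 1 := rfl
    rw [h2] at h1
    push_cast at h1
    linear_combination -h1
  -- no involutions commute with the element of order three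
  obtain ⟨w₀, hw₀⟩ := exists_ne_of_ne_one θ₁ hθ₁1
  have hinv : ∀ y : G, Commute y w → orderOf y = 2 → y = 1 := by
    intro y hy hyo
    have hξBl : ξ ∈ principalBlock M G := (hB ξ).2 hξB
    obtain ⟨f, -, hfe⟩ := exists_fx_prod Nat.prime_three hw hy (by rw [hyo]; norm_num) ξ
      (hval_of_block hM hw h9 hξBl hy (by rw [hyo]; norm_num))
    rw [hκsum ξ hξB, hκξ] at hfe
    have h1 := fx_sum ξ (zpowers y)
    rw [sum_zpowers_two hyo, hdeg' ξ, hdξ, Nat.card_zpowers, hyo] at h1
    have h2 := hregval y (by rw [hyo]; norm_num)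
    have h3 : (θ₁ : G → ℂ) y = ((6 * (f : ℤ) - 9 : ℤ) : ℂ) := by
      rw [h2]
      push_cast at h1 hfe ⊢
      linear_combination h1 - 2 * hfe
    have h4 := IsCharacter.norm_le' (IsIrrCharacter.isCharacter θ₁.2) y
    rw [hdeg' θ₁, hdθ₁, h3, Complex.norm_intCast] at h4
    simp only [Nat.cast_ofNat, Complex.re_ofNat] at h4
    have h5 : |6 * (f : ℤ) - 9| ≤ 3 := by
      have : ((|6 * (f : ℤ) - 9| : ℤ) : ℝ) ≤ ((3 : ℤ) : ℝ) := by
        push_cast
        push_cast at h4
        exact h4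
      exact_mod_cast this
    have h6 : |6 * (f : ℤ) - 9| = 3 := by
      rw [abs_le] at h5
      rcases abs_cases (6 * (f : ℤ) - 9) with ⟨h7, _⟩ | ⟨h7, _⟩ <;> rw [h7] <;> omega
    refine eq_one_of_norm_eq_deg hnc θ₁ hw₀ ?_
    rw [h3, Complex.norm_intCast, hdeg' θ₁, hdθ₁]
    have : ((|6 * (f : ℤ) - 9| : ℤ) : ℝ) = ((3 : ℤ) : ℝ) := by rw [h6]
    push_cast at this ⊢
    rw [this]
    simp
  have hno : ∀ y : G, Commute y w → orderOf y = 5 → False := by
    intro y hy hyo
    have h1 : w ∈ centralizer ({y} : Set G) := by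
      rw [mem_centralizer_singleton_iff]
      exact hy.symm.eq
    rw [hcent y hyo] at h1
    have h2 := orderOf_dvd_of_mem_zpowers h1
    rw [hw, hyo] at h2
    omega
  have hCw : centralizer ({w} : Set G) = zpowers w :=
    three_cent hw h9 hp5 (by norm_num) (by norm_num) hcard hinv hno
  have hvan : ∀ χ : IrrCharacter G, χ ∉ B → ∀ u : G, u ∈ zpowers w → u ≠ 1 → (χ : G → ℂ) u = 0 := by
    intro χ hχ u hu hu1
    exact vanish_outside hM hw hCw h9 χ (by rw [hB]; exact hχ) hu hu1
  have hvansum : ∀ χ : IrrCharacter G, χ ∉ B →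
      ∑ u ∈ Finset.univ.filter (fun u : G => u ∈ zpowers w ∧ u ≠ 1), (χ : G → ℂ) u = 0 := by
    intro χ hχ
    apply Finset.sum_eq_zero
    intro u hu
    exact hvan χ hχ u (Finset.mem_filter.mp hu).2.1 (Finset.mem_filter.mp hu).2.2
  have hθ₁B : θ₁ ∉ B := by
    intro h
    have h1 := hκm θ₁ h
    rw [hdθ₁] at h1
    rcases hκ θ₁ h with h2 | h2 <;> rw [h2] at h1
    · have := Int.modEq_iff_dvd.mp h1
      norm_num at this
    · have := Int.modEq_iff_dvd.mp h1
      norm_num at this
  -- the principal block at three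
  have hBsum : ∀ {R : Type} [AddCommMonoid R] (f : IrrCharacter G → R), ∑ χ ∈ B, f χ = f (oneIrr G) + (f η + f ξ) := by
    intro R _ f
    rw [hBeq, Finset.sum_insert, Finset.sum_pair hηξ]
    simp only [Finset.mem_insert, Finset.mem_singleton, not_or]
    exact ⟨hη1.symm, hξ1.symm⟩
  -- the product of the character with its conjugate contains the character of degree five
  have hinner : classInner (fun g => (θ₁ : G → ℂ) g * conj ((θ₁ : G → ℂ) g)) (η : G → ℂ) ≠ 0 := by
    have hFc := isCharacter_mul_conj θ₁ θ₁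
    have h1 := sum_expand (Finset.univ.filter (fun u : G => u ∈ zpowers w ∧ u ≠ 1))
      (IsCharacter.isClassFunction hFc) B hvansum
    have h2 : ∑ u ∈ Finset.univ.filter (fun u : G => u ∈ zpowers w ∧ u ≠ 1),
        (θ₁ : G → ℂ) u * conj ((θ₁ : G → ℂ) u) = 0 := by
      apply Finset.sum_eq_zero
      intro u hu
      rw [hvan θ₁ hθ₁B u (Finset.mem_filter.mp hu).2.1 (Finset.mem_filter.mp hu).2.2]
      simp
    rw [h2, hBsum, hκsum _ h1B, hκsum _ hηB, hκsum _ hξB, hκ1, hκηv, hκξ] at h1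
    have h3 : classInner (fun g => (θ₁ : G → ℂ) g * conj ((θ₁ : G → ℂ) g))
        ((oneIrr G : IrrCharacter G) : G → ℂ) = 1 := by
      have h4 := classInner_irr_self θ₁.2
      rw [classInner_def] at h4 ⊢
      rw [← h4]
      congr 1
      refine Finset.sum_congr rfl fun g _ => ?_
      have : ((oneIrr G : IrrCharacter G) : G → ℂ) g = 1 := rfl
      rw [this]
      simp
    rw [h3] at h1
    obtain ⟨n, hn⟩ := classInner_isCharacter_nat hFc (IsIrrCharacter.isCharacter ξ.2)
    rw [hn] at h1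
    intro h5
    rw [h5] at h1
    have h6 : ((1 + n : ℕ) : ℂ) = 0 := by
      push_cast at h1 ⊢
      linear_combination -h1 / 2
    have h7 : 1 + n = 0 := by exact_mod_cast h6
    omega
  -- the closure
  obtain ⟨S, hS⟩ : ∃ S : Finset (IrrCharacter G), S = {oneIrr G, θ₁, θ₂, ξ, η} := ⟨_, rfl⟩
  have hmemS : ∀ χ : IrrCharacter G, χ ∉ S → 15 ≤ deg χ := by
    intro χ hχ
    rw [hS] at hχ
    simp only [Finset.mem_insert, Finset.mem_singleton, not_or] at hχ
    obtain ⟨h1, h2, h3, h4, h5⟩ := hχ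
    have hXn : χ ∉ Xs := by
      intro h
      have h6 : χ ∈ Xs.erase (oneIrr G) := Finset.mem_erase.mpr ⟨h1, h⟩
      rw [hc] at h6
      exact h4 (Finset.mem_singleton.mp h6)
    have hYn : χ ∉ Ys := by
      intro h
      rw [hYeq] at h
      simp only [Finset.mem_insert, Finset.mem_singleton] at h
      rcases h with h | h
      · exact h2 h
      · exact h3 h
    have hBn : χ ∉ B := by
      intro h
      rw [hBeq] at h
      simp only [Finset.mem_insert, Finset.mem_singleton] at h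
      rcases h with h | h | h
      · exact h1 h
      · exact h5 h
      · exact h4 h
    have h6 := D.fx_Z hXn hYn
    have h7 := fx_P_eq hw χ
    rw [hvansum χ hBn, hdeg' χ, add_zero] at h7
    have h8 : deg χ = 3 * fx χ (zpowers w) := by
      have : ((deg χ : ℕ) : ℂ) = ((3 * fx χ (zpowers w) : ℕ) : ℂ) := by
        push_cast
        exact h7.symm
      exact_mod_cast this
    have h9' := (D.hdeg χ).2.1
    omega
  have hfaith : ∀ g : G, (θ₁ : G → ℂ) g = (θ₁ : G → ℂ) 1 → g = 1 := fun g h => eq_one_of_char_eq_deg θ₁ h hw₀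
  have hne : ∀ χ : IrrCharacter G, (χ : G → ℂ) 1 ≠ 0 := by
    intro χ
    rw [hdeg' χ]
    exact_mod_cast (D.hdeg χ).2.1
  have hall := irr_mem_of_closed θ₁ hfaith hne S (by rw [hS]; simp) (by
    intro σ hσ χ hχ
    have hbig := hmemS χ hχ
    have hΦ := isCharacter_mul' θ₁ σ
    have hD : (fun g => (θ₁ : G → ℂ) g * (σ : G → ℂ) g) 1 = ((3 * deg σ : ℕ) : ℂ) := by
      simp only
      rw [hdeg' θ₁, hdeg' σ, hdθ₁]
      push_cast
      ring
    rw [hS] at hσ
    simp only [Finset.mem_insert, Finset.mem_singleton] at hσ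
    by_cases hσ' : σ = η
    · subst hσ'
      have hθ₁S : θ₁ ≠ χ := by
        rintro rfl
        apply hχ
        rw [hS]
        simp
      refine inner_eq_zero_of_deg deg hdeg' hΦ hD {θ₁} ?_ (by simpa using hθ₁S.symm) ?_
      · intro c' hc'
        rw [Finset.mem_singleton] at hc'
        rw [hc', inner_reciprocity]
        intro h
        apply hinner
        have e : classInner (fun g => (θ₁ : G → ℂ) g * conj ((θ₁ : G → ℂ) g)) (σ : G → ℂ) =
            classInner (fun g => (θ₁ : G → ℂ) g * conj ((σ : G → ℂ) g)) (θ₁ : G → ℂ) := by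
          rw [classInner_def, classInner_def]
          congr 1
          refine Finset.sum_congr rfl fun g _ => ?_
          ring
        rw [e]
        exact (map_eq_zero _).1 h
      · rw [Finset.sum_singleton, hdη, hdθ₁]
        omega
    · refine inner_eq_zero_of_deg deg hdeg' hΦ hD ∅ (by simp) (by simp) ?_
      simp only [Finset.sum_empty, add_zero]
      have hdσ : deg σ ≤ 4 := by
        rcases hσ with h | h | h | h | h
        · rw [h, D.deg_one']
          omega
        · rw [h, hdθ₁]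
          omega
        · rw [h, hdθ₂]
          omega
        · rw [h, hdξ]
        · exact absurd h hσ'
      omega)
  have huniv : (Finset.univ : Finset (IrrCharacter G)) = S := by
    apply Finset.eq_univ_of_forall hall |>.symm
  have hfinal := sum_deg_sq_eq deg hdeg'
  rw [huniv, hS] at hfinal
  have hn1 : oneIrr G ∉ ({θ₁, θ₂, ξ, η} : Finset (IrrCharacter G)) := by
    simp only [Finset.mem_insert, Finset.mem_singleton, not_or]
    refine ⟨h1nc, fun h => ?_, hξ1.symm, hη1.symm⟩
    have := D.deg_one'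
    rw [h, hdθ₂] at this
    omega
  have hn2 : θ₁ ∉ ({θ₂, ξ, η} : Finset (IrrCharacter G)) := by
    simp only [Finset.mem_insert, Finset.mem_singleton, not_or]
    refine ⟨h12, fun h => ?_, fun h => ?_⟩
    · rw [h, hdξ] at hdθ₁
      omega
    · rw [h, hdη] at hdθ₁
      omega
  have hn3 : θ₂ ∉ ({ξ, η} : Finset (IrrCharacter G)) := by
    simp only [Finset.mem_insert, Finset.mem_singleton, not_or]
    refine ⟨fun h => ?_, fun h => ?_⟩
    · rw [h, hdξ] at hdθ₂
      omega
    · rw [h, hdη] at hdθ₂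
      omega
  rw [Finset.sum_insert hn1, Finset.sum_insert hn2, Finset.sum_insert hn3, Finset.sum_pair hηξ.symm, D.deg_one',
    hdθ₁, hdθ₂, hdξ, hdη] at hfinal
  omega

end Final

end Cfsg.Agent.Lib.BR
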