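import Cfsg.Agent.Lib.BR.Tens6

/-!
# The order of the group in the case `(p, r, q) = (7, 3, 2)`
-/

set_option autoImplicit false
set_option linter.unusedSectionVars false
set_option linter.style.haveILetI false
set_option linter.unusedSimpArgs false
set_option linter.unnecessarySimpa false
set_option linter.unusedVariables false
set_option maxSynthPendingDepth 3

open scoped ComplexConjugate
open Subgroup

namespace Cfsg.Agent.Lib.BR

open Cfsg (classInner IsCharacter IsIrrCharacter IrrCharacter IsClassFunction indFun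
  extendByZero IsGeneralizedCharacter IsPModular principalBlock)
open Cfsg.Agent.Lib.Char
open Cfsg.Agent.Lib.Block hiding tr
open Cfsg.Agent.Lib.SmallSimple.BB
open Cfsg.Agent.Lib.FF

universe u

variable {G : Type u} [Group G] {p : ℕ} {z : G}

section Final

variable [Fintype G] [IsSimpleGroup G] {t s : ℕ} {Xs Ys : Finset (IrrCharacter G)} {δ : IrrCharacter G → ℤ} {ε : ℤ}
  {deg : IrrCharacter G → ℕ}

/-- A rearrangement in the inner product. -/
theorem inner_swap (a b c : IrrCharacter G) :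
    classInner (fun g => (a : G → ℂ) g * conj ((b : G → ℂ) g)) (c : G → ℂ) =
      classInner (fun g => (a : G → ℂ) g * conj ((c : G → ℂ) g)) (b : G → ℂ) := by
  rw [classInner_def, classInner_def]
  congr 1
  refine Finset.sum_congr rfl fun g _ => ?_
  ring

open _root_.Classical in
/-- **The order in the case of the prime seven.** -/
theorem final7 (hnc : ¬ IsMulCommutative G) {b : ℕ} (hcard : Nat.card G = 7 * 3 * 2 ^ b)
    (D : BD0 7 z 3 2 Xs Ys δ ε deg) (hε : ε = 1) (hY : ∀ θ ∈ Ys, deg θ = 3)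
    (hcent : ∀ z' : G, orderOf z' = 7 → centralizer ({z'} : Set G) = zpowers z') : Nat.card G = 168 := by
  haveI hf3 : Fact (Nat.Prime 3) := ⟨Nat.prime_three⟩
  haveI hf7 : Fact (Nat.Prime 7) := ⟨by norm_num⟩
  have hp7 : Nat.Prime 7 := by norm_num
  have h9 : ¬ 3 ^ 2 ∣ Nat.card G := by
    rw [hcard]
    intro h
    have h1 : 3 * 3 ∣ 3 * (7 * 2 ^ b) := by
      have e1 : 3 * (7 * 2 ^ b) = 7 * 3 * 2 ^ b := by ring
      rw [e1]
      simpa [pow_two] using h
    have h2 : 3 ∣ 7 * 2 ^ b := Nat.dvd_of_mul_dvd_mul_left (by norm_num) h1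
    rcases (Nat.Prime.dvd_mul Nat.prime_three).1 h2 with h3 | h3
    · omega
    · have := Nat.prime_three.dvd_of_dvd_pow h3
      omega
  have h3d : 3 ∣ Nat.card G := by
    rw [hcard]
    exact Dvd.dvd.mul_right (Dvd.intro_left 7 rfl) _
  obtain ⟨w, hw⟩ := exists_prime_orderOf_dvd_card' 3 h3d
  have hdeg' : ∀ χ : IrrCharacter G, (χ : G → ℂ) 1 = deg χ := fun χ => (D.hdeg χ).1
  obtain ⟨B, κ, M, hM, hB, hBc, h1B, hκ1, hκ, hκm, hκsum, hsum⟩ := three_data hnc hw h9 deg hdeg'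
  have hdeg1' : ∀ χ : IrrCharacter G, ∀ d : ℕ, (χ : G → ℂ) 1 = d → d = 1 → χ = oneIrr G := by
    intro χ d h1 h2
    apply D.hdeg1
    have h3 := (D.hdeg χ).1
    rw [h1, h2] at h3
    have : ((deg χ : ℕ) : ℂ) = 1 := by rw [← h3]; simp
    exact_mod_cast this
  obtain ⟨η, ξ, hηξ, hη1, hξ1, hBeq, hdη, hκη, hrel⟩ :=
    three_struct hdeg1' hp7 (by norm_num) (by norm_num) hcard B κ deg D.hdeg hBc h1B hκ1 hκ hκm hsum
  have hηB : η ∈ B := by rw [hBeq]; simp
  have hξB : ξ ∈ B := by rw [hBeq]; simp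
  have hκηv : κ η = 1 := by
    rcases hκ η hηB with h | h
    · exact h
    · exfalso
      rw [h] at hκη
      have := Int.modEq_iff_dvd.mp hκη
      norm_num at this
  have hdξz : κ ξ = -1 ∧ deg ξ = 8 := by
    rw [hκηv] at hrel
    push_cast at hrel
    rcases hκ ξ hξB with h | h <;> rw [h] at hrel
    · exfalso
      have : (0 : ℤ) ≤ deg ξ := by positivity
      omega
    · refine ⟨h, ?_⟩
      have : (deg ξ : ℤ) = 8 := by linarith
      exact_mod_cast this
  obtain ⟨hκξ, hdξ⟩ := hdξz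
  -- the tensor square
  obtain ⟨m, hF, hm1, -, hmX, χ₈, hχ₈1, hmχ₈⟩ := D.tensor hε hY (by norm_num) (by norm_num)
  obtain ⟨hχ₈X, hδ₈, hd₈⟩ := hmX χ₈ hχ₈1 hmχ₈
  -- the characters in the block at seven
  have hχ₈e : χ₈ ∈ Xs.erase (oneIrr G) := Finset.mem_erase.mpr ⟨hχ₈1, hχ₈X⟩
  have hcardX : ((Xs.erase (oneIrr G)).erase χ₈).card = 1 := by
    rw [Finset.card_erase_of_mem hχ₈e, Finset.card_erase_of_mem D.hone, D.hXc]
  obtain ⟨c, hc⟩ := Finset.card_eq_one.mp hcardX
  have hce : c ∈ (Xs.erase (oneIrr G)).erase χ₈ := by rw [hc]; simp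
  have hc8 : c ≠ χ₈ := Finset.ne_of_mem_erase hce
  have hc1 : c ≠ oneIrr G := Finset.ne_of_mem_erase (Finset.mem_of_mem_erase hce)
  have hcX : c ∈ Xs := Finset.mem_of_mem_erase (Finset.mem_of_mem_erase hce)
  have hXsum : ∀ {R : Type} [AddCommMonoid R] (f : IrrCharacter G → R), ∑ χ ∈ Xs, f χ = f (oneIrr G) + (f χ₈ + f c) := by
    intro R _ f
    rw [← Finset.add_sum_erase _ _ D.hone, ← Finset.add_sum_erase _ _ hχ₈e, hc, Finset.sum_singleton]
  have hXmem : ∀ χ ∈ Xs, χ ≠ oneIrr G → χ ≠ χ₈ → χ = c := by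
    intro χ h1 h2 h3
    have h4 : χ ∈ (Xs.erase (oneIrr G)).erase χ₈ := Finset.mem_erase.mpr ⟨h3, Finset.mem_erase.mpr ⟨h2, h1⟩⟩
    rw [hc] at h4
    exact Finset.mem_singleton.mp h4
  obtain ⟨θ₁, θ₂, h12, hYeq⟩ := Finset.card_eq_two.mp D.hYc
  have hθ₁ : θ₁ ∈ Ys := by rw [hYeq]; simp
  have hθ₂ : θ₂ ∈ Ys := by rw [hYeq]; simp
  have hdθ₁ := hY θ₁ hθ₁
  have hdθ₂ := hY θ₂ hθ₂
  have hrelc := D.rel_one hθ₁
  rw [hXsum, D.hδone, D.deg_one', hδ₈, hd₈, hdθ₁, hε] at hrelc
  push_cast at hrelc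
  have hcv : δ c = -1 ∧ deg c = 6 := by
    rcases D.hδ c hcX with h | h <;> rw [h] at hrelc
    · exfalso
      have : (0 : ℤ) ≤ deg c := by positivity
      omega
    · refine ⟨h, ?_⟩
      have : (deg c : ℤ) = 6 := by linarith
      exact_mod_cast this
  obtain ⟨hδc, hdc⟩ := hcv
  -- `ξ = χ₈`
  have hξc : ξ = χ₈ := by
    by_contra h0
    by_cases h1 : ξ ∈ Xs
    · have h2 := hXmem ξ h1 hξ1 h0
      rw [h2] at hdξ
      omega
    · by_cases h2 : ξ ∈ Ys
      · have := hY ξ h2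
        omega
      · have := D.fx_Z h1 h2
        omega
  subst hξc
  have h1nc : (oneIrr G : IrrCharacter G) ≠ θ₁ := by
    intro h
    have := D.deg_one'
    rw [h, hdθ₁] at this
    omega
  have hθ₁1 : θ₁ ≠ oneIrr G := h1nc.symm
  -- the tensor square as a function
  have hmz : ∀ χ : IrrCharacter G, χ ≠ oneIrr G ∧ χ ≠ ξ → m χ = 0 := by
    rintro χ ⟨h1, h2⟩
    by_contra h3
    obtain ⟨h4, -, h6⟩ := hmX χ h1 h3
    have h7 := hXmem χ h4 h1 h2
    rw [h7] at h6
    omega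
  have hFv : ∀ g : G, ∑ θ ∈ Ys, (θ : G → ℂ) g * conj ((θ : G → ℂ) g) = 2 + (m ξ : ℂ) * (ξ : G → ℂ) g := by
    intro g
    rw [hF g, Finset.sum_eq_add (oneIrr G) ξ hξ1.symm (fun χ _ h => by rw [hmz χ h]; simp)
      (fun h => absurd (Finset.mem_univ _) h) (fun h => absurd (Finset.mem_univ _) h), hm1]
    have : ((oneIrr G : IrrCharacter G) : G → ℂ) g = 1 := rfl
    rw [this]
    push_cast
    ring
  have hm8 : m ξ = 2 := by
    have h1 := hFv 1
    rw [hYeq, Finset.sum_pair h12, hdeg' θ₁, hdeg' θ₂, hdeg' ξ, hdθ₁, hdθ₂, hdξ] at h1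
    have h2 : ((m ξ * 8 : ℕ) : ℂ) = ((2 * 8 : ℕ) : ℂ) := by
      push_cast at h1 ⊢
      simp only [Complex.conj_ofNat] at h1
      linear_combination -h1
    have h3 : m ξ * 8 = 2 * 8 := by exact_mod_cast h2
    omega
  rw [hm8] at hFv
  have hregval : ∀ g : G, ¬ 7 ∣ orderOf g → (θ₁ : G → ℂ) g * conj ((θ₁ : G → ℂ) g) = 1 + (ξ : G → ℂ) g := by
    intro g hg
    have h1 := hFv g
    rw [hYeq, Finset.sum_pair h12, ← D.hYeq θ₁ hθ₁ θ₂ hθ₂ g hg] at h1
    push_cast at h1
    linear_combination h1 / 2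
  -- no involutions commute with the element of order three
  obtain ⟨w₀, hw₀⟩ := exists_ne_of_ne_one θ₁ hθ₁1
  have hinv : ∀ y : G, Commute y w → orderOf y = 2 → y = 1 := by
    intro y hy hyo
    have hξBl : ξ ∈ principalBlock M G := (hB ξ).2 hξB
    obtain ⟨f, -, hfe⟩ := exists_fx_prod Nat.prime_three hw hy (by rw [hyo]; norm_num) ξ
      (hval_of_block hM hw h9 hξBl hy (by rw [hyo]; norm_num))
    rw [hκsum ξ hξB, hκξ] at hfe
    have h1 := fx_sum ξ (zpowers y)
    rw [sum_zpowers_two hyo, hdeg' ξ, hdξ, Nat.card_zpowers, hyo] at h1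
    have h2 := hregval y (by rw [hyo]; norm_num)
    obtain ⟨f₁, hf₁⟩ : ∃ f₁, f₁ = fx θ₁ (zpowers y) := ⟨_, rfl⟩
    have h1' := fx_sum θ₁ (zpowers y)
    rw [sum_zpowers_two hyo, hdeg' θ₁, hdθ₁, Nat.card_zpowers, hyo, ← hf₁] at h1'
    have h3 : (θ₁ : G → ℂ) y = ((2 * (f₁ : ℤ) - 3 : ℤ) : ℂ) := by
      push_cast at h1' ⊢
      linear_combination h1'
    have h4 := IsCharacter.norm_le' (IsIrrCharacter.isCharacter θ₁.2) y
    rw [hdeg' θ₁, hdθ₁, h3, Complex.norm_intCast] at h4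
    simp only [Nat.cast_ofNat, Complex.re_ofNat] at h4
    have h5 : |2 * (f₁ : ℤ) - 3| ≤ 3 := by
      have : ((|2 * (f₁ : ℤ) - 3| : ℤ) : ℝ) ≤ ((3 : ℤ) : ℝ) := by
        push_cast
        push_cast at h4
        exact h4
      exact_mod_cast this
    have h7 : (2 * (f₁ : ℤ) - 3) ^ 2 = 6 * (f : ℤ) - 3 := by
      have h8 : (((2 * (f₁ : ℤ) - 3) ^ 2 : ℤ) : ℂ) = ((6 * (f : ℤ) - 3 : ℤ) : ℂ) := by
        rw [h3] at h2
        rw [map_intCast] at h2
        push_cast at h1 hfe h2 ⊢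
        linear_combination h2 + h1 - 2 * hfe
      exact_mod_cast h8
    have h6 : |2 * (f₁ : ℤ) - 3| = 3 := by
      rw [abs_le] at h5
      have hf₁3 : f₁ ≤ 3 := by omega
      interval_cases f₁ <;> norm_num at h7 ⊢ <;> omega
    refine eq_one_of_norm_eq_deg hnc θ₁ hw₀ ?_
    rw [h3, Complex.norm_intCast, hdeg' θ₁, hdθ₁]
    have : ((|2 * (f₁ : ℤ) - 3| : ℤ) : ℝ) = ((3 : ℤ) : ℝ) := by rw [h6]
    push_cast at this ⊢
    rw [this]
    simp
  have hno : ∀ y : G, Commute y w → orderOf y = 7 → False := by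
    intro y hy hyo
    have h1 : w ∈ centralizer ({y} : Set G) := by
      rw [mem_centralizer_singleton_iff]
      exact hy.symm.eq
    rw [hcent y hyo] at h1
    have h2 := orderOf_dvd_of_mem_zpowers h1
    rw [hw, hyo] at h2
    omega
  have hCw : centralizer ({w} : Set G) = zpowers w :=
    three_cent hw h9 hp7 (by norm_num) (by norm_num) hcard hinv hno
  have hvan : ∀ χ : IrrCharacter G, χ ∉ B → ∀ u : G, u ∈ zpowers w → u ≠ 1 → (χ : G → ℂ) u = 0 := by
    intro χ hχ u hu hu1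
    exact vanish_outside hM hw hCw h9 χ (by rw [hB]; exact hχ) hu hu1
  have hvansum : ∀ χ : IrrCharacter G, χ ∉ B →
      ∑ u ∈ Finset.univ.filter (fun u : G => u ∈ zpowers w ∧ u ≠ 1), (χ : G → ℂ) u = 0 := by
    intro χ hχ
    apply Finset.sum_eq_zero
    intro u hu
    exact hvan χ hχ u (Finset.mem_filter.mp hu).2.1 (Finset.mem_filter.mp hu).2.2
  have hθ₁B : θ₁ ∉ B := by
    intro h
    have h1 := hκm θ₁ h
    rw [hdθ₁] at h1
    rcases hκ θ₁ h with h2 | h2 <;> rw [h2] at h1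
    · have := Int.modEq_iff_dvd.mp h1
      norm_num at this
    · have := Int.modEq_iff_dvd.mp h1
      norm_num at this
  have hBsum : ∀ {R : Type} [AddCommMonoid R] (f : IrrCharacter G → R), ∑ χ ∈ B, f χ = f (oneIrr G) + (f η + f ξ) := by
    intro R _ f
    rw [hBeq, Finset.sum_insert, Finset.sum_pair hηξ]
    simp only [Finset.mem_insert, Finset.mem_singleton, not_or]
    exact ⟨hη1.symm, hξ1.symm⟩
  -- the constituents of the product of `c` with the conjugate of `θ₁`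
  obtain ⟨ψ, hψd⟩ : ∃ ψ : G → ℂ, ψ = fun g => (c : G → ℂ) g * conj ((θ₁ : G → ℂ) g) := ⟨_, rfl⟩
  have hψc : IsCharacter G ψ := by
    rw [hψd]
    exact isCharacter_mul_conj c θ₁
  have hψ1 : classInner ψ ((oneIrr G : IrrCharacter G) : G → ℂ) = 0 := by
    have h1 := classInner_irr_of_ne c.2 θ₁.2 (fun h => by
      have h2 : c = θ₁ := Subtype.ext h
      rw [h2, hdθ₁] at hdc
      omega)
    rw [classInner_def] at h1 ⊢
    rw [← h1, hψd]
    congr 1
    refine Finset.sum_congr rfl fun g _ => ?_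
    have : ((oneIrr G : IrrCharacter G) : G → ℂ) g = 1 := rfl
    rw [this]
    simp
  have hRsum : classInner ψ (η : G → ℂ) = classInner ψ (ξ : G → ℂ) := by
    have h1 := sum_expand (Finset.univ.filter (fun u : G => u ∈ zpowers w ∧ u ≠ 1))
      (IsCharacter.isClassFunction hψc) B hvansum
    have h2 : ∑ u ∈ Finset.univ.filter (fun u : G => u ∈ zpowers w ∧ u ≠ 1), ψ u = 0 := by
      apply Finset.sum_eq_zero
      intro u hu
      rw [hψd]
      simp only
      rw [hvan θ₁ hθ₁B u (Finset.mem_filter.mp hu).2.1 (Finset.mem_filter.mp hu).2.2]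
      simp
    rw [h2, hBsum, hκsum _ h1B, hκsum _ hηB, hκsum _ hξB, hκ1, hκηv, hκξ, hψ1] at h1
    push_cast at h1
    linear_combination -h1 / 2
  have hPvan : ∀ χ : IrrCharacter G, χ ∉ Xs ∪ Ys →
      ∑ u ∈ Finset.univ.filter (fun u : G => u ∈ zpowers z ∧ u ≠ 1), (χ : G → ℂ) u = 0 := by
    intro χ hχ
    rw [Finset.mem_union] at hχ
    push Not at hχ
    exact D.sum_Z hχ.1 hχ.2
  have hξne : classInner ψ (ξ : G → ℂ) ≠ 0 := by
    have h1 := sum_expand (Finset.univ.filter (fun u : G => u ∈ zpowers z ∧ u ≠ 1))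
      (IsCharacter.isClassFunction hψc) (Xs ∪ Ys) hPvan
    have h2 : ∑ u ∈ Finset.univ.filter (fun u : G => u ∈ zpowers z ∧ u ≠ 1), ψ u = 3 := by
      have h3 : ∀ u ∈ Finset.univ.filter (fun u : G => u ∈ zpowers z ∧ u ≠ 1), ψ u = - conj ((θ₁ : G → ℂ) u) := by
        intro u hu
        rw [hψd]
        simp only
        rw [D.hXval c hcX u (Finset.mem_filter.mp hu).2.1 (Finset.mem_filter.mp hu).2.2, hδc]
        push_cast
        ring
      rw [Finset.sum_congr rfl h3, Finset.sum_neg_distrib, ← map_sum, D.hYsum θ₁ hθ₁, hε]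
      simp [Complex.conj_ofNat]
    rw [h2, Finset.sum_union D.hdisj, hXsum, hYeq, Finset.sum_pair h12, D.sum_X D.hone, D.sum_X hχ₈X, D.sum_X hcX,
      D.hYsum θ₁ hθ₁, D.hYsum θ₂ hθ₂, D.hδone, hδ₈, hδc, hε, hψ1] at h1
    obtain ⟨n₈, hn₈⟩ := classInner_isCharacter_nat hψc (IsIrrCharacter.isCharacter ξ.2)
    obtain ⟨n₆, hn₆⟩ := classInner_isCharacter_nat hψc (IsIrrCharacter.isCharacter c.2)
    obtain ⟨n₁, hn₁⟩ := classInner_isCharacter_nat hψc (IsIrrCharacter.isCharacter θ₁.2)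
    obtain ⟨n₂, hn₂⟩ := classInner_isCharacter_nat hψc (IsIrrCharacter.isCharacter θ₂.2)
    rw [hn₈, hn₆, hn₁, hn₂] at h1
    rw [hn₈]
    intro h5
    have h6 : n₈ = 0 := by exact_mod_cast h5
    subst h6
    have h7 : ((6 * n₆ + 3 * n₁ + 3 * n₂ + 3 : ℕ) : ℂ) = 0 := by
      push_cast at h1 ⊢
      linear_combination h1
    have h8 : 6 * n₆ + 3 * n₁ + 3 * n₂ + 3 = 0 := by exact_mod_cast h7
    omega
  have hηne : classInner ψ (η : G → ℂ) ≠ 0 := by
    rw [hRsum]
    exact hξne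
  have hconst : ∀ σ : IrrCharacter G, classInner ψ (σ : G → ℂ) ≠ 0 →
      classInner (fun g => (θ₁ : G → ℂ) g * (σ : G → ℂ) g) (c : G → ℂ) ≠ 0 := by
    intro σ hσ
    rw [inner_reciprocity]
    intro h
    apply hσ
    rw [hψd, inner_swap c θ₁ σ]
    exact (map_eq_zero _).1 h
  -- the closure
  obtain ⟨S, hS⟩ : ∃ S : Finset (IrrCharacter G), S = {oneIrr G, θ₁, θ₂, c, η, ξ} := ⟨_, rfl⟩
  have hmemS : ∀ χ : IrrCharacter G, χ ∉ S → 21 ≤ deg χ := by
    intro χ hχ
    rw [hS] at hχ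
    simp only [Finset.mem_insert, Finset.mem_singleton, not_or] at hχ
    obtain ⟨h1, h2, h3, h4, h5, h6⟩ := hχ
    have hXn : χ ∉ Xs := by
      intro h
      exact h4 (hXmem χ h h1 h6)
    have hYn : χ ∉ Ys := by
      intro h
      rw [hYeq] at h
      simp only [Finset.mem_insert, Finset.mem_singleton] at h
      rcases h with h | h
      · exact h2 h
      · exact h3 h
    have hBn : χ ∉ B := by
      intro h
      rw [hBeq] at h
      simp only [Finset.mem_insert, Finset.mem_singleton] at h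
      rcases h with h | h | h
      · exact h1 h
      · exact h5 h
      · exact h6 h
    have h6' := D.fx_Z hXn hYn
    have h7 := fx_P_eq hw χ
    rw [hvansum χ hBn, hdeg' χ, add_zero] at h7
    have h8 : deg χ = 3 * fx χ (zpowers w) := by
      have : ((deg χ : ℕ) : ℂ) = ((3 * fx χ (zpowers w) : ℕ) : ℂ) := by
        push_cast
        exact h7.symm
      exact_mod_cast this
    have h9' := (D.hdeg χ).2.1
    omega
  have hfaith : ∀ g : G, (θ₁ : G → ℂ) g = (θ₁ : G → ℂ) 1 → g = 1 := fun g h => eq_one_of_char_eq_deg θ₁ h hw₀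
  have hne : ∀ χ : IrrCharacter G, (χ : G → ℂ) 1 ≠ 0 := by
    intro χ
    rw [hdeg' χ]
    exact_mod_cast (D.hdeg χ).2.1
  have hcS : c ∈ S := by
    rw [hS]
    simp
  have hall := irr_mem_of_closed θ₁ hfaith hne S (by rw [hS]; simp) (by
    intro σ hσ χ hχ
    have hbig := hmemS χ hχ
    have hΦ := isCharacter_mul' θ₁ σ
    have hD : (fun g => (θ₁ : G → ℂ) g * (σ : G → ℂ) g) 1 = ((3 * deg σ : ℕ) : ℂ) := by
      simp only
      rw [hdeg' θ₁, hdeg' σ, hdθ₁]
      push_cast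
      ring
    have hcχ : c ≠ χ := by
      rintro rfl
      exact hχ hcS
    rw [hS] at hσ
    simp only [Finset.mem_insert, Finset.mem_singleton] at hσ
    by_cases hσ' : σ = η ∨ σ = ξ
    · refine inner_eq_zero_of_deg deg hdeg' hΦ hD {c} ?_ (by simpa using hcχ.symm) ?_
      · intro c' hc'
        rw [Finset.mem_singleton] at hc'
        rw [hc']
        apply hconst
        rcases hσ' with h | h <;> rw [h]
        · exact hηne
        · exact hξne
      · rw [Finset.sum_singleton, hdc]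
        rcases hσ' with h | h <;> rw [h]
        · rw [hdη]
          omega
        · rw [hdξ]
          omega
    · push Not at hσ'
      refine inner_eq_zero_of_deg deg hdeg' hΦ hD ∅ (by simp) (by simp) ?_
      simp only [Finset.sum_empty, add_zero]
      have hdσ : deg σ ≤ 6 := by
        rcases hσ with h | h | h | h | h | h
        · rw [h, D.deg_one']
          omega
        · rw [h, hdθ₁]
          omega
        · rw [h, hdθ₂]
          omega
        · rw [h, hdc]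
        · exact absurd h hσ'.1
        · exact absurd h hσ'.2
      omega)
  have huniv : (Finset.univ : Finset (IrrCharacter G)) = S := by
    apply Finset.eq_univ_of_forall hall |>.symm
  have hfinal := sum_deg_sq_eq deg hdeg'
  rw [huniv, hS] at hfinal
  have hn1 : oneIrr G ∉ ({θ₁, θ₂, c, η, ξ} : Finset (IrrCharacter G)) := by
    simp only [Finset.mem_insert, Finset.mem_singleton, not_or]
    refine ⟨h1nc, fun h => ?_, hc1.symm, hη1.symm, hξ1.symm⟩
    have := D.deg_one'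
    rw [h, hdθ₂] at this
    omega
  have hn2 : θ₁ ∉ ({θ₂, c, η, ξ} : Finset (IrrCharacter G)) := by
    simp only [Finset.mem_insert, Finset.mem_singleton, not_or]
    refine ⟨h12, fun h => ?_, fun h => ?_, fun h => ?_⟩
    · rw [h, hdc] at hdθ₁
      omega
    · rw [h, hdη] at hdθ₁
      omega
    · rw [h, hdξ] at hdθ₁
      omega
  have hn3 : θ₂ ∉ ({c, η, ξ} : Finset (IrrCharacter G)) := by
    simp only [Finset.mem_insert, Finset.mem_singleton, not_or]
    refine ⟨fun h => ?_, fun h => ?_, fun h => ?_⟩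
    · rw [h, hdc] at hdθ₂
      omega
    · rw [h, hdη] at hdθ₂
      omega
    · rw [h, hdξ] at hdθ₂
      omega
  have hn4 : c ∉ ({η, ξ} : Finset (IrrCharacter G)) := by
    simp only [Finset.mem_insert, Finset.mem_singleton, not_or]
    refine ⟨fun h => ?_, fun h => ?_⟩
    · rw [h, hdη] at hdc
      omega
    · rw [h, hdξ] at hdc
      omega
  rw [Finset.sum_insert hn1, Finset.sum_insert hn2, Finset.sum_insert hn3, Finset.sum_insert hn4, Finset.sum_pair hηξ,
    D.deg_one', hdθ₁, hdθ₂, hdc, hdη, hdξ] at hfinal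
  omega

end Final

end Cfsg.Agent.Lib.BR
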