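import Cfsg.Agent.Lib.BR.TwoSq
import Cfsg.Agent.Lib.Degree.GaloisChar
import Cfsg.Agent.Lib.Char.Galois
import Cfsg.Agent.Lib.Char.FrobSchur
import Cfsg.Agent.Lib.Degree.Cod
import Cfsg.Agent.Lib.Char.Integral

/-!
# Primitive groups of degree `2 p` with a normalizer of order `2 p`
-/

set_option autoImplicit false
set_option linter.unusedSectionVars false
set_option linter.style.haveILetI false
set_option linter.unusedSimpArgs false
set_option linter.unnecessarySimpa false
set_option linter.unusedVariables false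
set_option maxSynthPendingDepth 3

open scoped ComplexConjugate
open Subgroup

namespace Cfsg.Agent.Lib.BR

open Cfsg (classInner IsCharacter IsIrrCharacter IrrCharacter IsClassFunction indFun
  extendByZero IsGeneralizedCharacter IsPModular principalBlock)
open Cfsg.Agent.Lib.Char
open Cfsg.Agent.Lib.Block hiding tr

universe u v

variable {G : Type u} [Group G] [Fintype G] {p : ℕ} {z : G} {s : ℕ} {Xs Ys : Finset (IrrCharacter G)}
  {δ : IrrCharacter G → ℤ} {ε : ℤ} {deg : IrrCharacter G → ℕ} {ψ : IrrCharacter G}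
  {α : Type v} [Fintype α] [MulAction G α]

/-- The fixed dimension is bounded by the degree. -/
theorem fx_bound (D : BD0 p z 2 s Xs Ys δ ε deg) (hs : 2 ≤ s) {χ : IrrCharacter G} (hχ : χ ≠ oneIrr G) :
    (p + 1) * fx χ (zpowers z) ≤ 2 * deg χ := by
  have hst := D.hst
  have hpe : (p : ℤ) = 2 * s + 1 := by
    have : p = 2 * s + 1 := by omega
    exact_mod_cast this
  have hsz : (2 : ℤ) ≤ s := by exact_mod_cast hs
  obtain ⟨f, hf⟩ : ∃ f, f = fx χ (zpowers z) := ⟨_, rfl⟩
  rw [← hf]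
  have hfz : (0 : ℤ) ≤ f := by positivity
  have hd0 : (1 : ℤ) ≤ deg χ := by exact_mod_cast Nat.pos_of_ne_zero (D.hdeg χ).2.1
  have hgoal : ((p : ℤ) + 1) * f ≤ 2 * deg χ := by
    by_cases hX : χ ∈ Xs
    · have h1 := D.fx_X hX
      rw [← hf] at h1
      rcases D.hδ χ hX with h2 | h2
      · rw [h2] at h1
        have hd1 : deg χ ≠ 1 := fun h => hχ (D.hdeg1 χ h)
        have hd2 : (2 : ℤ) ≤ deg χ := by
          have : 2 ≤ deg χ := by
            have := (D.hdeg χ).2.1
            omega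
          exact_mod_cast this
        have hf2 : (2 : ℤ) ≤ f := by
          by_contra h3
          have h4 : f = 0 ∨ f = 1 := by omega
          rcases h4 with rfl | rfl
          · push_cast at h1
            nlinarith
          · push_cast at h1
            nlinarith
        nlinarith
      · rw [h2] at h1
        nlinarith
    · by_cases hY : χ ∈ Ys
      · have h1 := D.fx_Y hY
        rw [← hf] at h1
        rcases eq_or_lt_of_le hfz with h2 | h2
        · rw [← h2]
          linarith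
        · have h3 : (1 : ℤ) ≤ f := h2
          rcases D.hε with h4 | h4 <;> rw [h4] at h1 <;> push_cast at h1 <;> nlinarith
      · have h1 := D.fx_Z hX hY
        rw [← hf] at h1
        have h2 : (deg χ : ℤ) = p * f := by exact_mod_cast h1
        rw [h2]
        nlinarith
  exact_mod_cast hgoal

/-- A non-trivial element of the cyclic group generates it. -/
theorem zpowers_eq_of_mem (hpr : p.Prime) (hz : orderOf z = p) {w : G} (hw : w ∈ zpowers z) (hw1 : w ≠ 1) :
    zpowers w = zpowers z := by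
  apply Subgroup.eq_of_le_of_card_ge
  · rwa [Subgroup.zpowers_le]
  · rw [Nat.card_zpowers, hz, Nat.card_zpowers]
    have h7 : orderOf w ∣ p := by
      rw [← hz]
      exact orderOf_dvd_of_mem_zpowers hw
    rcases (Nat.dvd_prime hpr).1 h7 with h8 | h8
    · exact absurd (orderOf_eq_one_iff.mp h8) hw1
    · exact h8.ge

open _root_.Classical in
/-- The non-trivial elements of the cyclic group have no fixed points. -/
theorem no_fixed (D : BD0 p z 2 s Xs Ys δ ε deg) (hs : 2 ≤ s) (hα : Fintype.card α = 2 * p)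
    (htr : ∀ a b : α, ∃ g : G, g • a = b) (a : α) : ∀ u ∈ zpowers z, u ≠ 1 → ∀ b : α, u • b ≠ b := by
  have hpr := D.hp
  have hst := D.hst
  have hpe : p = 2 * s + 1 := by omega
  have hp5 : 5 ≤ p := by omega
  obtain ⟨J, hJ⟩ : ∃ J, J = MulAction.stabilizer G a := ⟨_, rfl⟩
  have hind : ∀ g, indFun J (fun _ => 1) g = (fpc α g : ℂ) := fun g => by
    rw [hJ]
    exact ind_point htr a g
  have hone : fpc α (1 : G) = 2 * p := fpc_one hα
  have hm1 : ∑ χ : IrrCharacter G, fx χ J * deg χ = 2 * p := by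
    have h1 := hind 1
    rw [ind_one_expansion, hone] at h1
    have h2 : ((∑ χ : IrrCharacter G, fx χ J * deg χ : ℕ) : ℂ) = ((2 * p : ℕ) : ℂ) := by
      rw [← h1]
      push_cast
      exact Finset.sum_congr rfl fun χ _ => by rw [(D.hdeg χ).1]
    exact_mod_cast h2
  have hsame : ∀ u ∈ zpowers z, u ≠ 1 → fpc α u = fpc α z := by
    intro u hu hu1
    rw [fpc, fpc]
    congr 1
    ext y
    simp only [Finset.mem_filter, Finset.mem_univ, true_and]
    have hzu := zpowers_eq_of_mem hpr D.hz hu hu1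
    constructor
    · intro h
      have h1 : u ∈ MulAction.stabilizer G y := h
      have h2 : zpowers u ≤ MulAction.stabilizer G y := by rwa [Subgroup.zpowers_le]
      have h3 : z ∈ MulAction.stabilizer G y := h2 (by rw [hzu]; exact mem_zpowers z)
      exact h3
    · intro h
      have h1 : z ∈ MulAction.stabilizer G y := h
      have h2 : zpowers z ≤ MulAction.stabilizer G y := by rwa [Subgroup.zpowers_le]
      exact h2 hu
  obtain ⟨f₀, hf₀⟩ : ∃ f₀, f₀ = fpc α z := ⟨_, rfl⟩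
  obtain ⟨S, hS⟩ : ∃ S, S = ∑ χ : IrrCharacter G, fx χ J * fx χ (zpowers z) := ⟨_, rfl⟩
  have hSS : p * S = 2 * p + (p - 1) * f₀ := by
    have h1 : ((p * S : ℕ) : ℂ) = ((2 * p + (p - 1) * f₀ : ℕ) : ℂ) := by
      have e1 : ∑ χ : IrrCharacter G, (fx χ J : ℂ) * ((p : ℂ) * (fx χ (zpowers z) : ℂ)) =
          ∑ χ : IrrCharacter G, (fx χ J : ℂ) * (χ : G → ℂ) 1 +
            ∑ u ∈ Finset.univ.filter (fun u : G => u ∈ zpowers z ∧ u ≠ 1),
              ∑ χ : IrrCharacter G, (fx χ J : ℂ) * (χ : G → ℂ) u := by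
        rw [Finset.sum_comm, ← Finset.sum_add_distrib]
        refine Finset.sum_congr rfl fun χ _ => ?_
        rw [← Finset.mul_sum, fx_P_eq D.hz χ]
        ring
      have e2 : ∀ u ∈ Finset.univ.filter (fun u : G => u ∈ zpowers z ∧ u ≠ 1),
          ∑ χ : IrrCharacter G, (fx χ J : ℂ) * (χ : G → ℂ) u = (f₀ : ℂ) := by
        intro u hu
        rw [Finset.mem_filter] at hu
        rw [← ind_one_expansion, hind, hsame u hu.2.1 hu.2.2, hf₀]
      rw [Finset.sum_congr rfl e2, Finset.sum_const, nsmul_eq_mul, D.card_Pn', ← ind_one_expansion, hind, hone] at e1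
      have e3 : ((p * S : ℕ) : ℂ) = ∑ χ : IrrCharacter G, (fx χ J : ℂ) * ((p : ℂ) * (fx χ (zpowers z) : ℂ)) := by
        rw [hS]
        push_cast
        rw [Finset.mul_sum]
        refine Finset.sum_congr rfl fun χ _ => ?_
        ring
      rw [e3, e1]
      push_cast [Nat.cast_sub hpr.one_lt.le]
      ring
    exact_mod_cast h1
  intro u hu hu1 b hb
  have hf0 : f₀ ≠ 0 := by
    rw [hf₀, ← hsame u hu hu1, fpc]
    exact Finset.card_ne_zero.mpr ⟨b, by simp [hb]⟩
  have hpd : p ∣ f₀ := by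
    have h1 : p ∣ (p - 1) * f₀ := by
      have h2 : p ∣ 2 * p + (p - 1) * f₀ := ⟨S, hSS.symm⟩
      exact (Nat.dvd_add_right (Dvd.intro_left 2 rfl)).1 h2
    have h2 : Nat.Coprime p (p - 1) := by
      have h3 : ¬ p ∣ p - 1 := fun h => by
        have := Nat.le_of_dvd (by omega) h
        omega
      exact (Nat.Prime.coprime_iff_not_dvd hpr).2 h3
    exact h2.dvd_of_dvd_mul_left h1
  have hf1 : p ≤ f₀ := Nat.le_of_dvd (Nat.pos_of_ne_zero hf0) hpd
  have hS1 : p + 1 ≤ S := by
    have h1 : p * (p + 1) ≤ p * S := by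
      rw [hSS]
      have h2 : (p - 1) * p ≤ (p - 1) * f₀ := Nat.mul_le_mul_left _ hf1
      have e : p * (p + 1) = 2 * p + (p - 1) * p := by
        obtain ⟨k, rfl⟩ : ∃ k, p = k + 1 := ⟨p - 1, by omega⟩
        simp only [Nat.add_sub_cancel]
        ring
      omega
    exact Nat.le_of_mul_le_mul_left h1 hpr.pos
  -- the bound
  have hb1 : (p + 1) * ∑ χ ∈ Finset.univ.erase (oneIrr G), fx χ J * fx χ (zpowers z) ≤
      2 * ∑ χ ∈ Finset.univ.erase (oneIrr G), fx χ J * deg χ := by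
    rw [Finset.mul_sum, Finset.mul_sum]
    refine Finset.sum_le_sum fun χ hχ => ?_
    have h2 := fx_bound D hs (Finset.ne_of_mem_erase hχ)
    calc (p + 1) * (fx χ J * fx χ (zpowers z)) = fx χ J * ((p + 1) * fx χ (zpowers z)) := by ring
      _ ≤ fx χ J * (2 * deg χ) := Nat.mul_le_mul_left _ h2
      _ = 2 * (fx χ J * deg χ) := by ring
  have e3 := Finset.add_sum_erase Finset.univ (fun χ : IrrCharacter G => fx χ J * fx χ (zpowers z)) (Finset.mem_univ (oneIrr G))
  have e4 := Finset.add_sum_erase Finset.univ (fun χ : IrrCharacter G => fx χ J * deg χ) (Finset.mem_univ (oneIrr G))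
  simp only [fx_oneIrr, deg_one_of D, one_mul] at e3 e4
  rw [← hS] at e3
  rw [hm1] at e4
  have h5 : (p + 1) * p ≤ 2 * (2 * p - 1) := by
    have h6 : p ≤ ∑ χ ∈ Finset.univ.erase (oneIrr G), fx χ J * fx χ (zpowers z) := by omega
    have h7 : ∑ χ ∈ Finset.univ.erase (oneIrr G), fx χ J * deg χ = 2 * p - 1 := by omega
    rw [h7] at hb1
    exact le_trans (Nat.mul_le_mul_left _ h6) hb1
  have h8 : 5 * p ≤ p * p := Nat.mul_le_mul_right _ hp5
  have h9 : (p + 1) * p = p * p + p := by ring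
  omega

open _root_.Classical in
/-- The constituents of the permutation character of a transitive action on `2 p` points of rank at least three. -/
theorem exists_PD2 (D : BD0 p z 2 s Xs Ys δ ε deg) (hs : 2 ≤ s) (J : Subgroup G)
    (hJ : ∀ u ∈ zpowers z, u ≠ 1 → ∀ x : G, x⁻¹ * u * x ∉ J) (hcard : Nat.card J * (2 * p) = Nat.card G)
    (hrank : ∑ χ : IrrCharacter G, fx χ J * fx χ J ≠ 2) :
    ∃ ψ χ₀ : IrrCharacter G, PD p z s Xs Ys δ ε deg ψ ∧ χ₀ ≠ ψ ∧ χ₀ ≠ oneIrr G ∧ deg χ₀ = p ∧ fx ψ J = 1 ∧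
      fx χ₀ J = 1 ∧ ∀ g : G, indFun J (fun _ => 1) g = 1 + (ψ : G → ℂ) g + (χ₀ : G → ℂ) g := by
  have hp := D.hp
  have hst := D.hst
  have hpe : p = 2 * s + 1 := by omega
  have hp5 : 5 ≤ p := by omega
  obtain ⟨hA, hB⟩ := avoid_sums D J hJ
  have hJ0 : 0 < Nat.card J := Nat.card_pos
  have hm : ∑ χ : IrrCharacter G, fx χ J * deg χ = 2 * p := by
    apply Nat.eq_of_mul_eq_mul_left hJ0
    rw [hA, hcard]
  have hs1 : ∑ χ : IrrCharacter G, fx χ J * fx χ (zpowers z) = 2 := by
    rw [hm] at hB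
    exact Nat.eq_of_mul_eq_mul_left hp.pos (by rw [hB, mul_comm])
  have hdone := deg_one_of D
  have hs2 : ∑ χ ∈ Finset.univ.erase (oneIrr G), fx χ J * fx χ (zpowers z) = 1 := by
    rw [← Finset.add_sum_erase _ _ (Finset.mem_univ (oneIrr G)), fx_oneIrr, fx_oneIrr, mul_one] at hs1
    omega
  -- the unique constituent with a fixed vector
  obtain ⟨χ₀, hχ₀1, hχ₀f, h0⟩ : ∃ χ₀ : IrrCharacter G, χ₀ ≠ oneIrr G ∧ fx χ₀ J * fx χ₀ (zpowers z) = 1 ∧
      ∀ χ : IrrCharacter G, χ ≠ oneIrr G → χ ≠ χ₀ → fx χ J * fx χ (zpowers z) = 0 := by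
    have h1 : ∃ χ ∈ Finset.univ.erase (oneIrr G), fx χ J * fx χ (zpowers z) ≠ 0 := by
      by_contra h
      push Not at h
      rw [Finset.sum_eq_zero h] at hs2
      omega
    obtain ⟨χ₀, hχ₀, hne⟩ := h1
    have h2 := Finset.add_sum_erase _ (fun χ => fx χ J * fx χ (zpowers z)) hχ₀
    rw [hs2] at h2
    have h3 : fx χ₀ J * fx χ₀ (zpowers z) = 1 := by omega
    have h4 : ∑ χ ∈ (Finset.univ.erase (oneIrr G)).erase χ₀, fx χ J * fx χ (zpowers z) = 0 := by omega
    rw [Finset.sum_eq_zero_iff] at h4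
    refine ⟨χ₀, Finset.ne_of_mem_erase hχ₀, h3, fun χ h5 h6 => h4 χ ?_⟩
    exact Finset.mem_erase.mpr ⟨h6, Finset.mem_erase.mpr ⟨h5, Finset.mem_univ _⟩⟩
  have hχ₀J : fx χ₀ J = 1 := Nat.eq_one_of_mul_eq_one_right hχ₀f
  have hχ₀P : fx χ₀ (zpowers z) = 1 := Nat.eq_one_of_mul_eq_one_left hχ₀f
  obtain ⟨ψ, hψ1, hX⟩ : ∃ ψ, ψ ≠ oneIrr G ∧ Xs = {oneIrr G, ψ} := by
    obtain ⟨a, b, hab, hX⟩ := Finset.card_eq_two.mp D.hXc
    have h1 := D.hone
    rw [hX, Finset.mem_insert, Finset.mem_singleton] at h1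
    rcases h1 with h1 | h1
    · exact ⟨b, fun h => hab (h1.symm.trans h.symm), by rw [hX, h1]⟩
    · refine ⟨a, fun h => hab (h.trans h1), ?_⟩
      rw [hX, h1, Finset.pair_comm]
  have hψX : ψ ∈ Xs := by
    rw [hX]
    simp
  have hδone := D.hδone
  have hrel1 : ∀ θ ∈ Ys, ε * (deg θ : ℤ) = 1 + δ ψ * (deg ψ : ℤ) := by
    intro θ hθ
    have h1 := D.hrel θ hθ 1 (by rw [orderOf_one]; exact fun h => hp.one_lt.ne' (Nat.dvd_one.mp h))
    rw [hX, Finset.sum_pair hψ1.symm, (D.hdeg θ).1, (D.hdeg ψ).1, (D.hdeg _).1, hdone, hδone] at h1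
    have h2 : ((ε * (deg θ : ℤ) : ℤ) : ℂ) = ((1 + δ ψ * (deg ψ : ℤ) : ℤ) : ℂ) := by
      push_cast
      rw [h1]
      push_cast
      ring
    exact_mod_cast h2
  have hδψ' := D.hδ ψ hψX
  have hψd0 : (1 : ℤ) ≤ deg ψ := by exact_mod_cast Nat.pos_of_ne_zero (D.hdeg ψ).2.1
  have hψd1 : deg ψ ≠ 1 := fun h => hψ1 (D.hdeg1 ψ h)
  -- the constituents
  have hcons : ∀ χ : IrrCharacter G, χ ≠ oneIrr G → χ ≠ ψ → χ ≠ χ₀ → fx χ J = 0 := by
    intro χ h1 h2 h2'
    by_contra hne
    have h3 : fx χ (zpowers z) = 0 := by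
      rcases mul_eq_zero.mp (h0 χ h1 h2') with h | h
      · exact absurd h hne
      · exact h
    by_cases hχX : χ ∈ Xs
    · rw [hX, Finset.mem_insert, Finset.mem_singleton] at hχX
      rcases hχX with h | h
      · exact h1 h
      · exact h2 h
    · by_cases hχY : χ ∈ Ys
      · have h4 := D.fx_Y hχY
        rw [h3] at h4
        have hd0 : (1 : ℤ) ≤ deg χ := by exact_mod_cast Nat.pos_of_ne_zero (D.hdeg χ).2.1
        have h5 := hrel1 χ hχY
        rcases D.hε with h6 | h6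
        · rw [h6] at h4 h5
          push_cast at h4
          have h7 : (deg χ : ℤ) = 2 := by linarith
          rw [h7] at h5
          rcases hδψ' with h8 | h8
          · rw [h8] at h5
            have : (deg ψ : ℤ) = 1 := by linarith
            exact hψd1 (by exact_mod_cast this)
          · rw [h8] at h5
            linarith
        · rw [h6] at h4
          push_cast at h4
          linarith
      · have h4 := D.fx_Z hχX hχY
        rw [h3, mul_zero] at h4
        exact (D.hdeg χ).2.1 h4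
  have hpz : (5 : ℤ) ≤ p := by exact_mod_cast hp5
  -- properties of `ψ` when it occurs
  have hψocc : fx ψ (zpowers z) = 0 → δ ψ = -1 ∧ deg ψ + 1 = p := by
    intro h3
    have h4 := D.fx_X hψX
    rw [h3] at h4
    have hδψ : δ ψ = -1 := by
      rcases hδψ' with h5 | h5
      · exfalso
        rw [h5] at h4
        push_cast at h4
        linarith
      · exact h5
    refine ⟨hδψ, ?_⟩
    rw [hδψ] at h4
    push_cast at h4
    have : (deg ψ : ℤ) + 1 = p := by linarith
    exact_mod_cast this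
  by_cases hχψ : χ₀ = ψ
  · -- the constituent lies in `X`
    exfalso
    subst hχψ
    have hsub : ∀ (F : IrrCharacter G → ℕ), (∀ χ, fx χ J = 0 → F χ = 0) →
        ∑ χ : IrrCharacter G, F χ = F (oneIrr G) + F χ₀ := by
      intro F hF
      rw [← Finset.sum_pair hχ₀1.symm]
      symm
      apply Finset.sum_subset (Finset.subset_univ _)
      intro χ _ hχ
      simp only [Finset.mem_insert, Finset.mem_singleton, not_or] at hχ
      exact hF χ (hcons χ hχ.1 hχ.2 hχ.2)
    have h1 := hsub (fun χ => fx χ J * fx χ J) (fun χ h => by simp [h])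
    simp only [fx_oneIrr, hχ₀J] at h1
    exact hrank (by rw [h1])
  · have hsub : ∀ {R : Type} [AddCommMonoid R] (F : IrrCharacter G → R), (∀ χ, fx χ J = 0 → F χ = 0) →
        ∑ χ : IrrCharacter G, F χ = F (oneIrr G) + F ψ + F χ₀ := by
      intro R _ F hF
      have e : ∑ χ ∈ ({oneIrr G, ψ, χ₀} : Finset (IrrCharacter G)), F χ = F (oneIrr G) + F ψ + F χ₀ := by
        rw [Finset.sum_insert (by simp [hψ1.symm, hχ₀1.symm]), Finset.sum_pair (Ne.symm hχψ), add_assoc]
      rw [← e]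
      symm
      apply Finset.sum_subset (Finset.subset_univ _)
      intro χ _ hχ
      simp only [Finset.mem_insert, Finset.mem_singleton, not_or] at hχ
      exact hF χ (hcons χ hχ.1 hχ.2.1 hχ.2.2)
    have hm2 := hsub (fun χ => fx χ J * deg χ) (fun χ h => by simp [h])
    simp only [fx_oneIrr, hdone, hχ₀J, one_mul, mul_one] at hm2
    rw [hm] at hm2
    have hχ₀X : χ₀ ∉ Xs := by
      rw [hX, Finset.mem_insert, Finset.mem_singleton]
      exact fun h => h.elim hχ₀1 hχψ
    have hmψ : fx ψ J ≠ 0 → fx ψ (zpowers z) = 0 := by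
      intro hne
      rcases mul_eq_zero.mp (h0 ψ hψ1 (Ne.symm hχψ)) with h | h
      · exact absurd h hne
      · exact h
    have hχ₀Y : χ₀ ∉ Ys := by
      intro hY
      have h1 := D.fx_Y hY
      rw [hχ₀P] at h1
      push_cast at h1
      have h2 : (2 * (p : ℤ)) = 1 + (fx ψ J : ℤ) * deg ψ + deg χ₀ := by exact_mod_cast hm2
      by_cases h3 : fx ψ J = 0
      · rw [h3] at h2
        push_cast at h2
        rcases D.hε with h4 | h4 <;> rw [h4] at h1 <;> linarith
      · obtain ⟨h5, h6⟩ := hψocc (hmψ h3)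
        have h7 : (deg ψ : ℤ) + 1 = p := by exact_mod_cast h6
        have h8 : (1 : ℤ) ≤ fx ψ J := by exact_mod_cast Nat.pos_of_ne_zero h3
        rcases eq_or_lt_of_le h8 with h9 | h9
        · rw [← h9] at h2
          rcases D.hε with h4 | h4 <;> rw [h4] at h1 <;> linarith
        · have h10 : (2 : ℤ) ≤ fx ψ J := h9
          have h11 : (0 : ℤ) ≤ deg ψ := by positivity
          have h12 : 2 * (deg ψ : ℤ) ≤ (fx ψ J : ℤ) * deg ψ := by nlinarith
          rcases D.hε with h4 | h4 <;> rw [h4] at h1 <;> linarith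
    have hdχ₀ : deg χ₀ = p := by
      have h1 := D.fx_Z hχ₀X hχ₀Y
      rw [hχ₀P, mul_one] at h1
      exact h1
    rw [hdχ₀] at hm2
    have h3 : fx ψ J ≠ 0 := by
      intro h
      rw [h] at hm2
      omega
    obtain ⟨h5, h6⟩ := hψocc (hmψ h3)
    have hfψJ : fx ψ J = 1 := by
      have h7 : fx ψ J * deg ψ = 1 * deg ψ := by
        omega
      exact Nat.eq_of_mul_eq_mul_right (by omega) h7
    refine ⟨ψ, χ₀, PD_of_psi D hs hψ1 hX h6 h5, hχψ, hχ₀1, hdχ₀, hfψJ, hχ₀J, fun g => ?_⟩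
    rw [ind_one_expansion, hsub (fun χ => (fx χ J : ℂ) * (χ : G → ℂ) g) (fun χ h => by simp [h]), fx_oneIrr, hfψJ, hχ₀J]
    have h2 : ((oneIrr G : IrrCharacter G) : G → ℂ) g = 1 := rfl
    rw [h2]
    push_cast
    ring

open _root_.Classical in
/-- The counting argument on the involutions of a subgroup. -/
theorem two_power_core (J : Subgroup G) {d : ℕ} (hd : 1 ≤ d)
    (hJ : Nat.card J = 2 ^ d * (2 * 2 ^ d - 1))
    (hcomm : ∀ t g : G, t ≠ 1 → t * t = 1 → g * t = t * g → g * g = 1)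
    (I : Finset G) (hI : ∀ g, g ∈ I ↔ g ∈ J ∧ g ≠ 1 ∧ g * g = 1) (hIc : I.card = 2 * 2 ^ d - 1) : d = 1 := by
  have h2d : 2 ≤ 2 ^ d := by
    calc 2 = 2 ^ 1 := rfl
      _ ≤ 2 ^ d := Nat.pow_le_pow_right (by norm_num) hd
  have hK : ∀ t ∈ I, Nat.card (J ⊓ centralizer ({t} : Set G) : Subgroup G) = 2 ^ d := by
    intro t ht
    obtain ⟨htJ, ht1, ht2⟩ := (hI t).1 ht
    obtain ⟨K, hKdef⟩ : ∃ K, K = J ⊓ centralizer ({t} : Set G) := ⟨_, rfl⟩
    rw [← hKdef]
    have hmem : ∀ x, x ∈ K ↔ x ∈ J ∧ x * t = t * x := by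
      intro x
      rw [hKdef, mem_inf, mem_centralizer_singleton_iff]
    have hpg : IsPGroup 2 K := fun x => ⟨1, by
      have h3 := hcomm t x ht1 ht2 ((hmem x).1 x.2).2
      apply Subtype.ext
      simpa [pow_two] using h3⟩
    obtain ⟨k, hk⟩ := IsPGroup.iff_card.mp hpg
    have hdv : 2 ^ k ∣ 2 ^ d * (2 * 2 ^ d - 1) := by
      rw [← hk, ← hJ]
      exact Subgroup.card_dvd_of_le (hKdef ▸ inf_le_left)
    have hodd : Nat.Coprime (2 ^ k) (2 * 2 ^ d - 1) := by
      apply Nat.Coprime.pow_left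
      rw [Nat.coprime_two_left]
      exact ⟨2 ^ d - 1, by omega⟩
    have h1 := hodd.dvd_of_dvd_mul_right hdv
    have hkd : k ≤ d := (Nat.pow_dvd_pow_iff_le_right (by norm_num)).1 h1
    have hle : Nat.card J ≤ Nat.card K * I.card := by
      have hJf : (Finset.univ.filter (fun x : G => x ∈ J)).card = Nat.card J := card_filter_mem J
      have hKf : (Finset.univ.filter (fun x : G => x ∈ K)).card = Nat.card K := card_filter_mem K
      have h3 := Finset.card_le_mul_card_image (f := fun x : G => x * t * x⁻¹) (Finset.univ.filter (fun x : G => x ∈ J))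
        (Nat.card K) (by
          intro a ha
          obtain ⟨x₀, hx₀, rfl⟩ := Finset.mem_image.mp ha
          have hx₀J := (Finset.mem_filter.mp hx₀).2
          rw [← hKf]
          refine Finset.card_le_card_of_injOn (fun x => x₀⁻¹ * x) ?_ ?_
          · intro x hx
            have hx' := Finset.mem_coe.mp hx
            obtain ⟨hx1, hx2⟩ := Finset.mem_filter.mp hx'
            have hxJ := (Finset.mem_filter.mp hx1).2
            refine Finset.mem_coe.mpr (Finset.mem_filter.mpr ⟨Finset.mem_univ _, (hmem _).2 ⟨J.mul_mem (J.inv_mem hx₀J) hxJ, ?_⟩⟩)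
            have h5 : x₀⁻¹ * x * t * x⁻¹ * x₀ = t := by
              have h6 : x * t * x⁻¹ = x₀ * t * x₀⁻¹ := hx2
              calc x₀⁻¹ * x * t * x⁻¹ * x₀ = x₀⁻¹ * (x * t * x⁻¹) * x₀ := by group
                _ = x₀⁻¹ * (x₀ * t * x₀⁻¹) * x₀ := by rw [h6]
                _ = t := by group
            calc x₀⁻¹ * x * t = (x₀⁻¹ * x * t * x⁻¹ * x₀) * (x₀⁻¹ * x) := by group
              _ = t * (x₀⁻¹ * x) := by rw [h5]
          · intro x _ y _ h
            exact mul_left_cancel h)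
      have h4 : (Finset.image (fun x : G => x * t * x⁻¹) (Finset.univ.filter (fun x : G => x ∈ J))).card ≤ I.card := by
        apply Finset.card_le_card
        intro a ha
        obtain ⟨x, hx, rfl⟩ := Finset.mem_image.mp ha
        have hxJ := (Finset.mem_filter.mp hx).2
        rw [hI]
        refine ⟨J.mul_mem (J.mul_mem hxJ htJ) (J.inv_mem hxJ), ?_, ?_⟩
        · intro h
          apply ht1
          have h5 : x * t * x⁻¹ * x = 1 * x := by rw [h]
          rw [inv_mul_cancel_right, one_mul] at h5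
          exact mul_left_cancel (a := x) (by rw [h5, mul_one])
        · calc x * t * x⁻¹ * (x * t * x⁻¹) = x * (t * t) * x⁻¹ := by group
            _ = 1 := by rw [ht2]; group
      rw [hJf] at h3
      exact le_trans h3 (Nat.mul_le_mul_left _ h4)
    rw [hJ, hk, hIc] at hle
    have h5 : 2 ^ d ≤ 2 ^ k := Nat.le_of_mul_le_mul_right hle (by omega)
    have h6 : d ≤ k := (Nat.pow_le_pow_iff_right (by norm_num)).1 h5
    have h7 : k = d := by omega
    rw [hk, h7]
  obtain ⟨S, hSdef⟩ : ∃ S : G → Finset G, S = fun t => I.filter (fun x => x * t = t * x) := ⟨_, rfl⟩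
  have hSmem : ∀ t x, x ∈ S t ↔ x ∈ I ∧ x * t = t * x := by
    intro t x
    rw [hSdef]
    simp only [Finset.mem_filter]
  have hSc : ∀ t ∈ I, (S t).card + 1 = 2 ^ d := by
    intro t ht
    obtain ⟨htJ, ht1, ht2⟩ := (hI t).1 ht
    have h1 := hK t ht
    have hKf := card_filter_mem (J ⊓ centralizer ({t} : Set G) : Subgroup G)
    rw [h1] at hKf
    have h2 : Finset.univ.filter (fun x : G => x ∈ (J ⊓ centralizer ({t} : Set G) : Subgroup G)) = insert 1 (S t) := by
      ext x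
      simp only [Finset.mem_filter, Finset.mem_univ, true_and, Finset.mem_insert, hSmem, mem_inf,
        mem_centralizer_singleton_iff, hI]
      constructor
      · rintro ⟨h3, h4⟩
        by_cases hx : x = 1
        · exact Or.inl hx
        · exact Or.inr ⟨⟨h3, hx, hcomm t x ht1 ht2 h4⟩, h4⟩
      · rintro (rfl | ⟨⟨h3, -, -⟩, h4⟩)
        · simp [J.one_mem]
        · exact ⟨h3, h4⟩
    rw [h2, Finset.card_insert_of_notMem] at hKf
    · exact hKf
    · rw [hSmem, hI]
      exact fun h => h.1.2.1 rfl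
  have htrans : ∀ a b c : G, a ∈ I → b ∈ I → c ∈ I → a * b = b * a → b * c = c * b → a * c = c * a := by
    intro a b c ha hb hc hab hbc
    obtain ⟨-, -, ha2⟩ := (hI a).1 ha
    obtain ⟨-, hb1, hb2⟩ := (hI b).1 hb
    obtain ⟨-, -, hc2⟩ := (hI c).1 hc
    have h1 : a * c * b = b * (a * c) := by
      rw [mul_assoc, ← hbc, ← mul_assoc, hab, mul_assoc]
    have h2 := hcomm b (a * c) hb1 hb2 h1
    have h3 : a * c = (a * c)⁻¹ := mul_eq_one_iff_eq_inv.mp h2
    rw [mul_inv_rev, inv_eq_of_mul_eq_one_left hc2, inv_eq_of_mul_eq_one_left ha2] at h3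
    exact h3
  have hfib : ∀ t ∈ I, I.filter (fun a => S a = S t) = S t := by
    intro t ht
    ext a
    simp only [Finset.mem_filter, hSmem]
    constructor
    · rintro ⟨ha, h1⟩
      have h2 : a ∈ S a := (hSmem a a).2 ⟨ha, rfl⟩
      rw [h1] at h2
      exact (hSmem _ _).1 h2
    · rintro ⟨ha, h1⟩
      refine ⟨ha, ?_⟩
      ext x
      rw [hSmem, hSmem]
      constructor
      · rintro ⟨hx, h2⟩
        exact ⟨hx, htrans x a t hx ha ht h2 h1⟩
      · rintro ⟨hx, h2⟩
        exact ⟨hx, htrans x t a hx ht ha h2 h1.symm⟩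
  have hcard := Finset.card_eq_sum_card_image S I
  have hh : ∀ b ∈ I.image S, (I.filter (fun a => S a = b)).card = 2 ^ d - 1 := by
    intro b hb
    obtain ⟨t, ht, rfl⟩ := Finset.mem_image.mp hb
    rw [hfib t ht]
    have := hSc t ht
    omega
  rw [Finset.sum_congr rfl hh, Finset.sum_const, smul_eq_mul, hIc] at hcard
  have h1 : 2 ^ d - 1 ∣ 2 * 2 ^ d - 1 := ⟨_, by rw [hcard]; ring⟩
  have h2 : 2 * 2 ^ d - 1 = 2 * (2 ^ d - 1) + 1 := by omega
  rw [h2] at h1
  have h3 : 2 ^ d - 1 ∣ 1 := (Nat.dvd_add_right (Dvd.intro_left 2 rfl)).1 h1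
  have h4 : 2 ^ d - 1 = 1 := Nat.dvd_one.mp h3
  have h5 : 2 ^ d = 2 ^ 1 := by omega
  exact Nat.pow_right_injective (le_refl 2) h5

/-- The integral data of the character of degree `p - 1`. -/
structure YD (p : ℕ) (y : G → ℤ) : Prop where
  hp5 : 5 ≤ p
  hy1 : y 1 = (p : ℤ) - 1
  hfaith : ∀ g, y g = (p : ℤ) - 1 → g = 1
  hT : ∀ g : G, ¬ p ∣ orderOf g → y (g * g) = y g ^ 2 - ((p : ℤ) - 1) * (y g - 1)
  h01 : ∀ g : G, g ≠ 1 → ¬ p ∣ orderOf g → y g = 0 ∨ y g = 1
  hreg : ∀ g t : G, t ≠ 1 → t * t = 1 → g * t = t * g → ¬ p ∣ orderOf g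

namespace YD

variable {y : G → ℤ}

theorem val_sq (Y : YD p y) {g : G} (hg1 : g ≠ 1) (hg : ¬ p ∣ orderOf g) (h2 : g * g = 1) : y g = 0 := by
  have hp : (5 : ℤ) ≤ p := by exact_mod_cast Y.hp5
  rcases Y.h01 g hg1 hg with h | h
  · exact h
  · exfalso
    have h3 := Y.hT g hg
    rw [h2, Y.hy1, h] at h3
    norm_num at h3
    linarith

theorem val_ne (Y : YD p y) {g : G} (hg : ¬ p ∣ orderOf g) (h2 : g * g ≠ 1) : y g = 1 := by
  have hg1 : g ≠ 1 := by
    rintro rfl
    simp at h2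
  rcases Y.h01 g hg1 hg with h | h
  · exfalso
    apply h2
    apply Y.hfaith
    rw [Y.hT g hg, h]
    ring
  · exact h

open _root_.Classical in
/-- The sum of the character over a subgroup without elements of order divisible by `p`. -/
theorem reg_sum (Y : YD p y) {ψ : IrrCharacter G} (hy : ∀ g, (ψ : G → ℂ) g = (y g : ℂ)) (K : Subgroup G)
    (hK : ∀ x ∈ K, ¬ p ∣ orderOf x) :
    (Nat.card K : ℤ) * (fx ψ K : ℤ) = (p : ℤ) - 1 + (Nat.card K : ℤ) -
      ((Finset.univ.filter (fun x : G => x ∈ K ∧ x * x = 1)).card : ℤ) := by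
  have hF := card_filter_mem K
  have h1 := fx_sum ψ K
  have h2 : ∀ g ∈ Finset.univ.filter (fun g : G => g ∈ K),
      y g = 1 - (if g * g = 1 then 1 else 0) + (if g = 1 then (p : ℤ) - 1 else 0) := by
    intro g hg
    have hgK := (Finset.mem_filter.mp hg).2
    by_cases hg1 : g = 1
    · subst hg1
      simp [Y.hy1]
    · by_cases hg2 : g * g = 1
      · simp [hg1, hg2, Y.val_sq hg1 (hK g hgK) hg2]
      · simp [hg1, hg2, Y.val_ne (hK g hgK) hg2]
  have h3 : ∑ g ∈ Finset.univ.filter (fun g : G => g ∈ K), y g =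
      (p : ℤ) - 1 + (Nat.card K : ℤ) - ((Finset.univ.filter (fun x : G => x ∈ K ∧ x * x = 1)).card : ℤ) := by
    rw [Finset.sum_congr rfl h2, Finset.sum_add_distrib, Finset.sum_sub_distrib, Finset.sum_const, hF,
      Finset.sum_ite_eq', if_pos (Finset.mem_filter.mpr ⟨Finset.mem_univ _, K.one_mem⟩), Finset.sum_boole,
      Finset.filter_filter]
    simp only [smul_eq_mul, mul_one, nsmul_eq_mul]
    ring
  rw [← h3]
  have h4 : (((Nat.card K : ℤ) * (fx ψ K : ℤ) : ℤ) : ℂ) = ((∑ g ∈ Finset.univ.filter (fun g : G => g ∈ K), y g : ℤ) : ℂ) := by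
    push_cast
    rw [← h1]
    exact Finset.sum_congr rfl fun g _ => hy g
  exact_mod_cast h4

open _root_.Classical in
/-- An element of odd order commuting with an involution is trivial. -/
theorem odd_comm (Y : YD p y) {ψ : IrrCharacter G} (hy : ∀ g, (ψ : G → ℂ) g = (y g : ℂ)) {t h : G}
    (ht1 : t ≠ 1) (ht2 : t * t = 1) (hc : h * t = t * h) (hodd : Odd (orderOf h)) : h = 1 := by
  have hcomm : Commute h t := hc
  have ho2 : orderOf t = 2 := orderOf_eq_prime (by rw [pow_two]; exact ht2) ht1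
  obtain ⟨m, hm⟩ : ∃ m, m = orderOf h := ⟨_, rfl⟩
  rw [← hm] at hodd
  have hm0 : m ≠ 0 := by
    rintro rfl
    simp at hodd
  -- the cyclic group generated by `h`
  have hreg1 : ∀ x ∈ zpowers h, ¬ p ∣ orderOf x := by
    intro x hx hd
    exact Y.hreg h t ht1 ht2 hc (dvd_trans hd (orderOf_dvd_of_mem_zpowers hx))
  have h1 := Y.reg_sum hy (zpowers h) hreg1
  have hn1 : Finset.univ.filter (fun x : G => x ∈ zpowers h ∧ x * x = 1) = {1} := by
    ext x
    simp only [Finset.mem_filter, Finset.mem_univ, true_and, Finset.mem_singleton]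
    constructor
    · rintro ⟨hx, hx2⟩
      have h3 : orderOf x ∣ 2 := orderOf_dvd_of_pow_eq_one (by rw [pow_two]; exact hx2)
      have h4 : orderOf x ∣ m := by
        rw [hm]
        exact orderOf_dvd_of_mem_zpowers hx
      have h5 : Odd (orderOf x) := Odd.of_dvd_nat hodd h4
      rcases (Nat.dvd_prime Nat.prime_two).1 h3 with h6 | h6
      · exact orderOf_eq_one_iff.mp h6
      · rw [h6] at h5
        exact absurd h5 (by decide)
    · rintro rfl
      exact ⟨(zpowers h).one_mem, mul_one _⟩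
  rw [hn1, Nat.card_zpowers, ← hm] at h1
  simp only [Finset.card_singleton, Nat.cast_one] at h1
  -- the cyclic group generated by the product
  have hcop : Nat.Coprime m 2 := by
    exact (Nat.coprime_two_right).2 hodd
  have ho : orderOf (h * t) = m * 2 := by
    rw [hcomm.orderOf_mul_eq_mul_orderOf_of_coprime (by rw [← hm, ho2]; exact hcop), ← hm, ho2]
  have hreg2 : ∀ x ∈ zpowers (h * t), ¬ p ∣ orderOf x := by
    intro x hx hd
    refine Y.hreg (h * t) t ht1 ht2 ?_ (dvd_trans hd (orderOf_dvd_of_mem_zpowers hx))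
    rw [mul_assoc, ht2, mul_one]
    calc h = h * (t * t) := by rw [ht2, mul_one]
      _ = (h * t) * t := by rw [mul_assoc]
      _ = (t * h) * t := by rw [hc]
      _ = t * (h * t) := by rw [mul_assoc]
  have h2 := Y.reg_sum hy (zpowers (h * t)) hreg2
  have hn2 : Finset.univ.filter (fun x : G => x ∈ zpowers (h * t) ∧ x * x = 1) = {1, t} := by
    ext x
    simp only [Finset.mem_filter, Finset.mem_univ, true_and, Finset.mem_insert, Finset.mem_singleton]
    constructor
    · rintro ⟨hx, hx2⟩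
      obtain ⟨k, hk⟩ := (mem_powers_iff_mem_zpowers).2 hx
      have hk' : (h * t) ^ k = x := hk
      rw [← hk', hcomm.mul_pow] at hx2 ⊢
      have ht3 : t ^ k * t ^ k = 1 := by
        rw [← pow_add, ← two_mul, pow_mul, pow_two, ht2, one_pow]
      have h8 : h ^ (2 * k) = 1 := by
        have h9 : h ^ k * t ^ k * (h ^ k * t ^ k) = h ^ k * h ^ k * (t ^ k * t ^ k) := by
          have h10 : Commute (t ^ k) (h ^ k) := (hcomm.symm.pow_pow k k)
          rw [mul_assoc, ← mul_assoc (t ^ k), h10.eq]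
          group
        rw [h9, ht3, mul_one] at hx2
        rw [two_mul, pow_add, hx2]
      have h9 : m ∣ k := by
        have h10 : m ∣ 2 * k := by
          rw [hm]
          exact orderOf_dvd_of_pow_eq_one h8
        exact (hcop.dvd_of_dvd_mul_left h10)
      have h10 : h ^ k = 1 := by
        rw [← orderOf_dvd_iff_pow_eq_one, ← hm]
        exact h9
      rw [h10, one_mul]
      rcases Nat.even_or_odd k with hk2 | hk2
      · left
        obtain ⟨c, rfl⟩ := hk2
        rw [← two_mul, pow_mul, pow_two, ht2, one_pow]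
      · right
        obtain ⟨c, rfl⟩ := hk2
        rw [pow_succ, pow_mul, pow_two, ht2, one_pow, one_mul]
    · rintro (h5 | h5)
      · rw [h5]
        exact ⟨(zpowers _).one_mem, mul_one _⟩
      · rw [h5]
        refine ⟨?_, ht2⟩
        obtain ⟨a, ha⟩ := hodd
        have h7 : (h * t) ^ m = t := by
          rw [hcomm.mul_pow, hm, pow_orderOf_eq_one, one_mul, ← hm, ha, pow_succ, pow_mul, pow_two, ht2, one_pow, one_mul]
        have h8 : (h * t) ^ m ∈ zpowers (h * t) := pow_mem (mem_zpowers _) _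
        rwa [h7] at h8
  have hc2 : (Finset.univ.filter (fun x : G => x ∈ zpowers (h * t) ∧ x * x = 1)).card = 2 := by
    rw [hn2, Finset.card_pair (Ne.symm ht1)]
  rw [hc2, Nat.card_zpowers, ho] at h2
  push_cast at h2
  have hd : (m : ℤ) ∣ 1 := by
    have e : (1 : ℤ) = ((m : ℤ) * (fx ψ (zpowers h) : ℤ) - (m : ℤ)) - ((m : ℤ) * (2 * (fx ψ (zpowers (h * t)) : ℤ)) - 2 * (m : ℤ)) := by
      linear_combination -h1 + h2
    rw [e]
    apply dvd_sub
    · exact dvd_sub (Dvd.intro _ rfl) (dvd_refl _)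
    · exact dvd_sub (Dvd.intro _ rfl) (Dvd.intro_left _ rfl)
  have hm1 : m = 1 := by
    have : (m : ℤ) ∣ ((1 : ℕ) : ℤ) := by simpa using hd
    exact Nat.dvd_one.mp (Int.natCast_dvd_natCast.mp this)
  rw [← orderOf_eq_one_iff, ← hm, hm1]

/-- An element commuting with an involution squares to the identity. -/
theorem comm_invol (Y : YD p y) {ψ : IrrCharacter G} (hy : ∀ g, (ψ : G → ℂ) g = (y g : ℂ)) (t g : G)
    (ht1 : t ≠ 1) (ht2 : t * t = 1) (hc : g * t = t * g) : g * g = 1 := by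
  have hcomm : Commute g t := hc
  have hp : (5 : ℤ) ≤ p := by exact_mod_cast Y.hp5
  obtain ⟨k, m, hm, hk⟩ := Nat.exists_eq_two_pow_mul_odd (orderOf_pos g).ne'
  have h1 : g ^ 2 ^ k = 1 := by
    apply Y.odd_comm hy ht1 ht2 (hcomm.pow_left _).eq
    apply Odd.of_dvd_nat hm
    apply orderOf_dvd_of_pow_eq_one
    rw [← pow_mul, ← hk, pow_orderOf_eq_one]
  by_contra hg
  have hst : ∀ n : ℕ, g ^ 2 ^ n * g ^ 2 ^ n ≠ 1 := by
    intro n
    induction n with
    | zero => simpa using hg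
    | succ n ih =>
      obtain ⟨x, hx⟩ : ∃ x, x = g ^ 2 ^ n := ⟨_, rfl⟩
      rw [← hx] at ih
      have hxc : Commute x t := by
        rw [hx]
        exact hcomm.pow_left _
      have hw : g ^ 2 ^ (n + 1) = x * x := by
        rw [hx, pow_succ 2 n, pow_mul, pow_two]
      rw [hw]
      have hxr := Y.hreg x t ht1 ht2 hxc.eq
      have hv := Y.val_ne hxr ih
      have hvw : y (x * x) = 1 := by
        rw [Y.hT x hxr, hv]
        ring
      have hwr : ¬ p ∣ orderOf (x * x) := Y.hreg (x * x) t ht1 ht2 (hxc.mul_left hxc).eq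
      intro h
      have h3 := Y.val_sq (by
        intro h4
        rw [h4, Y.hy1] at hvw
        linarith) hwr h
      rw [h3] at hvw
      norm_num at hvw
  exact hst k (by rw [h1, mul_one])

open _root_.Classical in
/-- The final count: `p = 5`. -/
theorem five (Y : YD p y) {ψ : IrrCharacter G} (hy : ∀ g, (ψ : G → ℂ) g = (y g : ℂ)) (J : Subgroup G)
    (hJreg : ∀ x ∈ J, ¬ p ∣ orderOf x) (hfJ : fx ψ J = 1) {e : ℕ} (he : p = 2 ^ e + 1)
    (hcard : Nat.card J * (2 * p) = p * (p - 1) * (p - 2)) : p = 5 := by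
  have hp5 := Y.hp5
  have h1 := Y.reg_sum hy J hJreg
  rw [hfJ] at h1
  push_cast at h1
  obtain ⟨d, rfl⟩ : ∃ d, e = d + 1 := by
    refine ⟨e - 1, ?_⟩
    rcases Nat.eq_zero_or_pos e with h | h
    · subst h
      simp at he
      omega
    · omega
  have hd : 1 ≤ d := by
    rcases Nat.eq_zero_or_pos d with h | h
    · subst h
      simp at he
      omega
    · exact h
  have hpd : p = 2 * 2 ^ d + 1 := by
    rw [he, pow_succ]
    ring
  have h2d : 2 ≤ 2 ^ d := by
    calc 2 = 2 ^ 1 := rfl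
      _ ≤ 2 ^ d := Nat.pow_le_pow_right (by norm_num) hd
  obtain ⟨I, hIdef⟩ : ∃ I, I = Finset.univ.filter (fun x : G => x ∈ J ∧ x ≠ 1 ∧ x * x = 1) := ⟨_, rfl⟩
  have hI : ∀ g, g ∈ I ↔ g ∈ J ∧ g ≠ 1 ∧ g * g = 1 := by
    intro g
    rw [hIdef]
    simp only [Finset.mem_filter, Finset.mem_univ, true_and]
  have hn : Finset.univ.filter (fun x : G => x ∈ J ∧ x * x = 1) = insert 1 I := by
    ext x
    simp only [Finset.mem_filter, Finset.mem_univ, true_and, Finset.mem_insert, hI]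
    constructor
    · rintro ⟨h3, h4⟩
      by_cases hx : x = 1
      · exact Or.inl hx
      · exact Or.inr ⟨h3, hx, h4⟩
    · rintro (rfl | ⟨h3, -, h4⟩)
      · exact ⟨J.one_mem, mul_one _⟩
      · exact ⟨h3, h4⟩
  rw [hn, Finset.card_insert_of_notMem (by rw [hI]; exact fun h => h.2.1 rfl)] at h1
  push_cast at h1
  have hIc : I.card = 2 * 2 ^ d - 1 := by
    have h3 : (I.card : ℤ) = (p : ℤ) - 2 := by linarith
    have h4 : I.card + 2 = p := by
      have : ((I.card + 2 : ℕ) : ℤ) = (p : ℤ) := by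
        push_cast
        linarith
      exact_mod_cast this
    omega
  have hJc : Nat.card J = 2 ^ d * (2 * 2 ^ d - 1) := by
    have h3 : 2 * p * Nat.card J = 2 * p * (2 ^ d * (2 * 2 ^ d - 1)) := by
      rw [mul_comm (2 * p), hcard]
      have e1 : p - 1 = 2 * 2 ^ d := by omega
      have e2 : p - 2 = 2 * 2 ^ d - 1 := by omega
      rw [e1, e2]
      ring
    exact Nat.eq_of_mul_eq_mul_left (by omega) h3
  have := two_power_core J hd hJc (fun t g h1 h2 h3 => Y.comm_invol hy t g h1 h2 h3) I hI hIc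
  subst this
  rw [hpd]
  norm_num

end YD

section Rat

open _root_.Classical in
/-- The fixed points of a coprime power. -/
theorem fpc_pow_coprime (g : G) {k : ℕ} (hk : k.Coprime (Nat.card G)) : fpc α (g ^ k) = fpc α g := by
  rw [fpc, fpc]
  congr 1
  ext y
  simp only [Finset.mem_filter, Finset.mem_univ, true_and]
  constructor
  · intro h
    have hcop : k.Coprime (orderOf g) := Nat.Coprime.coprime_dvd_right (orderOf_dvd_natCard g) hk
    obtain ⟨m, hm⟩ := exists_pow_eq_self_of_coprime hcop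
    have h1 : g ^ k ∈ MulAction.stabilizer G y := h
    have h2 : (g ^ k) ^ m ∈ MulAction.stabilizer G y := pow_mem h1 m
    rw [hm] at h2
    exact h2
  · intro h
    have h1 : g ∈ MulAction.stabilizer G y := h
    exact pow_mem h1 k

open _root_.Classical in
/-- The constituent of degree `p - 1` is fixed by the coprime powers. -/
theorem psi_pow_coprime {ψ χ₀ : IrrCharacter G} (hd : (ψ : G → ℂ) 1 ≠ (χ₀ : G → ℂ) 1)
    (hF : ∀ g : G, (fpc α g : ℂ) = 1 + (ψ : G → ℂ) g + (χ₀ : G → ℂ) g) {k : ℕ}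
    (hk : k.Coprime (Nat.card G)) (g : G) : (ψ : G → ℂ) (g ^ k) = (ψ : G → ℂ) g := by
  have hψ' := Cfsg.Agent.Lib.Degree.galois_isIrr ψ.2 hk
  have hχ' := Cfsg.Agent.Lib.Degree.galois_isIrr χ₀.2 hk
  have hsum : ∀ g : G, (ψ : G → ℂ) (g ^ k) + (χ₀ : G → ℂ) (g ^ k) = (ψ : G → ℂ) g + (χ₀ : G → ℂ) g := by
    intro g
    have h1 := hF (g ^ k)
    rw [fpc_pow_coprime g hk, hF g] at h1
    linear_combination -h1
  have hψχ : (ψ : G → ℂ) ≠ (χ₀ : G → ℂ) := fun h => hd (by rw [h])
  have heq : (fun g => (ψ : G → ℂ) (g ^ k)) = (ψ : G → ℂ) := by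
    by_contra hne
    have h1 : classInner ((fun g => (ψ : G → ℂ) (g ^ k)) + (fun g => (χ₀ : G → ℂ) (g ^ k))) (ψ : G → ℂ) =
        classInner ((ψ : G → ℂ) + (χ₀ : G → ℂ)) (ψ : G → ℂ) := by
      congr 1
      funext g
      exact hsum g
    rw [classInner_add_left, classInner_add_left, classInner_irr_of_ne hψ' ψ.2 hne, classInner_irr_self ψ.2,
      classInner_irr_of_ne χ₀.2 ψ.2 hψχ.symm, zero_add, add_zero] at h1
    have h2 : (fun g => (χ₀ : G → ℂ) (g ^ k)) = (ψ : G → ℂ) := by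
      by_contra h3
      rw [classInner_irr_of_ne hχ' ψ.2 h3] at h1
      exact zero_ne_one h1
    apply hd
    have h3 := congrFun h2 1
    simp only [one_pow] at h3
    exact h3.symm
  exact congrFun heq g

/-- A character fixed by the coprime powers is integral. -/
theorem exists_int_of_pow (ψ : IrrCharacter G)
    (h : ∀ k : ℕ, k.Coprime (Nat.card G) → ∀ g : G, (ψ : G → ℂ) (g ^ k) = (ψ : G → ℂ) g) :
    ∃ y : G → ℤ, ∀ g, (ψ : G → ℂ) g = (y g : ℂ) := by
  obtain ⟨n, ρ, hρ, hψ⟩ := ψ.2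
  have hg : ∀ g : G, ∃ m : ℤ, (ψ : G → ℂ) g = (m : ℂ) := by
    intro g
    haveI : NeZero (Nat.card G) := ⟨Nat.card_pos.ne'⟩
    obtain ⟨q, hq⟩ := char_rational_of_forall_pow ρ (Nat.card G) g (pow_card_eq_one') (fun u hu => by
      have := h u hu g
      rw [← hψ] at this
      exact this)
    have hi := isIntegral_character ρ g (isOfFinOrder_of_finite g)
    rw [hq, isIntegral_ratCast_iff] at hi
    obtain ⟨m, hm⟩ := hi
    refine ⟨m, ?_⟩
    rw [← hψ, hq, hm]
    simp
  choose y hy using hg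
  exact ⟨y, hy⟩

open _root_.Classical in
/-- The indicator of an irreducible character. -/
theorem fs_indicator (χ : IrrCharacter G) :
    ∃ c : ℂ, (c = 0 ∨ c = 1 ∨ c = -1) ∧ (Nat.card G : ℂ)⁻¹ * ∑ s : G, (χ : G → ℂ) (s * s) = c ∧
      ((∀ s, ((χ : G → ℂ) s).im = 0) → (c = 1 ∨ c = -1)) := by
  obtain ⟨n, ρ, hρ, hχ⟩ := χ.2
  obtain ⟨h1, h2⟩ := frobenius_schur ρ hρ
  rw [← hχ]
  by_cases h : ∀ s, (ρ.character s).im = 0
  · obtain ⟨c, hc, h3, -⟩ := h2 h
    exact ⟨c, Or.inr hc, h3, fun _ => hc⟩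
  · push Not at h
    exact ⟨0, Or.inl rfl, h1 h, fun h4 => absurd (h4 _) h.choose_spec⟩

open _root_.Classical in
/-- The sum of a non-principal irreducible character vanishes. -/
theorem sum_irr_eq_zero {χ : IrrCharacter G} (hχ : χ ≠ oneIrr G) : ∑ s : G, (χ : G → ℂ) s = 0 := by
  have h1 := classInner_irr_of_ne χ.2 (oneIrr G).2 (fun h => hχ (Subtype.ext h))
  rw [classInner_def] at h1
  have hc : (Nat.card G : ℂ)⁻¹ ≠ 0 := inv_ne_zero (card_ne_zero_complex G)
  have h2 := (mul_eq_zero.mp h1).resolve_left hc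
  have h3 : ∀ g, ((oneIrr G : IrrCharacter G) : G → ℂ) g = 1 := fun _ => rfl
  simpa [h3] using h2

open _root_.Classical in
/-- The Frobenius-Schur indicator of the constituent of degree `p - 1` is positive. -/
theorem sum_sq_eq_card [FaithfulSMul G α] {n : ℕ} (hα : Fintype.card α = n) {ψ χ₀ : IrrCharacter G}
    (hψ1 : ψ ≠ oneIrr G) (hχ1 : χ₀ ≠ oneIrr G)
    (hF : ∀ g : G, (fpc α g : ℂ) = 1 + (ψ : G → ℂ) g + (χ₀ : G → ℂ) g)
    (hreal : ∀ s, ((ψ : G → ℂ) s).im = 0) (ht : ∃ t : G, t ≠ 1 ∧ t * t = 1) :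
    ∑ s : G, (ψ : G → ℂ) (s * s) = (Nat.card G : ℂ) := by
  have hne : (Nat.card G : ℂ) ≠ 0 := card_ne_zero_complex G
  have hcG : ((Finset.univ : Finset G).card : ℂ) = (Nat.card G : ℂ) := by
    rw [Finset.card_univ, Nat.card_eq_fintype_card]
  -- the sum of the fixed points
  have h1 : (((∑ s : G, fpc α s : ℕ)) : ℂ) = (Nat.card G : ℂ) := by
    push_cast
    rw [Finset.sum_congr rfl fun g _ => hF g, Finset.sum_add_distrib, Finset.sum_add_distrib,
      sum_irr_eq_zero hψ1, sum_irr_eq_zero hχ1, Finset.sum_const, nsmul_eq_mul, hcG]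
    ring
  have h1' : ∑ s : G, fpc α s = Nat.card G := by exact_mod_cast h1
  have hlt : ∑ s : G, fpc α s < ∑ s : G, fpc α (s * s) := by
    obtain ⟨t, ht1, ht2⟩ := ht
    apply Finset.sum_lt_sum
    · intro s _
      rw [fpc, fpc]
      apply Finset.card_le_card
      intro y hy
      simp only [Finset.mem_filter, Finset.mem_univ, true_and] at hy ⊢
      rw [mul_smul, hy, hy]
    · refine ⟨t, Finset.mem_univ _, ?_⟩
      rw [ht2, fpc_one hα]
      by_contra h
      push Not at h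
      exact ht1 (eq_one_of_fpc hα h)
  rw [h1'] at hlt
  obtain ⟨c, hc, hcd, hcr⟩ := fs_indicator ψ
  obtain ⟨c', hc', hcd', -⟩ := fs_indicator χ₀
  have hc1 : c = 1 ∨ c = -1 := hcr hreal
  have hsψ : ∑ s : G, (ψ : G → ℂ) (s * s) = (Nat.card G : ℂ) * c := by
    rw [← hcd]
    field_simp
  have hsχ : ∑ s : G, (χ₀ : G → ℂ) (s * s) = (Nat.card G : ℂ) * c' := by
    rw [← hcd']
    field_simp
  have h2 : ((∑ s : G, fpc α (s * s) : ℕ) : ℂ) = (Nat.card G : ℂ) * (1 + c + c') := by
    push_cast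
    rw [Finset.sum_congr rfl fun g _ => hF (g * g), Finset.sum_add_distrib, Finset.sum_add_distrib, hsψ, hsχ,
      Finset.sum_const, nsmul_eq_mul, hcG]
    ring
  rcases hc1 with rfl | rfl
  · rw [hsψ, mul_one]
  · exfalso
    rw [add_neg_cancel, zero_add] at h2
    rcases hc' with rfl | rfl | rfl
    · rw [mul_zero] at h2
      have h3 : ∑ s : G, fpc α (s * s) = 0 := by exact_mod_cast h2
      omega
    · rw [mul_one] at h2
      have h3 : ∑ s : G, fpc α (s * s) = Nat.card G := by exact_mod_cast h2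
      omega
    · have h3 : (((∑ s : G, fpc α (s * s)) + Nat.card G : ℕ) : ℂ) = 0 := by
        push_cast
        push_cast at h2
        rw [h2]
        ring
      have h4 : (∑ s : G, fpc α (s * s)) + Nat.card G = 0 := by exact_mod_cast h3
      omega

end Rat

open _root_.Classical in
/-- A point stabilizer with more than two orbits has a permutation character of norm different from two. -/
theorem rank_ne_two (htr : ∀ a b : α, ∃ g : G, g • a = b) (a : α)
    (hnot : ¬ ∀ b c : α, b ≠ a → c ≠ a → ∃ j : G, j • a = a ∧ j • b = c) :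
    ∑ χ : IrrCharacter G, fx χ (MulAction.stabilizer G a) * fx χ (MulAction.stabilizer G a) ≠ 2 := by
  intro h2
  obtain ⟨J, hJ⟩ : ∃ J, J = MulAction.stabilizer G a := ⟨_, rfl⟩
  rw [← hJ] at h2
  have hmemJ : ∀ g, g ∈ J ↔ g • a = a := fun g => by rw [hJ, MulAction.mem_stabilizer_iff]
  push Not at hnot
  obtain ⟨b, c, hb, hc, hbc⟩ := hnot
  have h3 : ∑ g ∈ Finset.univ.filter (fun g : G => g ∈ J), fpc α g = Nat.card J * 2 := by
    have hc : ((∑ g ∈ Finset.univ.filter (fun g : G => g ∈ J), fpc α g : ℕ) : ℂ) = ((Nat.card J * 2 : ℕ) : ℂ) := by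
      push_cast
      have e : ∀ g : G, (fpc α g : ℂ) = ∑ χ : IrrCharacter G, (fx χ J : ℂ) * (χ : G → ℂ) g := fun g => by
        rw [← ind_one_expansion, hJ, ind_point htr]
      rw [Finset.sum_congr rfl fun g _ => e g, Finset.sum_comm]
      have e2 : ∀ χ : IrrCharacter G, ∑ g ∈ Finset.univ.filter (fun g : G => g ∈ J), (fx χ J : ℂ) * (χ : G → ℂ) g =
          (Nat.card J : ℂ) * ((fx χ J * fx χ J : ℕ) : ℂ) := fun χ => by
        rw [← Finset.mul_sum, fx_sum]
        push_cast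
        ring
      rw [Finset.sum_congr rfl fun χ _ => e2 χ, ← Finset.mul_sum, ← Nat.cast_sum, h2]
      push_cast
      ring
    exact_mod_cast hc
  letI : Fintype J := Fintype.ofFinite J
  letI : Fintype (MulAction.orbitRel.Quotient J α) := Fintype.ofFinite _
  have hB := MulAction.sum_card_fixedBy_eq_card_orbits_mul_card_group J α
  have h4 : ∑ j : J, Fintype.card (MulAction.fixedBy α j) = ∑ g ∈ Finset.univ.filter (fun g : G => g ∈ J), fpc α g := by
    rw [Finset.sum_subtype (Finset.univ.filter (fun g : G => g ∈ J)) (p := fun g => g ∈ J) (fun x => by simp) (fun g => fpc α g)]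
    refine Finset.sum_congr rfl fun j _ => ?_
    rw [fpc]
    exact Fintype.card_of_subtype _ (fun x => by simp [MulAction.mem_fixedBy, Subgroup.smul_def])
  have h5 : 2 < Nat.card (MulAction.orbitRel.Quotient J α) := by
    rw [Nat.card_eq_fintype_card, Fintype.two_lt_card_iff]
    refine ⟨Quotient.mk'' a, Quotient.mk'' b, Quotient.mk'' c, ?_, ?_, ?_⟩
    · intro h
      obtain ⟨j, hj⟩ := MulAction.orbitRel_apply.mp (Quotient.eq''.mp h)
      have h7 : (j : G) • a = a := (hmemJ _).1 j.2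
      have h8 : (j : G) • b = a := hj
      exact hb (MulAction.injective (j : G) (h8.trans h7.symm))
    · intro h
      obtain ⟨j, hj⟩ := MulAction.orbitRel_apply.mp (Quotient.eq''.mp h)
      have h7 : (j : G) • a = a := (hmemJ _).1 j.2
      have h8 : (j : G) • c = a := hj
      exact hc (MulAction.injective (j : G) (h8.trans h7.symm))
    · intro h
      obtain ⟨j, hj⟩ := MulAction.orbitRel_apply.mp (Quotient.eq''.mp h)
      have h7 : (j : G) • a = a := (hmemJ _).1 j.2
      have h8 : (j : G) • c = b := hj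
      apply hbc (j : G)⁻¹
      · rw [inv_smul_eq_iff, h7]
      · rw [inv_smul_eq_iff, h8]
  rw [h4, h3, ← Nat.card_eq_fintype_card (α := J), ← Nat.card_eq_fintype_card] at hB
  have hJ0 : 0 < Nat.card J := Nat.card_pos
  have h6 : 3 * Nat.card J ≤ Nat.card (MulAction.orbitRel.Quotient J α) * Nat.card J := Nat.mul_le_mul_right _ h5
  have h7 : Nat.card J * 2 = Nat.card (MulAction.orbitRel.Quotient J α) * Nat.card J := hB
  omega

open _root_.Classical in
/-- **The core of the rank three case.** -/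
theorem two_rank_core [hfp : Fact p.Prime] [FaithfulSMul G α] (hp5 : 5 ≤ p)
    (hα : Fintype.card α = 2 * p) (htr : ∀ a b : α, ∃ g : G, g • a = b)
    (hnot2 : ¬ ∀ a b c d : α, a ≠ b → c ≠ d → ∃ g : G, g • a = c ∧ g • b = d)
    (hperf : commutator G = ⊤) (hz : orderOf z = p) (hC : centralizer ({z} : Set G) = zpowers z)
    (hN : Nat.card (normalizer ((zpowers z : Subgroup G) : Set G)) = 2 * p)
    (hsq : ¬ p ^ 2 ∣ Nat.card G) (hnp : ∀ K : Subgroup G, K.Normal → K ≠ ⊥ → p ∣ Nat.card K) :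
    p = 5 ∧ Nat.card G = 60 := by
  have hpr := hfp.out
  obtain ⟨s, X, Y, δ, ε, deg, D, hs⟩ := exists_BD0 hp5 hperf hz hC hN hsq
  obtain ⟨a⟩ : Nonempty α := Fintype.card_pos_iff.mp (by omega)
  have hfree := no_fixed D hs hα htr a
  have hJ₁ : ∀ u ∈ zpowers z, u ≠ 1 → ∀ x : G, x⁻¹ * u * x ∉ MulAction.stabilizer G a := by
    intro u hu hu1 x hx
    rw [MulAction.mem_stabilizer_iff, mul_smul, mul_smul, inv_smul_eq_iff] at hx
    exact hfree u hu hu1 _ hx
  have hc₁ : Nat.card (MulAction.stabilizer G a) * (2 * p) = Nat.card G := by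
    have h1 := (MulAction.stabilizer G a).card_mul_index
    rw [MulAction.index_stabilizer] at h1
    have h3 : MulAction.orbit G a = Set.univ := by
      ext y
      simp only [Set.mem_univ, iff_true]
      exact htr a y
    rw [h3, Set.ncard_univ, Nat.card_eq_fintype_card (α := α), hα] at h1
    exact h1
  have hrank := rank_ne_two htr a (fun h => hnot2 (by
    intro b₁ b₂ c₁ c₂ hb hc
    obtain ⟨g₁, hg₁⟩ := htr b₁ a
    obtain ⟨g₂, hg₂⟩ := htr c₁ a
    have h1 : g₁ • b₂ ≠ a := by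
      intro h4
      apply hb
      rw [← hg₁] at h4
      exact (MulAction.injective g₁ h4).symm
    have h2 : g₂ • c₂ ≠ a := by
      intro h4
      apply hc
      rw [← hg₂] at h4
      exact (MulAction.injective g₂ h4).symm
    obtain ⟨j, hj1, hj2⟩ := h _ _ h1 h2
    refine ⟨g₂⁻¹ * j * g₁, ?_, ?_⟩
    · rw [mul_smul, mul_smul, hg₁, hj1, inv_smul_eq_iff, hg₂]
    · rw [mul_smul, mul_smul, hj2, inv_smul_smul]))
  obtain ⟨ψ, χ₀, P, hχψ, hχ1, hdχ, hfψJ, hfχJ, hind⟩ := exists_PD2 D hs _ hJ₁ hc₁ hrank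
  have hF : ∀ g : G, (fpc α g : ℂ) = 1 + (ψ : G → ℂ) g + (χ₀ : G → ℂ) g := by
    intro g
    rw [← hind, ind_point htr]
  have hdψ := P.hdψ
  have hψ1v : (ψ : G → ℂ) 1 = ((deg ψ : ℕ) : ℂ) := (D.hdeg ψ).1
  have hd : (ψ : G → ℂ) 1 ≠ (χ₀ : G → ℂ) 1 := by
    rw [hψ1v, (D.hdeg χ₀).1, hdχ]
    intro h
    have h2 : deg ψ = p := by exact_mod_cast h
    omega
  obtain ⟨y, hy⟩ := exists_int_of_pow ψ (fun k hk g => psi_pow_coprime (α := α) hd hF hk g)
  have hreal' : ∀ s, ((ψ : G → ℂ) s).im = 0 := fun s => by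
    rw [hy]
    simp
  have hreal : ∀ g, conj ((ψ : G → ℂ) g) = (ψ : G → ℂ) g := fun g => by
    rw [hy]
    simp
  have ht : ∃ t : G, t ≠ 1 ∧ t * t = 1 := by
    have h1 : Nat.card (normalizer ((zpowers z : Subgroup G) : Set G)) ∣ Nat.card G := Subgroup.card_subgroup_dvd_card _
    rw [hN] at h1
    have h2d : 2 ∣ Nat.card G := dvd_trans (Dvd.intro _ rfl) h1
    haveI : Fact (Nat.Prime 2) := ⟨Nat.prime_two⟩
    obtain ⟨t, ht⟩ := exists_prime_orderOf_dvd_card' 2 h2d
    refine ⟨t, ?_, ?_⟩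
    · rintro rfl
      rw [orderOf_one] at ht
      omega
    · have h3 := pow_orderOf_eq_one t
      rwa [ht, pow_two] at h3
  have hν := sum_sq_eq_card hα P.hψ1 hχ1 hF hreal' ht
  have hp5z : (5 : ℤ) ≤ p := by exact_mod_cast hp5
  have hy1 : y 1 = (p : ℤ) - 1 := by
    have h1 : ((y 1 : ℤ) : ℂ) = (((p : ℤ) - 1 : ℤ) : ℂ) := by
      rw [← hy, hψ1v]
      have h2 : (p : ℂ) = (deg ψ : ℂ) + 1 := by exact_mod_cast hdψ.symm
      push_cast
      rw [h2]
      ring
    exact_mod_cast h1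
  have hψX : ψ ∈ X := by
    rw [P.hXs]
    simp
  have hz1 : z ≠ 1 := by
    rintro rfl
    rw [orderOf_one] at hz
    omega
  have hψc := IsIrrCharacter.isCharacter ψ.2
  have hfaith : ∀ g, y g = (p : ℤ) - 1 → g = 1 := by
    intro g hg
    by_contra hg1
    have hcl : IsClassFunction G (ψ : G → ℂ) := IsCharacter.isClassFunction hψc
    have hval : (ψ : G → ℂ) g = (ψ : G → ℂ) 1 := by
      rw [hy g, hy 1, hg, hy1]
    have hgK : g ∈ Cfsg.Agent.Lib.Degree.kerOf (ψ : G → ℂ) := (Cfsg.Agent.Lib.Degree.mem_kerOf_iff hψc).2 hval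
    obtain ⟨Q, hQ, hQc⟩ := exists_sylow_of_sq hz hsq
    haveI hKn := Cfsg.Agent.Lib.Degree.kerOf_normal hcl
    have hdK := hnp _ hKn (fun h => hg1 (by
      rw [h] at hgK
      exact hgK))
    have hle := Cfsg.Agent.Lib.Perm.sylow_le_normal_of_dvd Q hQc _ hdK
    have hzK : z ∈ Cfsg.Agent.Lib.Degree.kerOf (ψ : G → ℂ) := hle (by
      rw [hQ]
      exact mem_zpowers z)
    have h1 : (ψ : G → ℂ) z = (ψ : G → ℂ) 1 := (Cfsg.Agent.Lib.Degree.mem_kerOf_iff hψc).1 hzK
    have h2 := D.hXval ψ hψX z (mem_zpowers z) hz1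
    rw [P.hδψ, h1, hy 1, hy1] at h2
    have h3 : ((p : ℤ) - 1 : ℤ) = -1 := by exact_mod_cast h2
    omega
  obtain ⟨hG, h01⟩ := P.card_of_int hs hreal hν y hy hfaith hN
  obtain ⟨hT, -⟩ := P.sq_data hs hreal hν
  have hreg : ∀ g t : G, t ≠ 1 → t * t = 1 → g * t = t * g → ¬ p ∣ orderOf g := by
    intro g t ht1 ht2 hc hg
    obtain ⟨x, hu, hu1⟩ := exists_conj_of_dvd hz hC hg
    obtain ⟨u, hudef⟩ : ∃ u, u = x⁻¹ * g * x := ⟨_, rfl⟩
    rw [← hudef] at hu hu1
    obtain ⟨t', ht'⟩ : ∃ t', t' = x⁻¹ * t * x := ⟨_, rfl⟩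
    have hc' : u * t' = t' * u := by
      rw [hudef, ht']
      calc x⁻¹ * g * x * (x⁻¹ * t * x) = x⁻¹ * (g * t) * x := by group
        _ = x⁻¹ * (t * g) * x := by rw [hc]
        _ = x⁻¹ * t * x * (x⁻¹ * g * x) := by group
    have ht'1 : t' ≠ 1 := by
      intro h
      apply ht1
      rw [ht'] at h
      have h4 : t = x * (x⁻¹ * t * x) * x⁻¹ := by group
      rw [h4, h]
      group
    have ht'2 : t' * t' = 1 := by
      rw [ht']
      calc x⁻¹ * t * x * (x⁻¹ * t * x) = x⁻¹ * (t * t) * x := by group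
        _ = 1 := by rw [ht2]; group
    have ho : orderOf t' = 2 := orderOf_eq_prime (by rw [pow_two]; exact ht'2) ht'1
    have hzu := zpowers_eq_of_mem hpr hz hu hu1
    have hzm : z ∈ centralizer ({t'} : Set G) := by
      have h3 : zpowers u ≤ centralizer ({t'} : Set G) := by
        rw [Subgroup.zpowers_le, Subgroup.mem_centralizer_singleton_iff]
        exact hc'
      apply h3
      rw [hzu]
      exact mem_zpowers z
    have ht'm : t' ∈ zpowers z := by
      rw [← hC, Subgroup.mem_centralizer_singleton_iff]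
      rw [Subgroup.mem_centralizer_singleton_iff] at hzm
      exact hzm.symm
    have h5 := orderOf_dvd_of_mem_zpowers ht'm
    rw [ho, hz] at h5
    have h6 := (Nat.prime_dvd_prime_iff_eq Nat.prime_two hpr).1 h5
    omega
  have Yd : YD p y := ⟨hp5, hy1, hfaith, fun g hg => by
    have h1 := hT g hg
    rw [hy, hy] at h1
    have h2 : ((y (g * g) : ℤ) : ℂ) = ((y g ^ 2 - ((p : ℤ) - 1) * (y g - 1) : ℤ) : ℂ) := by
      rw [h1]
      push_cast
      ring
    exact_mod_cast h2, h01, hreg⟩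
  obtain ⟨e, he, -⟩ := P.to_psl hs hperf hN hsq hG
  have hJreg : ∀ x ∈ MulAction.stabilizer G a, ¬ p ∣ orderOf x := by
    intro x hx hd
    obtain ⟨w, hu, hu1⟩ := exists_conj_of_dvd hz hC hd
    have h1 := hJ₁ _ hu hu1 w⁻¹
    apply h1
    have h2 : (w⁻¹)⁻¹ * (w⁻¹ * x * w) * w⁻¹ = x := by group
    rw [h2]
    exact hx
  have h5 := Yd.five hy _ hJreg hfψJ he (by rw [hc₁, hG])
  refine ⟨h5, ?_⟩
  rw [hG, h5]

end Cfsg.Agent.Lib.BR
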