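import Cfsg.Agent.Lib.BR.CaseB
import Cfsg.Agent.Lib.BR.Tens3
import Cfsg.Agent.Lib.BR.PerfectSmall

/-!
# Permutation groups of prime degree with a normalizer of order `2 p`
-/

set_option autoImplicit false
set_option linter.unusedSectionVars false
set_option linter.style.haveILetI false
set_option linter.unusedSimpArgs false
set_option linter.unnecessarySimpa false
set_option linter.unusedVariables false
set_option maxSynthPendingDepth 3

open scoped ComplexConjugate
open Subgroup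

namespace Cfsg.Agent.Lib.BR

open Cfsg (classInner IsCharacter IsIrrCharacter IrrCharacter IsClassFunction indFun
  extendByZero IsGeneralizedCharacter IsPModular principalBlock)
open Cfsg.Agent.Lib.Char
open Cfsg.Agent.Lib.Block hiding tr

universe u v

variable {G : Type u} [Group G] [Fintype G]

section Count

variable {β : Type v} [Fintype β] [MulAction G β]

theorem card_filter_mem (K : Subgroup G) [DecidablePred (fun g : G => g ∈ K)] :
    (Finset.univ.filter (fun g : G => g ∈ K)).card = Nat.card K := by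
  classical
  rw [Nat.card_eq_fintype_card, Fintype.card_subtype]

open _root_.Classical in
/-- The number of elements moving a point to a point of its orbit. -/
theorem card_fiber_smul (w y : β) (hy : y ∈ MulAction.orbit G w) :
    (Finset.univ.filter (fun x : G => x • w = y)).card = Nat.card (MulAction.stabilizer G w) := by
  obtain ⟨x₀, rfl⟩ := hy
  have h1 : Finset.univ.filter (fun x : G => x • w = (fun m => m • w) x₀) =
      (Finset.univ.filter (fun j : G => j ∈ MulAction.stabilizer G w)).image (fun j => x₀ * j) := by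
    ext x
    simp only [Finset.mem_filter, Finset.mem_univ, true_and, Finset.mem_image, MulAction.mem_stabilizer_iff]
    constructor
    · intro h
      refine ⟨x₀⁻¹ * x, ?_, by group⟩
      rw [mul_smul, h, inv_smul_smul]
    · rintro ⟨j, hj, rfl⟩
      rw [mul_smul, hj]
  rw [h1, Finset.card_image_of_injective _ (mul_right_injective x₀), card_filter_mem]

open _root_.Classical in
/-- The induced principal character from a point stabilizer counts the fixed points in the orbit. -/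
theorem ind_stab (w : β) (g : G) :
    indFun (MulAction.stabilizer G w) (fun _ => 1) g =
      (((Finset.univ.filter (fun y : β => y ∈ MulAction.orbit G w ∧ g • y = y)).card : ℕ) : ℂ) := by
  rw [ind_one_apply]
  set T := Finset.univ.filter (fun y : β => y ∈ MulAction.orbit G w ∧ g • y = y) with hT
  have h1 : (Finset.univ.filter (fun x : G => x⁻¹ * g * x ∈ MulAction.stabilizer G w)).card =
      T.card * Nat.card (MulAction.stabilizer G w) := by
    have h2 := Finset.card_eq_sum_card_fiberwise (s := Finset.univ.filter (fun x : G => x⁻¹ * g * x ∈ MulAction.stabilizer G w))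
      (t := T) (f := fun x : G => x • w) (by
        intro x hx
        have hx' := (Finset.mem_filter.mp (Finset.mem_coe.mp hx)).2
        rw [MulAction.mem_stabilizer_iff, mul_smul, mul_smul, inv_smul_eq_iff] at hx'
        exact Finset.mem_coe.mpr (Finset.mem_filter.mpr ⟨Finset.mem_univ _, ⟨x, rfl⟩, hx'⟩))
    rw [h2, ← smul_eq_mul, ← Finset.sum_const]
    refine Finset.sum_congr rfl fun y hy => ?_
    obtain ⟨-, hyo, hyg⟩ := Finset.mem_filter.mp hy
    rw [← card_fiber_smul w y hyo]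
    congr 1
    ext x
    simp only [Finset.mem_filter, Finset.mem_univ, true_and, MulAction.mem_stabilizer_iff]
    constructor
    · rintro ⟨-, h⟩
      exact h
    · intro h
      refine ⟨?_, h⟩
      rw [mul_smul, mul_smul, inv_smul_eq_iff, h, hyg]
  have hc : (Nat.card (MulAction.stabilizer G w) : ℂ) ≠ 0 := card_ne_zero_complex _
  calc _ = ((Nat.card (MulAction.stabilizer G w) : ℂ))⁻¹ * ((T.card * Nat.card (MulAction.stabilizer G w) : ℕ) : ℂ) := by
        rw [← h1]
        congr!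
    _ = _ := by
        push_cast
        field_simp

end Count

section Avoid

variable {p : ℕ} {z : G} {t s : ℕ} {Xs Ys : Finset (IrrCharacter G)} {δ : IrrCharacter G → ℤ} {ε : ℤ}
  {deg : IrrCharacter G → ℕ}

open _root_.Classical in
/-- The two counts attached to a subgroup avoiding the conjugates of the non-trivial elements of the cyclic group. -/
theorem avoid_sums (D : BD0 p z t s Xs Ys δ ε deg) (J : Subgroup G)
    (hJ : ∀ u ∈ zpowers z, u ≠ 1 → ∀ x : G, x⁻¹ * u * x ∉ J) :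
    Nat.card J * ∑ χ : IrrCharacter G, fx χ J * deg χ = Nat.card G ∧
    p * ∑ χ : IrrCharacter G, fx χ J * fx χ (zpowers z) = ∑ χ : IrrCharacter G, fx χ J * deg χ := by
  have hc : (Nat.card J : ℂ) ≠ 0 := card_ne_zero_complex J
  have h1 : indFun J (fun _ => 1) 1 = ((∑ χ : IrrCharacter G, fx χ J * deg χ : ℕ) : ℂ) := by
    rw [ind_one_expansion]
    push_cast
    refine Finset.sum_congr rfl fun χ _ => ?_
    rw [(D.hdeg χ).1]
  have h2 : indFun J (fun _ => 1) 1 = (Nat.card J : ℂ)⁻¹ * (Nat.card G : ℂ) := by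
    rw [ind_one_apply]
    congr 1
    have : Finset.univ.filter (fun x : G => x⁻¹ * 1 * x ∈ J) = Finset.univ := by
      ext x
      simp [J.one_mem]
    rw [this, Finset.card_univ, Nat.card_eq_fintype_card]
  constructor
  · have h3 : ((Nat.card J * ∑ χ : IrrCharacter G, fx χ J * deg χ : ℕ) : ℂ) = (Nat.card G : ℂ) := by
      rw [Nat.cast_mul, ← h1, h2]
      field_simp
    exact_mod_cast h3
  · have h3 : ∀ u ∈ Finset.univ.filter (fun u : G => u ∈ zpowers z ∧ u ≠ 1),
        ∑ χ : IrrCharacter G, (fx χ J : ℂ) * (χ : G → ℂ) u = 0 := by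
      intro u hu
      rw [Finset.mem_filter] at hu
      rw [← ind_one_expansion, ind_one_apply]
      have : Finset.univ.filter (fun x : G => x⁻¹ * u * x ∈ J) = ∅ := by
        ext x
        simp only [Finset.mem_filter, Finset.mem_univ, true_and, Finset.notMem_empty, iff_false]
        exact hJ u hu.2.1 hu.2.2 x
      rw [this]
      simp
    have h4 : ((p * ∑ χ : IrrCharacter G, fx χ J * fx χ (zpowers z) : ℕ) : ℂ) =
        ((∑ χ : IrrCharacter G, fx χ J * deg χ : ℕ) : ℂ) := by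
      rw [← h1, ind_one_expansion]
      push_cast
      rw [Finset.mul_sum]
      have h5 : ∑ χ : IrrCharacter G, (fx χ J : ℂ) * (χ : G → ℂ) 1 =
          ∑ χ : IrrCharacter G, (fx χ J : ℂ) * (χ : G → ℂ) 1 +
            ∑ u ∈ Finset.univ.filter (fun u : G => u ∈ zpowers z ∧ u ≠ 1),
              ∑ χ : IrrCharacter G, (fx χ J : ℂ) * (χ : G → ℂ) u := by
        rw [Finset.sum_eq_zero h3, add_zero]
      rw [h5, Finset.sum_comm, ← Finset.sum_add_distrib]
      refine Finset.sum_congr rfl fun χ _ => ?_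
      rw [← Finset.mul_sum]
      have h6 := fx_P_eq D.hz χ
      linear_combination (fx χ J : ℂ) * h6
    exact_mod_cast h4

/-- The data of the block after identifying the permutation character. -/
structure PD (p : ℕ) (z : G) (s : ℕ) (Xs Ys : Finset (IrrCharacter G)) (δ : IrrCharacter G → ℤ) (ε : ℤ)
    (deg : IrrCharacter G → ℕ) (ψ : IrrCharacter G) : Prop where
  D : BD0 p z 2 s Xs Ys δ ε deg
  hXs : Xs = {oneIrr G, ψ}
  hψ1 : ψ ≠ oneIrr G
  hdψ : deg ψ + 1 = p
  hδψ : δ ψ = -1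
  hfψ : fx ψ (zpowers z) = 0
  hε : ε = -1
  hdθ : ∀ θ ∈ Ys, deg θ + 2 = p
  hfθ : ∀ θ ∈ Ys, fx θ (zpowers z) = 1
  hrelθ : ∀ θ ∈ Ys, ∀ g : G, ¬ p ∣ orderOf g → (θ : G → ℂ) g = (ψ : G → ℂ) g - 1

theorem deg_one_of (D : BD0 p z t s Xs Ys δ ε deg) : deg (oneIrr G) = 1 := by
  have h1 : ((oneIrr G : IrrCharacter G) : G → ℂ) 1 = 1 := rfl
  have h2 := (D.hdeg (oneIrr G)).1
  rw [h1] at h2
  exact_mod_cast h2.symm

open _root_.Classical in
/-- The constituents of the permutation character on the cosets of a point stabilizer. -/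
theorem exists_PD (D : BD0 p z 2 s Xs Ys δ ε deg) (hs : 2 ≤ s) (J : Subgroup G)
    (hJ : ∀ u ∈ zpowers z, u ≠ 1 → ∀ x : G, x⁻¹ * u * x ∉ J) (hcard : Nat.card J * p = Nat.card G) :
    ∃ ψ, PD p z s Xs Ys δ ε deg ψ ∧ ∀ g : G, indFun J (fun _ => 1) g = 1 + (ψ : G → ℂ) g := by
  have hp := D.hp
  have hst := D.hst
  obtain ⟨hA, hB⟩ := avoid_sums D J hJ
  have hJ0 : 0 < Nat.card J := Nat.card_pos
  have hm : ∑ χ : IrrCharacter G, fx χ J * deg χ = p := by
    apply Nat.eq_of_mul_eq_mul_left hJ0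
    rw [hA, hcard]
  have hs1 : ∑ χ : IrrCharacter G, fx χ J * fx χ (zpowers z) = 1 := by
    rw [hm] at hB
    exact Nat.eq_of_mul_eq_mul_left hp.pos (by rw [hB, mul_one])
  have hdone := deg_one_of D
  have h0 : ∀ χ : IrrCharacter G, χ ≠ oneIrr G → fx χ J * fx χ (zpowers z) = 0 := by
    intro χ hχ
    rw [← Finset.add_sum_erase _ _ (Finset.mem_univ (oneIrr G)), fx_oneIrr, fx_oneIrr, mul_one] at hs1
    have h1 : ∑ χ ∈ Finset.univ.erase (oneIrr G), fx χ J * fx χ (zpowers z) = 0 := by omega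
    rw [Finset.sum_eq_zero_iff] at h1
    exact h1 χ (Finset.mem_erase.mpr ⟨hχ, Finset.mem_univ _⟩)
  obtain ⟨ψ, hψ1, hX⟩ : ∃ ψ, ψ ≠ oneIrr G ∧ Xs = {oneIrr G, ψ} := by
    obtain ⟨a, b, hab, hX⟩ := Finset.card_eq_two.mp D.hXc
    have h1 := D.hone
    rw [hX, Finset.mem_insert, Finset.mem_singleton] at h1
    rcases h1 with h1 | h1
    · exact ⟨b, fun h => hab (h1.symm.trans h.symm), by rw [hX, h1]⟩
    · refine ⟨a, fun h => hab (h.trans h1), ?_⟩
      rw [hX, h1, Finset.pair_comm]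
  have hψX : ψ ∈ Xs := by
    rw [hX]
    simp
  have hδone := D.hδone
  -- the relation at the identity
  have hrel1 : ∀ θ ∈ Ys, ε * (deg θ : ℤ) = 1 + δ ψ * (deg ψ : ℤ) := by
    intro θ hθ
    have h1 := D.hrel θ hθ 1 (by rw [orderOf_one]; exact fun h => hp.one_lt.ne' (Nat.dvd_one.mp h))
    rw [hX, Finset.sum_pair hψ1.symm, (D.hdeg θ).1, (D.hdeg ψ).1, (D.hdeg _).1, hdone, hδone] at h1
    have h2 : ((ε * (deg θ : ℤ) : ℤ) : ℂ) = ((1 + δ ψ * (deg ψ : ℤ) : ℤ) : ℂ) := by
      push_cast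
      rw [h1]
      push_cast
      ring
    exact_mod_cast h2
  have hδψ' := D.hδ ψ hψX
  have hψd0 : (1 : ℤ) ≤ deg ψ := by exact_mod_cast Nat.pos_of_ne_zero (D.hdeg ψ).2.1
  have hψd1 : deg ψ ≠ 1 := fun h => hψ1 (D.hdeg1 ψ h)
  -- the constituents
  have hcons : ∀ χ : IrrCharacter G, χ ≠ oneIrr G → χ ≠ ψ → fx χ J = 0 := by
    intro χ h1 h2
    by_contra hne
    have h3 : fx χ (zpowers z) = 0 := by
      rcases mul_eq_zero.mp (h0 χ h1) with h | h
      · exact absurd h hne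
      · exact h
    by_cases hχX : χ ∈ Xs
    · rw [hX, Finset.mem_insert, Finset.mem_singleton] at hχX
      rcases hχX with h | h
      · exact h1 h
      · exact h2 h
    · by_cases hχY : χ ∈ Ys
      · have h4 := D.fx_Y hχY
        rw [h3] at h4
        have hd0 : (1 : ℤ) ≤ deg χ := by exact_mod_cast Nat.pos_of_ne_zero (D.hdeg χ).2.1
        have h5 := hrel1 χ hχY
        rcases D.hε with h6 | h6
        · rw [h6] at h4 h5
          push_cast at h4
          have h7 : (deg χ : ℤ) = 2 := by linarith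
          rw [h7] at h5
          rcases hδψ' with h8 | h8
          · rw [h8] at h5
            have : (deg ψ : ℤ) = 1 := by linarith
            exact hψd1 (by exact_mod_cast this)
          · rw [h8] at h5
            linarith
        · rw [h6] at h4
          push_cast at h4
          linarith
      · have h4 := D.fx_Z hχX hχY
        rw [h3, mul_zero] at h4
        exact (D.hdeg χ).2.1 h4
  have hsubset : ∀ (F : IrrCharacter G → ℕ), (∀ χ, fx χ J = 0 → F χ = 0) → ∑ χ : IrrCharacter G, F χ = F (oneIrr G) + F ψ := by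
    intro F hF
    rw [← Finset.sum_pair hψ1.symm]
    symm
    apply Finset.sum_subset (Finset.subset_univ _)
    intro χ _ hχ
    simp only [Finset.mem_insert, Finset.mem_singleton, not_or] at hχ
    exact hF χ (hcons χ hχ.1 hχ.2)
  have hm2 := hsubset (fun χ => fx χ J * deg χ) (fun χ h => by simp [h])
  rw [hm, fx_oneIrr, hdone] at hm2
  have hfψJ : fx ψ J ≠ 0 := by
    intro h
    rw [h] at hm2
    have := hp.one_lt
    omega
  have hfψ : fx ψ (zpowers z) = 0 := by
    rcases mul_eq_zero.mp (h0 ψ hψ1) with h | h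
    · exact absurd h hfψJ
    · exact h
  have h4 := D.fx_X hψX
  rw [hfψ] at h4
  have hp1 : (2 : ℤ) ≤ p := by exact_mod_cast hp.two_le
  have hδψ : δ ψ = -1 := by
    rcases hδψ' with h5 | h5
    · exfalso
      rw [h5] at h4
      push_cast at h4
      linarith
    · exact h5
  have hdψ : deg ψ + 1 = p := by
    rw [hδψ] at h4
    push_cast at h4
    have : (deg ψ : ℤ) + 1 = p := by linarith
    exact_mod_cast this
  have hfψJ1 : fx ψ J = 1 := by
    have h5 : fx ψ J * deg ψ = 1 * deg ψ := by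
      omega
    exact Nat.eq_of_mul_eq_mul_right (by omega) h5
  have hY0 : Ys.Nonempty := by
    rw [← Finset.card_pos, D.hYc]
    omega
  obtain ⟨θ₀, hθ₀⟩ := hY0
  have hε : ε = -1 := by
    have h5 := hrel1 θ₀ hθ₀
    rcases D.hε with h6 | h6
    · exfalso
      rw [h6, hδψ] at h5
      have h7 : (deg ψ : ℤ) + 1 = p := by exact_mod_cast hdψ
      have h8 : (0 : ℤ) ≤ deg θ₀ := by positivity
      have h9 : (3 : ℤ) ≤ p := by
        have : 3 ≤ p := by omega
        exact_mod_cast this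
      linarith
    · exact h6
  have hdθ : ∀ θ ∈ Ys, deg θ + 2 = p := by
    intro θ hθ
    have h5 := hrel1 θ hθ
    rw [hε, hδψ] at h5
    have h7 : (deg ψ : ℤ) + 1 = p := by exact_mod_cast hdψ
    have : (deg θ : ℤ) + 2 = p := by linarith
    exact_mod_cast this
  have hfθ : ∀ θ ∈ Ys, fx θ (zpowers z) = 1 := by
    intro θ hθ
    have h5 := D.fx_Y hθ
    rw [hε] at h5
    have h7 : (deg θ : ℤ) + 2 = p := by exact_mod_cast hdθ θ hθ
    push_cast at h5
    have h8 : (p : ℤ) * (fx θ (zpowers z) : ℤ) = p * 1 := by linarith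
    have h9 : (fx θ (zpowers z) : ℤ) = 1 := mul_left_cancel₀ (by omega) h8
    exact_mod_cast h9
  have hrelθ : ∀ θ ∈ Ys, ∀ g : G, ¬ p ∣ orderOf g → (θ : G → ℂ) g = (ψ : G → ℂ) g - 1 := by
    intro θ hθ g hg
    have h1 := D.hrel θ hθ g hg
    rw [hX, Finset.sum_pair hψ1.symm, hδone, hδψ, hε] at h1
    have h2 : ((oneIrr G : IrrCharacter G) : G → ℂ) g = 1 := rfl
    rw [h2] at h1
    push_cast at h1
    linear_combination -h1
  refine ⟨ψ, ⟨D, hX, hψ1, hdψ, hδψ, hfψ, hε, hdθ, hfθ, hrelθ⟩, fun g => ?_⟩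
  rw [ind_one_expansion]
  have h5 : ∑ χ : IrrCharacter G, (fx χ J : ℂ) * (χ : G → ℂ) g =
      ∑ χ ∈ ({oneIrr G, ψ} : Finset (IrrCharacter G)), (fx χ J : ℂ) * (χ : G → ℂ) g := by
    symm
    apply Finset.sum_subset (Finset.subset_univ _)
    intro χ _ hχ
    simp only [Finset.mem_insert, Finset.mem_singleton, not_or] at hχ
    rw [hcons χ hχ.1 hχ.2]
    simp
  rw [h5, Finset.sum_pair hψ1.symm, fx_oneIrr, hfψJ1]
  have h2 : ((oneIrr G : IrrCharacter G) : G → ℂ) g = 1 := rfl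
  rw [h2]
  push_cast
  ring

open _root_.Classical in
/-- The splitting of a sum over the characters. -/
theorem PD.split {ψ : IrrCharacter G} (P : PD p z s Xs Ys δ ε deg ψ) {R : Type*} [AddCommMonoid R]
    (F : IrrCharacter G → R) :
    ∑ χ : IrrCharacter G, F χ = F (oneIrr G) + F ψ + ∑ χ ∈ Ys, F χ + ∑ χ ∈ Zs Xs Ys, F χ := by
  have h1 := Finset.sum_sdiff (f := F) (Finset.subset_univ (Xs ∪ Ys))
  rw [← h1, Finset.sum_union P.D.hdisj, P.hXs, Finset.sum_pair P.hψ1.symm, ← P.hXs, add_comm]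
  rfl

open _root_.Classical in
/-- The two counts for a subgroup avoiding the conjugates of the cyclic group. -/
theorem PD.avoid {ψ : IrrCharacter G} (P : PD p z s Xs Ys δ ε deg ψ) (J : Subgroup G)
    (hJ : ∀ u ∈ zpowers z, u ≠ 1 → ∀ x : G, x⁻¹ * u * x ∉ J) :
    ∃ m : ℕ, Nat.card J * m = Nat.card G ∧ m = ∑ χ : IrrCharacter G, fx χ J * deg χ ∧
      (1 + ∑ θ ∈ Ys, fx θ J + ∑ χ ∈ Zs Xs Ys, fx χ J * fx χ (zpowers z)) * p = m ∧
      1 + fx ψ J * (p - 1) + (∑ θ ∈ Ys, fx θ J) * (p - 2) + p * ∑ χ ∈ Zs Xs Ys, fx χ J * fx χ (zpowers z) = m := by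
  obtain ⟨h1, h2⟩ := avoid_sums P.D J hJ
  refine ⟨_, h1, rfl, ?_, ?_⟩
  · rw [← h2, mul_comm, P.split, fx_oneIrr, fx_oneIrr, P.hfψ, mul_zero, add_zero, mul_one]
    congr 3
    exact Finset.sum_congr rfl fun θ hθ => by rw [P.hfθ θ hθ, mul_one]
  · rw [P.split, fx_oneIrr, deg_one_of P.D, mul_one]
    have h3 : deg ψ = p - 1 := by
      have := P.hdψ
      omega
    rw [h3]
    congr 1
    · congr 1
      rw [Finset.sum_mul]
      refine Finset.sum_congr rfl fun θ hθ => ?_
      have := P.hdθ θ hθ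
      have h4 : deg θ = p - 2 := by omega
      rw [h4]
    · rw [Finset.mul_sum]
      refine Finset.sum_congr rfl fun χ hχ => ?_
      have h4 : χ ∉ Xs ∧ χ ∉ Ys := by
        simpa [Zs, Finset.mem_sdiff, Finset.mem_union, not_or] using hχ
      rw [P.D.fx_Z h4.1 h4.2]
      ring

end Avoid

section Arith

theorem arith_J2 {p s n A B : ℕ} (hp : p = 2 * s + 1) (hs : 2 ≤ s) (h1 : (1 + A + B) * p = p * (p - 1))
    (h2 : 1 + n * (p - 1) + A * (p - 2) + p * B = p * (p - 1)) (hn : 2 ≤ n) : n = 2 ∧ A = s ∧ B + 1 = s := by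
  obtain ⟨X, hX⟩ : ∃ X, X + 1 = 2 * s := ⟨2 * s - 1, by omega⟩
  have e1 : p - 1 = 2 * s := by omega
  have e2 : p - 2 = X := by omega
  rw [e1, e2] at h2
  rw [e1] at h1
  have hp0 : 0 < p := by omega
  have h3 : 1 + A + B = 2 * s := by
    rw [mul_comm] at h1
    exact Nat.eq_of_mul_eq_mul_left hp0 h1
  have h4 : (A : ℤ) = s * ((n : ℤ) - 1) := by
    have h5 : (1 : ℤ) + n * (2 * s) + A * X + p * B = p * (2 * s) := by exact_mod_cast h2
    have h6 : (1 : ℤ) + A + B = 2 * s := by exact_mod_cast h3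
    have h7 : (X : ℤ) + 1 = 2 * s := by exact_mod_cast hX
    have h8 : (p : ℤ) = 2 * s + 1 := by exact_mod_cast hp
    have h9 : (B : ℤ) = 2 * s - 1 - A := by linarith
    have h10 : (X : ℤ) = 2 * s - 1 := by linarith
    rw [h8, h9, h10] at h5
    nlinarith
  have hn3 : n < 3 := by
    by_contra h
    have h5 : (3 : ℤ) ≤ n := by exact_mod_cast (by omega : 3 ≤ n)
    have h6 : (s : ℤ) * 2 ≤ s * ((n : ℤ) - 1) := mul_le_mul_of_nonneg_left (by linarith) (by positivity)
    have h7 : (A : ℤ) + 1 ≤ 2 * s := by exact_mod_cast (by omega : A + 1 ≤ 2 * s)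
    linarith
  have hn2 : n = 2 := by omega
  subst hn2
  have hA : A = s := by
    have : (A : ℤ) = s := by rw [h4]; push_cast; ring
    exact_mod_cast this
  refine ⟨rfl, hA, by omega⟩

theorem arith_U {p s n A B : ℕ} (hp : p = 2 * s + 1) (hs : 2 ≤ s) (h1 : (1 + A + B) * p = p * s)
    (h2 : 1 + n * (p - 1) + A * (p - 2) + p * B = p * s) : n = 1 ∧ A = 0 ∧ B + 1 = s := by
  obtain ⟨X, hX⟩ : ∃ X, X + 1 = 2 * s := ⟨2 * s - 1, by omega⟩
  have e1 : p - 1 = 2 * s := by omega
  have e2 : p - 2 = X := by omega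
  rw [e1, e2] at h2
  have hp0 : 0 < p := by omega
  have h3 : 1 + A + B = s := by
    rw [mul_comm] at h1
    exact Nat.eq_of_mul_eq_mul_left hp0 h1
  have h4 : (A : ℤ) = s * ((n : ℤ) - 1) := by
    have h5 : (1 : ℤ) + n * (2 * s) + A * X + p * B = p * s := by exact_mod_cast h2
    have h6 : (1 : ℤ) + A + B = s := by exact_mod_cast h3
    have h7 : (X : ℤ) + 1 = 2 * s := by exact_mod_cast hX
    have h8 : (p : ℤ) = 2 * s + 1 := by exact_mod_cast hp
    have h9 : (B : ℤ) = s - 1 - A := by linarith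
    have h10 : (X : ℤ) = 2 * s - 1 := by linarith
    rw [h8, h9, h10] at h5
    nlinarith
  have hs0 : (0 : ℤ) < s := by exact_mod_cast (by omega : 0 < s)
  have hA0 : (0 : ℤ) ≤ A := by positivity
  have hn1 : 1 ≤ n := by
    by_contra h
    have h5 : n = 0 := by omega
    subst h5
    push_cast at h4
    nlinarith
  have hn2 : n < 2 := by
    by_contra h
    have h5 : (2 : ℤ) ≤ n := by exact_mod_cast (by omega : 2 ≤ n)
    have h6 : (s : ℤ) * 1 ≤ s * ((n : ℤ) - 1) := mul_le_mul_of_nonneg_left (by linarith) hs0.le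
    have h7 : (A : ℤ) + 1 ≤ s := by exact_mod_cast (by omega : A + 1 ≤ s)
    linarith
  have hn : n = 1 := by omega
  subst hn
  have hA : A = 0 := by
    have : (A : ℤ) = 0 := by rw [h4]; push_cast; ring
    exact_mod_cast this
  refine ⟨rfl, hA, by omega⟩

end Arith

section Action

variable {α : Type v} [Fintype α] [MulAction G α]

open _root_.Classical in
/-- The number of fixed points of an element. -/
noncomputable def fpc (α : Type v) [Fintype α] [MulAction G α] (g : G) : ℕ :=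
  (Finset.univ.filter (fun y : α => g • y = y)).card

open _root_.Classical in
theorem ind_point (htr : ∀ a b : α, ∃ g : G, g • a = b) (a : α) (g : G) :
    indFun (MulAction.stabilizer G a) (fun _ => 1) g = (fpc α g : ℂ) := by
  rw [ind_stab, fpc]
  congr 2
  ext y
  simp only [Finset.mem_filter, Finset.mem_univ, true_and, and_iff_right_iff_imp]
  intro _
  obtain ⟨h, rfl⟩ := htr a y
  exact ⟨h, rfl⟩

open _root_.Classical in
theorem ind_pair (h2 : ∀ a b c d : α, a ≠ b → c ≠ d → ∃ g : G, g • a = c ∧ g • b = d) {a b : α} (hab : a ≠ b) (g : G) :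
    indFun (MulAction.stabilizer G (a, b)) (fun _ => 1) g = (fpc α g : ℂ) * ((fpc α g : ℂ) - 1) := by
  rw [ind_stab]
  have key : ∀ T : Finset (α × α), (∀ y, y ∈ T ↔ (y ∈ MulAction.orbit G (a, b) ∧ g • y = y)) →
      (T.card : ℂ) = (fpc α g : ℂ) * ((fpc α g : ℂ) - 1) := by
    intro T hT
    have h1 : T = (Finset.univ.filter (fun y : α => g • y = y)).offDiag := by
      ext ⟨c, d⟩
      rw [hT]
      simp only [Finset.mem_filter, Finset.mem_univ, true_and, Finset.mem_offDiag, Prod.smul_mk, Prod.mk.injEq]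
      constructor
      · rintro ⟨⟨x, hx⟩, h3, h4⟩
        refine ⟨h3, h4, ?_⟩
        rintro rfl
        simp only [Prod.smul_mk, Prod.mk.injEq] at hx
        exact hab (MulAction.injective x (hx.1.trans hx.2.symm))
      · rintro ⟨h3, h4, h5⟩
        obtain ⟨x, hx1, hx2⟩ := h2 a b c d hab h5
        exact ⟨⟨x, by simp [hx1, hx2]⟩, h3, h4⟩
    rw [h1, Finset.offDiag_card, fpc, Nat.cast_sub (Nat.le_mul_self _)]
    push_cast
    ring
  exact key _ (by simp)

/-- The setwise stabilizer of a pair. -/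
def pairStab (a b : α) (hab : a ≠ b) : Subgroup G where
  carrier := {g | (g • a = a ∧ g • b = b) ∨ (g • a = b ∧ g • b = a)}
  one_mem' := by simp
  mul_mem' := by
    rintro x y (⟨h1, h2⟩ | ⟨h1, h2⟩) (⟨h3, h4⟩ | ⟨h3, h4⟩)
    · left
      simp [mul_smul, h1, h2, h3, h4]
    · right
      simp [mul_smul, h1, h2, h3, h4]
    · right
      simp [mul_smul, h1, h2, h3, h4]
    · left
      simp [mul_smul, h1, h2, h3, h4]
  inv_mem' := by
    rintro x (⟨h1, h2⟩ | ⟨h1, h2⟩)
    · left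
      constructor
      · rw [inv_smul_eq_iff, h1]
      · rw [inv_smul_eq_iff, h2]
    · right
      constructor
      · rw [inv_smul_eq_iff, h2]
      · rw [inv_smul_eq_iff, h1]

theorem mem_pairStab {a b : α} {hab : a ≠ b} {g : G} :
    g ∈ (pairStab a b hab : Subgroup G) ↔ (g • a = a ∧ g • b = b) ∨ (g • a = b ∧ g • b = a) := Iff.rfl

theorem stab_le_pairStab {a b : α} (hab : a ≠ b) :
    MulAction.stabilizer G (a, b) ≤ (pairStab a b hab : Subgroup G) := by
  intro g hg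
  rw [MulAction.mem_stabilizer_iff, Prod.smul_mk, Prod.mk.injEq] at hg
  exact Or.inl hg

open _root_.Classical in
theorem card_pairStab (h2 : ∀ a b c d : α, a ≠ b → c ≠ d → ∃ g : G, g • a = c ∧ g • b = d) {a b : α} (hab : a ≠ b) :
    Nat.card (pairStab a b hab : Subgroup G) = 2 * Nat.card (MulAction.stabilizer G (a, b)) := by
  obtain ⟨τ, hτ1, hτ2⟩ := h2 a b b a hab hab.symm
  rw [← card_filter_mem, ← card_filter_mem]
  set S := Finset.univ.filter (fun g : G => g ∈ MulAction.stabilizer G (a, b)) with hS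
  have h3 : Finset.univ.filter (fun g : G => g ∈ (pairStab a b hab : Subgroup G)) = S ∪ S.image (fun j => τ * j) := by
    ext g
    simp only [hS, Finset.mem_filter, Finset.mem_univ, true_and, Finset.mem_union, Finset.mem_image,
      mem_pairStab, MulAction.mem_stabilizer_iff, Prod.smul_mk, Prod.mk.injEq]
    constructor
    · rintro (h | ⟨h4, h5⟩)
      · exact Or.inl h
      · right
        refine ⟨τ⁻¹ * g, ⟨?_, ?_⟩, by group⟩
        · rw [mul_smul, h4, inv_smul_eq_iff, hτ1]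
        · rw [mul_smul, h5, inv_smul_eq_iff, hτ2]
    · rintro (h | ⟨j, ⟨h4, h5⟩, rfl⟩)
      · exact Or.inl h
      · right
        simp [mul_smul, h4, h5, hτ1, hτ2]
  have hdisj : Disjoint S (S.image (fun j => τ * j)) := by
    rw [Finset.disjoint_left]
    intro g h4 h5
    rw [Finset.mem_image] at h5
    obtain ⟨j, hj, rfl⟩ := h5
    simp only [hS, Finset.mem_filter, Finset.mem_univ, true_and, MulAction.mem_stabilizer_iff, Prod.smul_mk,
      Prod.mk.injEq] at hj h4
    apply hab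
    have h6 := h4.1
    rw [mul_smul, hj.1, hτ1] at h6
    exact h6.symm
  rw [h3, Finset.card_union_of_disjoint hdisj, Finset.card_image_of_injective _ (mul_right_injective τ)]
  omega

open _root_.Classical in
theorem sum_fpc {ψ : IrrCharacter G} (hfpψ : ∀ g : G, (fpc α g : ℂ) = 1 + (ψ : G → ℂ) g) (J : Subgroup G) :
    ∑ g ∈ Finset.univ.filter (fun g : G => g ∈ J), fpc α g = Nat.card J * (1 + fx ψ J) := by
  have h1 : ((∑ g ∈ Finset.univ.filter (fun g : G => g ∈ J), fpc α g : ℕ) : ℂ) =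
      ((Nat.card J * (1 + fx ψ J) : ℕ) : ℂ) := by
    push_cast
    simp only [hfpψ]
    rw [Finset.sum_add_distrib, fx_sum, Finset.sum_const, nsmul_eq_mul, card_filter_mem]
    simp
    ring
  exact_mod_cast h1

open _root_.Classical in
theorem fpc_one {p : ℕ} (hα : Fintype.card α = p) : fpc α (1 : G) = p := by
  rw [fpc, ← hα, ← Finset.card_univ]
  congr 1
  ext y
  simp

open _root_.Classical in
theorem fpc_le {p : ℕ} (hα : Fintype.card α = p) (g : G) : fpc α g ≤ p := by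
  rw [fpc, ← hα, ← Finset.card_univ]
  exact Finset.card_le_card (Finset.filter_subset _ _)

open _root_.Classical in
theorem eq_one_of_fpc [FaithfulSMul G α] {p : ℕ} (hα : Fintype.card α = p) {g : G} (h : p ≤ fpc α g) : g = 1 := by
  apply FaithfulSMul.eq_of_smul_eq_smul (α := α)
  intro y
  rw [one_smul]
  have h1 : Finset.univ.filter (fun y : α => g • y = y) = Finset.univ := by
    apply Finset.eq_univ_of_card
    have := fpc_le (G := G) hα g
    rw [fpc] at this h
    omega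
  have h2 : y ∈ Finset.univ.filter (fun y : α => g • y = y) := by
    rw [h1]
    exact Finset.mem_univ _
  exact (Finset.mem_filter.mp h2).2

open _root_.Classical in
theorem two_le_fpc {a b : α} (hab : a ≠ b) {g : G} (h1 : g • a = a) (h2 : g • b = b) : 2 ≤ fpc α g := by
  rw [fpc]
  exact Finset.one_lt_card.mpr ⟨a, by simp [h1], b, by simp [h2], hab⟩

end Action

section Main

variable {α : Type v} [Fintype α] [MulAction G α] {p : ℕ} {z : G} {s : ℕ} {Xs Ys : Finset (IrrCharacter G)}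
  {δ : IrrCharacter G → ℤ} {ε : ℤ} {deg : IrrCharacter G → ℕ} {ψ : IrrCharacter G}

set_option maxHeartbeats 1000000 in
open _root_.Classical in
/-- The two-point stabilizer: non-trivial elements of order prime to `p` have at most two fixed points. -/
theorem pd_pair [FaithfulSMul G α] (P : PD p z s Xs Ys δ ε deg ψ) (hs : 2 ≤ s) (hα : Fintype.card α = p)
    (hfpψ : ∀ g : G, (fpc α g : ℂ) = 1 + (ψ : G → ℂ) g)
    (hfree : ∀ u ∈ zpowers z, u ≠ 1 → ∀ a : α, u • a ≠ a)
    (h2 : ∀ a b c d : α, a ≠ b → c ≠ d → ∃ g : G, g • a = c ∧ g • b = d) {a b : α} (hab : a ≠ b) :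
    fx ψ (MulAction.stabilizer G (a, b)) = 2 ∧
      Nat.card (MulAction.stabilizer G (a, b)) * (p * (p - 1)) = Nat.card G ∧
      ∀ g : G, g ≠ 1 → ¬ p ∣ orderOf g → fpc α g ≤ 2 := by
  have D := P.D
  have hpr := D.hp
  have hst := D.hst
  have hpe : p = 2 * s + 1 := by omega
  obtain ⟨J, hJdef⟩ : ∃ J, J = MulAction.stabilizer G (a, b) := ⟨_, rfl⟩
  obtain ⟨U, hUdef⟩ : ∃ U, U = (pairStab a b hab : Subgroup G) := ⟨_, rfl⟩
  rw [← hJdef]
  have hJle : J ≤ U := by
    rw [hJdef, hUdef]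
    exact stab_le_pairStab hab
  have hJav : ∀ u ∈ zpowers z, u ≠ 1 → ∀ x : G, x⁻¹ * u * x ∉ J := by
    intro u hu hu1 x hx
    rw [hJdef, MulAction.mem_stabilizer_iff, Prod.smul_mk, Prod.mk.injEq] at hx
    have h1 := hx.1
    rw [mul_smul, mul_smul, inv_smul_eq_iff] at h1
    exact hfree u hu hu1 _ h1
  have hUav : ∀ u ∈ zpowers z, u ≠ 1 → ∀ x : G, x⁻¹ * u * x ∉ U := by
    intro u hu hu1 x hx
    rw [hUdef, mem_pairStab] at hx
    rcases hx with ⟨h1, -⟩ | ⟨h1, h3⟩
    · rw [mul_smul, mul_smul, inv_smul_eq_iff] at h1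
      exact hfree u hu hu1 _ h1
    · have h4 : (x⁻¹ * (u * u) * x) • a = a := by
        have : x⁻¹ * (u * u) * x = (x⁻¹ * u * x) * (x⁻¹ * u * x) := by group
        rw [this, mul_smul, h1, h3]
      rw [mul_smul, mul_smul, inv_smul_eq_iff] at h4
      refine hfree (u * u) (mul_mem hu hu) ?_ _ h4
      intro h5
      have h6 : orderOf u ∣ 2 := orderOf_dvd_of_pow_eq_one (by rw [pow_two, h5])
      have h7 : orderOf u ∣ p := by
        rw [← D.hz]
        exact orderOf_dvd_of_mem_zpowers hu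
      rcases (Nat.dvd_prime hpr).1 h7 with h8 | h8
      · exact hu1 (orderOf_eq_one_iff.mp h8)
      · rw [h8] at h6
        have := Nat.le_of_dvd (by norm_num) h6
        omega
  obtain ⟨m, hm1, hm2, hm3, hm4⟩ := P.avoid J hJav
  obtain ⟨m', hm1', hm2', hm3', hm4'⟩ := P.avoid U hUav
  have hU2 : Nat.card U = 2 * Nat.card J := by
    rw [hJdef, hUdef]
    exact card_pairStab h2 hab
  have hJ0 : 0 < Nat.card J := Nat.card_pos
  have hind : ∀ g, indFun J (fun _ => 1) g = (fpc α g : ℂ) * ((fpc α g : ℂ) - 1) := fun g => by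
    rw [hJdef]
    exact ind_pair h2 hab g
  have hm : m = p * (p - 1) := by
    have h3 := hind 1
    rw [ind_one_expansion, fpc_one hα] at h3
    have h4 : ((m : ℕ) : ℂ) = (p : ℂ) * ((p : ℂ) - 1) := by
      rw [hm2, ← h3]
      push_cast
      exact Finset.sum_congr rfl fun χ _ => by rw [(D.hdeg χ).1]
    have h5 : ((m : ℕ) : ℂ) = ((p * (p - 1) : ℕ) : ℂ) := by
      rw [h4, Nat.cast_mul, Nat.cast_sub hpr.one_lt.le]
      simp
    exact_mod_cast h5
  have hm' : m' = p * s := by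
    have h3 : Nat.card J * (2 * m') = Nat.card J * m := by
      rw [hm1, ← hm1', hU2]
      ring
    have h4 := Nat.eq_of_mul_eq_mul_left hJ0 h3
    rw [hm] at h4
    have e1 : p - 1 = 2 * s := by omega
    rw [e1] at h4
    nlinarith
  have hn : 2 ≤ fx ψ J := by
    have h3 := sum_fpc hfpψ J
    have h4 : ∑ g ∈ Finset.univ.filter (fun g : G => g ∈ J), 2 < ∑ g ∈ Finset.univ.filter (fun g : G => g ∈ J), fpc α g := by
      apply Finset.sum_lt_sum
      · intro g hg
        have hg' := (Finset.mem_filter.mp hg).2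
        rw [hJdef, MulAction.mem_stabilizer_iff, Prod.smul_mk, Prod.mk.injEq] at hg'
        exact two_le_fpc hab hg'.1 hg'.2
      · refine ⟨1, Finset.mem_filter.mpr ⟨Finset.mem_univ _, J.one_mem⟩, ?_⟩
        rw [fpc_one hα]
        omega
    rw [h3, Finset.sum_const, card_filter_mem, smul_eq_mul] at h4
    have h5 := Nat.lt_of_mul_lt_mul_left h4
    omega
  rw [hm] at hm3 hm4
  rw [hm'] at hm3' hm4'
  obtain ⟨hn2, hA, hB⟩ := arith_J2 hpe hs hm3 hm4 hn
  obtain ⟨hn', hA', hB'⟩ := arith_U hpe hs hm3' hm4'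
  have hYU : ∀ θ ∈ Ys, fx θ U = 0 := by
    rw [Finset.sum_eq_zero_iff] at hA'
    exact hA'
  have hZ : ∀ χ ∈ Zs Xs Ys, fx χ U = fx χ J := by
    have h3 : ∑ χ ∈ Zs Xs Ys, fx χ U * fx χ (zpowers z) = ∑ χ ∈ Zs Xs Ys, fx χ J * fx χ (zpowers z) := by omega
    have h4 : ∀ χ ∈ Zs Xs Ys, fx χ U * fx χ (zpowers z) ≤ fx χ J * fx χ (zpowers z) :=
      fun χ _ => Nat.mul_le_mul_right _ (fx_anti χ hJle)
    rw [Finset.sum_eq_sum_iff_of_le h4] at h3
    intro χ hχ
    have h5 := h3 χ hχ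
    have h6 : χ ∉ Xs ∧ χ ∉ Ys := by
      simpa [Zs, Finset.mem_sdiff, Finset.mem_union, not_or] using hχ
    have h7 := D.fx_Z h6.1 h6.2
    have h8 : fx χ (zpowers z) ≠ 0 := by
      intro h
      rw [h, mul_zero] at h7
      exact (D.hdeg χ).2.1 h7
    exact Nat.eq_of_mul_eq_mul_right (Nat.pos_of_ne_zero h8) h5
  have hdiff : ∀ g : G, ¬ p ∣ orderOf g → indFun J (fun _ => 1) g - indFun U (fun _ => 1) g =
      (ψ : G → ℂ) g + (s : ℂ) * ((ψ : G → ℂ) g - 1) := by
    intro g hg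
    rw [ind_one_expansion, ind_one_expansion, ← Finset.sum_sub_distrib, P.split, fx_oneIrr, fx_oneIrr, hn2, hn']
    have e1 : ∑ χ ∈ Zs Xs Ys, ((fx χ J : ℂ) * (χ : G → ℂ) g - (fx χ U : ℂ) * (χ : G → ℂ) g) = 0 :=
      Finset.sum_eq_zero fun χ hχ => by rw [hZ χ hχ]; ring
    have e2 : ∑ θ ∈ Ys, ((fx θ J : ℂ) * (θ : G → ℂ) g - (fx θ U : ℂ) * (θ : G → ℂ) g) =
        (s : ℂ) * ((ψ : G → ℂ) g - 1) := by
      have e3 : ∀ θ ∈ Ys, ((fx θ J : ℂ) * (θ : G → ℂ) g - (fx θ U : ℂ) * (θ : G → ℂ) g) =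
          (fx θ J : ℂ) * ((ψ : G → ℂ) g - 1) := fun θ hθ => by
        rw [hYU θ hθ, P.hrelθ θ hθ g hg]
        simp
      rw [Finset.sum_congr rfl e3, ← Finset.sum_mul, ← Nat.cast_sum, hA]
    rw [e1, e2]
    push_cast
    ring
  refine ⟨hn2, by rw [← hm]; exact hm1, ?_⟩
  intro g hg1 hg
  by_contra h3
  have hf3 : 3 ≤ fpc α g := by omega
  apply hg1
  apply eq_one_of_fpc hα
  obtain ⟨f, hf⟩ : ∃ f, f = fpc α g := ⟨_, rfl⟩
  rw [← hf] at hf3 ⊢
  have hfg := hfpψ g
  rw [← hf] at hfg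
  have h4 := hdiff g hg
  have hψg : (ψ : G → ℂ) g = (f : ℂ) - 1 := by rw [hfg]; ring
  rw [hind g, ← hf, hψg] at h4
  have hU1 := ind_one_apply U g
  have hJ1 := ind_one_apply J g
  obtain ⟨kU, hkU⟩ : ∃ kU, kU = (Finset.univ.filter (fun x : G => x⁻¹ * g * x ∈ U)).card := ⟨_, rfl⟩
  obtain ⟨kJ, hkJ⟩ : ∃ kJ, kJ = (Finset.univ.filter (fun x : G => x⁻¹ * g * x ∈ J)).card := ⟨_, rfl⟩
  rw [← hkU] at hU1
  rw [← hkJ, hind g, ← hf] at hJ1
  have hle : kJ ≤ kU := by
    rw [hkJ, hkU]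
    apply Finset.card_le_card
    intro x hx
    rw [Finset.mem_filter] at hx ⊢
    exact ⟨hx.1, hJle hx.2⟩
  have hcJ : (Nat.card J : ℂ) ≠ 0 := card_ne_zero_complex J
  have hcU : (Nat.card U : ℂ) = 2 * (Nat.card J : ℂ) := by
    rw [hU2]
    push_cast
    ring
  have e1 : (kJ : ℂ) = (Nat.card J : ℂ) * ((f : ℂ) * ((f : ℂ) - 1)) := by
    rw [hJ1]
    field_simp
  have e2 : (kU : ℂ) = 2 * (Nat.card J : ℂ) * ((f : ℂ) * ((f : ℂ) - 1) - ((f : ℂ) - 1) - (s : ℂ) * ((f : ℂ) - 2)) := by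
    have e3 : indFun U (fun _ => 1) g = (f : ℂ) * ((f : ℂ) - 1) - ((f : ℂ) - 1) - (s : ℂ) * ((f : ℂ) - 2) := by
      linear_combination -h4
    rw [e3, hcU] at hU1
    rw [hU1]
    field_simp
  have e1' : (kJ : ℤ) = (Nat.card J : ℤ) * ((f : ℤ) * ((f : ℤ) - 1)) := by
    have : ((kJ : ℤ) : ℂ) = (((Nat.card J : ℤ) * ((f : ℤ) * ((f : ℤ) - 1)) : ℤ) : ℂ) := by
      push_cast
      exact e1
    exact_mod_cast this
  have e2' : (kU : ℤ) = 2 * (Nat.card J : ℤ) * ((f : ℤ) * ((f : ℤ) - 1) - ((f : ℤ) - 1) - (s : ℤ) * ((f : ℤ) - 2)) := by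
    have : ((kU : ℤ) : ℂ) = ((2 * (Nat.card J : ℤ) * ((f : ℤ) * ((f : ℤ) - 1) - ((f : ℤ) - 1) - (s : ℤ) * ((f : ℤ) - 2)) : ℤ) : ℂ) := by
      push_cast
      exact e2
    exact_mod_cast this
  have hle' : (kJ : ℤ) ≤ kU := by exact_mod_cast hle
  have hle'' : (Nat.card J : ℤ) * ((f : ℤ) * ((f : ℤ) - 1)) ≤
      (Nat.card J : ℤ) * (2 * ((f : ℤ) * ((f : ℤ) - 1) - ((f : ℤ) - 1) - (s : ℤ) * ((f : ℤ) - 2))) := by
    rw [e1', e2'] at hle'
    linarith
  have hJz : (0 : ℤ) < Nat.card J := by exact_mod_cast hJ0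
  have h5 := le_of_mul_le_mul_left hle'' hJz
  have h6 : 0 ≤ ((f : ℤ) - 2) * ((f : ℤ) - 1 - 2 * s) := by
    have e5 : ((f : ℤ) - 2) * ((f : ℤ) - 1 - 2 * s) =
        2 * ((f : ℤ) * ((f : ℤ) - 1) - ((f : ℤ) - 1) - (s : ℤ) * ((f : ℤ) - 2)) - (f : ℤ) * ((f : ℤ) - 1) := by ring
    rw [e5]
    linarith
  have hf3z : (3 : ℤ) ≤ f := by exact_mod_cast hf3
  have h7 : 0 ≤ (f : ℤ) - 1 - 2 * s := by
    by_contra h8
    push Not at h8
    have : ((f : ℤ) - 2) * ((f : ℤ) - 1 - 2 * s) < 0 := mul_neg_of_pos_of_neg (by linarith) h8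
    linarith
  have h8 : (p : ℤ) ≤ f := by
    rw [hpe]
    push_cast
    linarith
  exact_mod_cast h8

open _root_.Classical in
/-- The order of the two-point stabilizer. -/
theorem pd_order [FaithfulSMul G α] (P : PD p z s Xs Ys δ ε deg ψ) (hs : 2 ≤ s) (hα : Fintype.card α = p)
    (hfpψ : ∀ g : G, (fpc α g : ℂ) = 1 + (ψ : G → ℂ) g)
    (hfree : ∀ u ∈ zpowers z, u ≠ 1 → ∀ a : α, u • a ≠ a)
    (h2 : ∀ a b c d : α, a ≠ b → c ≠ d → ∃ g : G, g • a = c ∧ g • b = d) (hsq : ¬ p ^ 2 ∣ Nat.card G)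
    {a b : α} (hab : a ≠ b) :
    Nat.card G = (p - 2) * (p * (p - 1)) := by
  obtain ⟨hn, hc, hbd⟩ := pd_pair P hs hα hfpψ hfree h2 hab
  have hpr := P.D.hp
  have hst := P.D.hst
  obtain ⟨J, hJdef⟩ : ∃ J, J = MulAction.stabilizer G (a, b) := ⟨_, rfl⟩
  rw [← hJdef] at hn hc
  have hpJ : ¬ p ∣ Nat.card J := by
    intro h
    apply hsq
    rw [← hc, pow_two]
    exact Nat.mul_dvd_mul h (Dvd.intro _ rfl)
  have hJf : ∀ g ∈ (Finset.univ.filter (fun g : G => g ∈ J)).erase 1, fpc α g = 2 := by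
    intro g hg
    obtain ⟨hg1, hg2⟩ := Finset.mem_erase.mp hg
    have hgJ := (Finset.mem_filter.mp hg2).2
    have h3 : ¬ p ∣ orderOf g := fun h => hpJ (dvd_trans h (Subgroup.orderOf_dvd_natCard J hgJ))
    have h4 := hbd g hg1 h3
    have hg' := hgJ
    rw [hJdef, MulAction.mem_stabilizer_iff, Prod.smul_mk, Prod.mk.injEq] at hg'
    have h5 := two_le_fpc hab hg'.1 hg'.2
    omega
  have h3 := sum_fpc hfpψ J
  rw [hn] at h3
  have h1m : (1 : G) ∈ Finset.univ.filter (fun g : G => g ∈ J) :=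
    Finset.mem_filter.mpr ⟨Finset.mem_univ _, J.one_mem⟩
  rw [← Finset.add_sum_erase _ _ h1m, fpc_one hα, Finset.sum_congr rfl hJf, Finset.sum_const,
    Finset.card_erase_of_mem h1m, card_filter_mem, smul_eq_mul] at h3
  have hJ0 : 0 < Nat.card J := Nat.card_pos
  have hJ : Nat.card J = p - 2 := by
    obtain ⟨k, hk⟩ : ∃ k, Nat.card J = k + 1 := ⟨Nat.card J - 1, by omega⟩
    rw [hk] at h3
    simp only [Nat.add_sub_cancel] at h3
    omega
  rw [← hc, hJ]

open _root_.Classical in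
/-- **The core of the theorem on permutation groups of prime degree.** -/
theorem two_core [FaithfulSMul G α] [hfp : Fact p.Prime] (hp5 : 5 ≤ p) (hα : Fintype.card α = p)
    (hperf : commutator G = ⊤) (h2 : ∀ a b c d : α, a ≠ b → c ≠ d → ∃ g : G, g • a = c ∧ g • b = d)
    (hz : orderOf z = p) (hC : centralizer ({z} : Set G) = zpowers z)
    (hN : Nat.card (normalizer ((zpowers z : Subgroup G) : Set G)) = 2 * p)
    (hsq : ¬ p ^ 2 ∣ Nat.card G) (hfree : ∀ u ∈ zpowers z, u ≠ 1 → ∀ a : α, u • a ≠ a) :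
    ∃ e : ℕ, p = 2 ^ e + 1 ∧ ∀ (F' : Type) [Field F'] [Fintype F'], Fintype.card F' = 2 ^ e →
      Nonempty (G ≃* Matrix.ProjectiveSpecialLinearGroup (Fin 2) F') := by
  have hpr := hfp.out
  obtain ⟨M, hM⟩ := exists_isPModular p hpr
  have hN' : Nat.card (normalizer ((zpowers z : Subgroup G) : Set G)) = 2 * Nat.card (centralizer ({z} : Set G)) := by
    rw [hN, hC, Nat.card_zpowers, hz]
  obtain ⟨X, Y, δ, ε, deg, hdeg, hB, hdisj, hXc, hYt, ht0, hXd, hε, hYdeg, hYeq, hrel, hYsum⟩ :=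
    block_ext hM hz hsq 2 hN'
  have hst : Y.card * 2 + 1 = p := by omega
  have hs : 2 ≤ Y.card := by omega
  have hdeg1 : ∀ χ : IrrCharacter G, deg χ = 1 → χ = oneIrr G := by
    intro χ hd
    have h1 : (χ : G → ℂ) 1 = 1 := by
      rw [(hdeg χ).1, hd]
      simp
    apply Subtype.ext
    funext g
    exact Cfsg.Agent.Lib.Degree.irr_linear_commutator χ h1 (by rw [hperf]; trivial)
  have hdegone : deg (oneIrr G) = 1 := by
    have h1 : ((oneIrr G : IrrCharacter G) : G → ℂ) 1 = 1 := rfl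
    have h2 := (hdeg (oneIrr G)).1
    rw [h1] at h2
    exact_mod_cast h2.symm
  haveI hMp : M.IsPrime := hM.2.1.isPrime
  have hX1 : oneIrr G ∈ X := by
    by_contra hX1
    have hY1 : oneIrr G ∈ Y := ((hB _).1 (mem_blockOf_self (oneIrr G))).resolve_left hX1
    obtain ⟨θ, hθ, hθ1⟩ : ∃ θ ∈ Y, θ ≠ oneIrr G := by
      by_contra h
      push Not at h
      have : Y.card ≤ 1 := Finset.card_le_one.mpr fun a ha b hb => by rw [h a ha, h b hb]
      omega
    apply hθ1
    apply hdeg1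
    have h1 := hYeq θ hθ _ hY1 1 (by rw [orderOf_one]; exact fun h => hpr.one_lt.ne' (Nat.dvd_one.mp h))
    rw [(hdeg θ).1] at h1
    have h2 : ((oneIrr G : IrrCharacter G) : G → ℂ) 1 = 1 := rfl
    rw [h2] at h1
    exact_mod_cast h1
  have hδ1 : δ (oneIrr G) = 1 := by
    obtain ⟨h1, h2, -⟩ := hXd _ hX1
    rw [hdegone] at h2
    rcases h1 with h1 | h1
    · exact h1
    · exfalso
      rw [h1] at h2
      have h3 := Int.modEq_iff_dvd.mp h2.symm
      have e1 : ((1 : ℕ) : ℤ) - -1 = 2 := by norm_num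
      rw [e1] at h3
      have := Int.le_of_dvd (by norm_num) h3
      omega
  have hrest : ∀ χ : IrrCharacter G, χ ∉ X → χ ∉ Y → ∀ u : G, u ∈ zpowers z → u ≠ 1 →
      (χ : G → ℂ) u = 0 := by
    intro χ h1 h2 u hu hu1
    refine vanish_outside hM hz hC hsq χ ?_ hu hu1
    rw [hB]
    rintro (h | h)
    · exact h1 h
    · exact h2 h
  have D : BD0 p z 2 Y.card X Y δ ε deg := ⟨hpr, hz, hC, hst, hdeg, hdeg1, hdisj, hXc, rfl, hX1, hδ1,
    fun χ hχ => (hXd χ hχ).1, fun χ hχ => (hXd χ hχ).2.1, fun χ hχ => (hXd χ hχ).2.2, hrest, hε, hYdeg, hYeq, hrel,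
    hYsum⟩
  obtain ⟨a, b, hab⟩ : ∃ a b : α, a ≠ b := Fintype.exists_pair_of_one_lt_card (by omega)
  have htr : ∀ c d : α, ∃ g : G, g • c = d := by
    intro c d
    obtain ⟨c', hc'⟩ : ∃ c' : α, c ≠ c' := by
      by_cases h : c = a
      · exact ⟨b, h ▸ hab⟩
      · exact ⟨a, h⟩
    obtain ⟨d', hd'⟩ : ∃ d' : α, d ≠ d' := by
      by_cases h : d = a
      · exact ⟨b, h ▸ hab⟩
      · exact ⟨a, h⟩
    obtain ⟨g, hg, -⟩ := h2 c c' d d' hc' hd'
    exact ⟨g, hg⟩
  have hJ₁ : ∀ u ∈ zpowers z, u ≠ 1 → ∀ x : G, x⁻¹ * u * x ∉ MulAction.stabilizer G a := by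
    intro u hu hu1 x hx
    rw [MulAction.mem_stabilizer_iff, mul_smul, mul_smul, inv_smul_eq_iff] at hx
    exact hfree u hu hu1 _ hx
  have hc₁ : Nat.card (MulAction.stabilizer G a) * p = Nat.card G := by
    have h1 := (MulAction.stabilizer G a).card_mul_index
    rw [MulAction.index_stabilizer] at h1
    have h3 : MulAction.orbit G a = Set.univ := by
      ext y
      simp only [Set.mem_univ, iff_true]
      exact htr a y
    rw [h3, Set.ncard_univ, Nat.card_eq_fintype_card (α := α), hα] at h1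
    exact h1
  obtain ⟨ψ, P, hind⟩ := exists_PD D hs _ hJ₁ hc₁
  have hfpψ : ∀ g : G, (fpc α g : ℂ) = 1 + (ψ : G → ℂ) g := by
    intro g
    rw [← hind, ind_point htr]
  have hG := pd_order P hs hα hfpψ hfree h2 hsq hab
  obtain ⟨n, hn⟩ : ∃ n, Y.card = n + 1 := ⟨Y.card - 1, by omega⟩
  have hn1 : 1 ≤ n := by omega
  have hpn : p = 2 * n + 3 := by omega
  have hG' : Nat.card G = p * 2 * (1 + n * p) := by
    rw [hG, hpn]
    have e1 : 2 * n + 3 - 2 = 2 * n + 1 := by omega
    have e2 : 2 * n + 3 - 1 = 2 * n + 2 := by omega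
    rw [e1, e2]
    ring
  obtain ⟨Q, hQ, -⟩ := exists_sylow_of_sq hz hsq
  have hsyl : Nat.card (Sylow p G) = 1 + n * p := by
    have h1 : Nat.card (Sylow p G) = (normalizer ((zpowers z : Subgroup G) : Set G)).index := by
      rw [← hQ]
      exact Sylow.card_eq_index_normalizer Q
    have h3 := (normalizer ((zpowers z : Subgroup G) : Set G)).card_mul_index
    rw [hN, ← h1, hG'] at h3
    have h4 : 2 * p * Nat.card (Sylow p G) = 2 * p * (1 + n * p) := by
      rw [h3]
      ring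
    exact Nat.eq_of_mul_eq_mul_left (by omega) h4
  have B : BRD p z 2 Y.card n X Y δ ε deg := ⟨hpr, by omega, hz, hC, hperf, hst, le_refl 2, hn1, by omega, hG', hsyl,
    hN, hdeg, hdeg1, hdisj, hXc, rfl, hX1, hδ1,
    fun χ hχ => (hXd χ hχ).1, fun χ hχ => (hXd χ hχ).2.1, fun χ hχ => (hXd χ hχ).2.2, hrest, hε, hYdeg, hYeq, hrel,
    hYsum⟩
  have hA : (As X δ).card = 0 := by
    rw [Finset.card_eq_zero, Finset.eq_empty_iff_forall_notMem]
    intro χ hχ
    obtain ⟨h1, h3, h4⟩ := B.mem_As hχ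
    rw [P.hXs, Finset.mem_insert, Finset.mem_singleton] at h1
    rcases h1 with h1 | h1
    · exact h3 h1
    · rw [h1, P.hδψ] at h4
      norm_num at h4
  have hBc : (Bs X δ).card = 1 := by
    rw [Finset.card_eq_one]
    refine ⟨ψ, ?_⟩
    ext χ
    simp only [Bs, Finset.mem_filter, Finset.mem_singleton]
    constructor
    · rintro ⟨h1, h3⟩
      rw [P.hXs, Finset.mem_insert, Finset.mem_singleton] at h1
      rcases h1 with h1 | h1
      · rw [h1, hδ1] at h3
        norm_num at h3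
      · exact h1
    · rintro rfl
      exact ⟨by rw [P.hXs]; simp, P.hδψ⟩
  have hdY : ∀ θ ∈ Y, deg θ = p - 2 := by
    intro θ hθ
    have := P.hdθ θ hθ
    omega
  obtain ⟨e, he, -, hF⟩ := B.case_b' hdY hs hn.symm rfl (by omega) P.hε hA hBc
  exact ⟨e, he, hF⟩

end Main

end Cfsg.Agent.Lib.BR
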