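import Cfsg.Agent.Lib.BR.TwoPerm
import Cfsg.Agent.Lib.Char.AltSq

/-!
# The squares of the exceptional character of degree `p - 1`
-/

set_option autoImplicit false
set_option linter.unusedSectionVars false
set_option linter.style.haveILetI false
set_option linter.unusedSimpArgs false
set_option linter.unnecessarySimpa false
set_option linter.unusedVariables false
set_option maxSynthPendingDepth 3

open scoped ComplexConjugate
open Subgroup

namespace Cfsg.Agent.Lib.BR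

open Cfsg (classInner IsCharacter IsIrrCharacter IrrCharacter IsClassFunction indFun
  extendByZero IsGeneralizedCharacter IsPModular principalBlock)
open Cfsg.Agent.Lib.Char
open Cfsg.Agent.Lib.Block hiding tr

universe u

variable {G : Type u} [Group G] [Fintype G] {p : ℕ} {z : G} {s : ℕ} {Xs Ys : Finset (IrrCharacter G)}
  {δ : IrrCharacter G → ℤ} {ε : ℤ} {deg : IrrCharacter G → ℕ} {ψ : IrrCharacter G}

/-- The coefficients of a character. -/
theorem exists_coeffs {F : G → ℂ} (hF : IsCharacter G F) :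
    ∃ a : IrrCharacter G → ℕ, (∀ g, F g = ∑ χ : IrrCharacter G, (a χ : ℂ) * (χ : G → ℂ) g) ∧
      ∀ χ : IrrCharacter G, classInner F (χ : G → ℂ) = (a χ : ℂ) := by
  choose m hm using fun ψ : IrrCharacter G => classInner_isCharacter_nat hF (IsIrrCharacter.isCharacter ψ.2)
  refine ⟨m, ?_, hm⟩
  intro g
  have h1 := congrFun (classFunction_eq_sum F (IsCharacter.isClassFunction hF)) g
  simp only [Finset.sum_apply, Pi.smul_apply, smul_eq_mul] at h1
  rw [h1]
  exact Finset.sum_congr rfl fun χ _ => by rw [hm χ]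

open _root_.Classical in
/-- The relations for the coefficients of a character which is constant on the non-trivial elements of the cyclic group. -/
theorem PD.char_rel (P : PD p z s Xs Ys δ ε deg ψ) {F : G → ℂ} (a : IrrCharacter G → ℕ)
    (hexp : ∀ g, F g = ∑ χ : IrrCharacter G, (a χ : ℂ) * (χ : G → ℂ) g) (c : ℂ)
    (hc : ∀ u ∈ zpowers z, u ≠ 1 → F u = c) :
    (p : ℂ) * ((a (oneIrr G) : ℂ) + ∑ θ ∈ Ys, (a θ : ℂ) + ∑ χ ∈ Zs Xs Ys, (a χ : ℂ) * (fx χ (zpowers z) : ℂ)) =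
        F 1 + ((p : ℂ) - 1) * c ∧
    ((p : ℂ) - 1) * ((a (oneIrr G) : ℂ) - (a ψ : ℂ)) + 2 * ∑ θ ∈ Ys, (a θ : ℂ) = ((p : ℂ) - 1) * c := by
  have D := P.D
  have hsumF : ∑ u ∈ Finset.univ.filter (fun u : G => u ∈ zpowers z ∧ u ≠ 1), F u = ((p : ℂ) - 1) * c := by
    rw [Finset.sum_congr rfl (fun u hu => hc u (Finset.mem_filter.mp hu).2.1 (Finset.mem_filter.mp hu).2.2),
      Finset.sum_const, nsmul_eq_mul, D.card_Pn']
  have hsw : ∑ u ∈ Finset.univ.filter (fun u : G => u ∈ zpowers z ∧ u ≠ 1), F u =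
      ∑ χ : IrrCharacter G, (a χ : ℂ) * ∑ u ∈ Finset.univ.filter (fun u : G => u ∈ zpowers z ∧ u ≠ 1), (χ : G → ℂ) u := by
    simp only [hexp, Finset.mul_sum]
    rw [Finset.sum_comm]
  constructor
  · have h1 : ∑ χ : IrrCharacter G, (a χ : ℂ) * ((p : ℂ) * (fx χ (zpowers z) : ℂ)) =
        F 1 + ∑ u ∈ Finset.univ.filter (fun u : G => u ∈ zpowers z ∧ u ≠ 1), F u := by
      rw [hsw, hexp 1, ← Finset.sum_add_distrib]
      refine Finset.sum_congr rfl fun χ _ => ?_
      rw [fx_P_eq D.hz χ]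
      ring
    rw [hsumF] at h1
    rw [← h1, P.split, fx_oneIrr, P.hfψ]
    have e1 : ∑ θ ∈ Ys, (a θ : ℂ) * ((p : ℂ) * (fx θ (zpowers z) : ℂ)) = (p : ℂ) * ∑ θ ∈ Ys, (a θ : ℂ) := by
      rw [Finset.mul_sum]
      refine Finset.sum_congr rfl fun θ hθ => ?_
      rw [P.hfθ θ hθ]
      push_cast
      ring
    have e2 : ∑ χ ∈ Zs Xs Ys, (a χ : ℂ) * ((p : ℂ) * (fx χ (zpowers z) : ℂ)) =
        (p : ℂ) * ∑ χ ∈ Zs Xs Ys, (a χ : ℂ) * (fx χ (zpowers z) : ℂ) := by
      rw [Finset.mul_sum]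
      refine Finset.sum_congr rfl fun χ hχ => ?_
      ring
    rw [e1, e2]
    push_cast
    ring
  · rw [← hsumF, hsw, P.split]
    have e0 : ∑ u ∈ Finset.univ.filter (fun u : G => u ∈ zpowers z ∧ u ≠ 1), ((oneIrr G : IrrCharacter G) : G → ℂ) u =
        ((p : ℂ) - 1) := by
      rw [D.sum_X D.hone, D.hδone]
      simp
    have e1 : ∑ u ∈ Finset.univ.filter (fun u : G => u ∈ zpowers z ∧ u ≠ 1), (ψ : G → ℂ) u = -((p : ℂ) - 1) := by
      have hψX : ψ ∈ Xs := by
        rw [P.hXs]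
        simp
      rw [D.sum_X hψX, P.hδψ]
      simp
    have e2 : ∑ θ ∈ Ys, (a θ : ℂ) * ∑ u ∈ Finset.univ.filter (fun u : G => u ∈ zpowers z ∧ u ≠ 1), (θ : G → ℂ) u =
        2 * ∑ θ ∈ Ys, (a θ : ℂ) := by
      rw [Finset.mul_sum]
      refine Finset.sum_congr rfl fun θ hθ => ?_
      rw [D.hYsum θ hθ, P.hε]
      push_cast
      ring
    have e3 : ∑ χ ∈ Zs Xs Ys, (a χ : ℂ) * ∑ u ∈ Finset.univ.filter (fun u : G => u ∈ zpowers z ∧ u ≠ 1), (χ : G → ℂ) u = 0 := by
      refine Finset.sum_eq_zero fun χ hχ => ?_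
      have h4 : χ ∉ Xs ∧ χ ∉ Ys := by
        simpa [Zs, Finset.mem_sdiff, Finset.mem_union, not_or] using hχ
      rw [D.sum_Z h4.1 h4.2, mul_zero]
    rw [e0, e1, e2, e3]
    ring

open _root_.Classical in
/-- **The squares of the character of degree `p - 1`.** -/
theorem PD.sq_data (P : PD p z s Xs Ys δ ε deg ψ) (hs : 2 ≤ s) (hreal : ∀ g, conj ((ψ : G → ℂ) g) = (ψ : G → ℂ) g)
    (hν : ∑ g : G, (ψ : G → ℂ) (g * g) = (Nat.card G : ℂ)) :
    (∀ g : G, ¬ p ∣ orderOf g →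
      (ψ : G → ℂ) (g * g) = (ψ : G → ℂ) g ^ 2 - ((p : ℂ) - 1) * ((ψ : G → ℂ) g - 1)) ∧
    ∑ g : G, (ψ : G → ℂ) g ^ 3 = (Nat.card G : ℂ) := by
  have D := P.D
  have hpr := D.hp
  have hst := D.hst
  have hpe : p = 2 * s + 1 := by omega
  have hpz : (p : ℂ) = 2 * (s : ℂ) + 1 := by
    rw [hpe]
    push_cast
    ring
  have hψc := IsIrrCharacter.isCharacter ψ.2
  have hψX : ψ ∈ Xs := by
    rw [P.hXs]
    simp
  have hcard : (Nat.card G : ℂ) ≠ 0 := by exact_mod_cast Nat.card_pos.ne'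
  have hsq : ∑ g : G, (ψ : G → ℂ) g ^ 2 = (Nat.card G : ℂ) := by
    have h1 := classInner_irr_self ψ.2
    rw [classInner_def] at h1
    simp only [hreal] at h1
    field_simp at h1
    exact h1
  have hd1 : (ψ : G → ℂ) 1 = (p : ℂ) - 1 := by
    rw [(D.hdeg ψ).1, ← P.hdψ]
    push_cast
    ring
  have hu : ∀ u ∈ zpowers z, u ≠ 1 → (ψ : G → ℂ) u = -1 ∧ (ψ : G → ℂ) (u * u) = -1 := by
    intro u hu hu1
    have h1 : u * u ≠ 1 := by
      intro h5
      have h6 : orderOf u ∣ 2 := orderOf_dvd_of_pow_eq_one (by rw [pow_two, h5])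
      have h7 : orderOf u ∣ p := by
        rw [← D.hz]
        exact orderOf_dvd_of_mem_zpowers hu
      rcases (Nat.dvd_prime hpr).1 h7 with h8 | h8
      · exact hu1 (orderOf_eq_one_iff.mp h8)
      · rw [h8] at h6
        have := Nat.le_of_dvd (by norm_num) h6
        omega
    rw [D.hXval ψ hψX u hu hu1, D.hXval ψ hψX (u * u) (mul_mem hu hu) h1, P.hδψ]
    simp
  obtain ⟨a, ha, ha'⟩ := exists_coeffs (isCharacter_altSq hψc)
  obtain ⟨b, hb, hb'⟩ := exists_coeffs (isCharacter_symSq hψc)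
  have h2s : ∀ g : G, ((oneIrr G : IrrCharacter G) : G → ℂ) g = 1 := fun _ => rfl
  have ha1 : a (oneIrr G) = 0 := by
    have h1 := ha' (oneIrr G)
    rw [classInner_def] at h1
    simp only [h2s, map_one, mul_one] at h1
    rw [← Finset.sum_div, Finset.sum_sub_distrib, hsq, hν, sub_self, zero_div, mul_zero] at h1
    exact_mod_cast h1.symm
  have hb1 : b (oneIrr G) = 1 := by
    have h1 := hb' (oneIrr G)
    rw [classInner_def] at h1
    simp only [h2s, map_one, mul_one] at h1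
    rw [← Finset.sum_div, Finset.sum_add_distrib, hsq, hν] at h1
    have h3 : (b (oneIrr G) : ℂ) = 1 := by
      rw [← h1]
      field_simp
      ring
    exact_mod_cast h3
  -- the alternating square
  obtain ⟨h3, h4⟩ := P.char_rel a ha 1 (fun u hu' hu1 => by
    obtain ⟨e1, e2⟩ := hu u hu' hu1
    rw [e1, e2]
    norm_num)
  obtain ⟨h5, h6⟩ := P.char_rel b hb 0 (fun u hu' hu1 => by
    obtain ⟨e1, e2⟩ := hu u hu' hu1
    rw [e1, e2]
    norm_num)
  rw [ha1] at h3 h4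
  rw [hb1] at h5 h6
  simp only [one_mul, mul_one, hd1] at h3 h5
  obtain ⟨AY, hAY⟩ : ∃ AY : ℕ, AY = ∑ θ ∈ Ys, a θ := ⟨_, rfl⟩
  obtain ⟨AZ, hAZ⟩ : ∃ AZ : ℕ, AZ = ∑ χ ∈ Zs Xs Ys, a χ * fx χ (zpowers z) := ⟨_, rfl⟩
  obtain ⟨BY, hBY⟩ : ∃ BY : ℕ, BY = ∑ θ ∈ Ys, b θ := ⟨_, rfl⟩
  obtain ⟨BZ, hBZ⟩ : ∃ BZ : ℕ, BZ = ∑ χ ∈ Zs Xs Ys, b χ * fx χ (zpowers z) := ⟨_, rfl⟩
  have hAYc : ∑ θ ∈ Ys, (a θ : ℂ) = (AY : ℂ) := by rw [hAY]; push_cast; rfl
  have hAZc : ∑ χ ∈ Zs Xs Ys, (a χ : ℂ) * (fx χ (zpowers z) : ℂ) = (AZ : ℂ) := by rw [hAZ]; push_cast; rfl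
  have hBYc : ∑ θ ∈ Ys, (b θ : ℂ) = (BY : ℂ) := by rw [hBY]; push_cast; rfl
  have hBZc : ∑ χ ∈ Zs Xs Ys, (b χ : ℂ) * (fx χ (zpowers z) : ℂ) = (BZ : ℂ) := by rw [hBZ]; push_cast; rfl
  rw [hAYc, hAZc] at h3
  rw [hAYc] at h4
  rw [hBYc, hBZc] at h5
  rw [hBYc] at h6
  have hs0 : (s : ℂ) ≠ 0 := by exact_mod_cast (by omega : s ≠ 0)
  have hp0 : (p : ℂ) ≠ 0 := by exact_mod_cast hpr.pos.ne'
  -- in the integers
  have e3 : AY + AZ = s := by
    have h7 : (p : ℂ) * ((AY : ℂ) + (AZ : ℂ)) = (p : ℂ) * (s : ℂ) := by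
      have h8 : (p : ℂ) * (((0 : ℕ) : ℂ) + (AY : ℂ) + (AZ : ℂ)) = (p : ℂ) * (s : ℂ) := by
        rw [h3, hpz]
        ring
      rw [← h8]
      push_cast
      ring
    have h9 := mul_left_cancel₀ hp0 h7
    exact_mod_cast h9
  have e4 : (AY : ℤ) = s + s * a ψ := by
    have h7 : (s : ℂ) * ((a ψ : ℂ) + 1) = (AY : ℂ) := by
      have h8 : (2 : ℂ) * ((s : ℂ) * ((a ψ : ℂ) + 1)) = 2 * (AY : ℂ) := by
        rw [hpz] at h4
        push_cast at h4
        linear_combination -h4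
      exact mul_left_cancel₀ (by norm_num) h8
    have h9 : ((AY : ℤ) : ℂ) = (((s : ℤ) + s * a ψ : ℤ) : ℂ) := by
      push_cast
      rw [← h7]
      ring
    exact_mod_cast h9
  have haψ : a ψ = 0 := by
    by_contra h
    have h7 : (1 : ℤ) ≤ a ψ := by exact_mod_cast Nat.pos_of_ne_zero h
    have h8 : (s : ℤ) * 1 ≤ s * a ψ := mul_le_mul_of_nonneg_left h7 (by positivity)
    have h9 : (AY : ℤ) ≤ s := by exact_mod_cast (by omega : AY ≤ s)
    have h10 : (2 : ℤ) ≤ s := by exact_mod_cast hs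
    linarith
  have hAY2 : AY = s := by
    rw [haψ] at e4
    push_cast at e4
    have : (AY : ℤ) = s := by linarith
    exact_mod_cast this
  have hAZ0 : AZ = 0 := by omega
  have hZ0 : ∀ χ ∈ Zs Xs Ys, a χ = 0 := by
    intro χ hχ
    rw [hAZ, Finset.sum_eq_zero_iff] at hAZ0
    have h7 := hAZ0 χ hχ
    have h8 : χ ∉ Xs ∧ χ ∉ Ys := by
      simpa [Zs, Finset.mem_sdiff, Finset.mem_union, not_or] using hχ
    have h9 := D.fx_Z h8.1 h8.2
    have h10 : fx χ (zpowers z) ≠ 0 := by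
      intro h
      rw [h, mul_zero] at h9
      exact (D.hdeg χ).2.1 h9
    exact (mul_eq_zero.mp h7).resolve_right h10
  -- the symmetric square
  have e5 : 1 + BY + BZ = s := by
    have h7 : (p : ℂ) * (1 + (BY : ℂ) + (BZ : ℂ)) = (p : ℂ) * (s : ℂ) := by
      have h8 : (p : ℂ) * (((1 : ℕ) : ℂ) + (BY : ℂ) + (BZ : ℂ)) = (p : ℂ) * (s : ℂ) := by
        rw [h5, hpz]
        ring
      rw [← h8]
      push_cast
      ring
    have h9 := mul_left_cancel₀ hp0 h7
    exact_mod_cast h9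
  have e6 : (BY : ℤ) = s * b ψ - s := by
    have h7 : (s : ℂ) * (b ψ : ℂ) - (s : ℂ) = (BY : ℂ) := by
      have h8 : (2 : ℂ) * ((s : ℂ) * (b ψ : ℂ) - (s : ℂ)) = 2 * (BY : ℂ) := by
        rw [hpz] at h6
        push_cast at h6
        linear_combination -h6
      exact mul_left_cancel₀ (by norm_num) h8
    have h9 : ((BY : ℤ) : ℂ) = (((s : ℤ) * b ψ - s : ℤ) : ℂ) := by
      push_cast
      rw [← h7]
    exact_mod_cast h9
  have hsz : (2 : ℤ) ≤ s := by exact_mod_cast hs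
  have hbψ : b ψ = 1 := by
    have h7 : (BY : ℤ) + 1 ≤ s := by exact_mod_cast (by omega : BY + 1 ≤ s)
    have h8 : (0 : ℤ) ≤ BY := by positivity
    have h9 : b ψ ≠ 0 := by
      intro h
      rw [h] at e6
      push_cast at e6
      linarith
    by_contra h10
    have h11 : (2 : ℤ) ≤ b ψ := by exact_mod_cast (by omega : 2 ≤ b ψ)
    have h12 : (s : ℤ) * 2 ≤ s * b ψ := mul_le_mul_of_nonneg_left h11 (by positivity)
    linarith
  refine ⟨fun g hg => ?_, ?_⟩
  · have h7 := ha g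
    rw [P.split, ha1, haψ] at h7
    have e7 : ∑ χ ∈ Zs Xs Ys, (a χ : ℂ) * (χ : G → ℂ) g = 0 :=
      Finset.sum_eq_zero fun χ hχ => by rw [hZ0 χ hχ]; simp
    have e8 : ∑ θ ∈ Ys, (a θ : ℂ) * (θ : G → ℂ) g = (s : ℂ) * ((ψ : G → ℂ) g - 1) := by
      rw [Finset.sum_congr rfl (fun θ hθ => by rw [P.hrelθ θ hθ g hg]), ← Finset.sum_mul, hAYc, hAY2]
    rw [e7, e8] at h7
    push_cast at h7
    rw [hpz]
    linear_combination -2 * h7
  · have h7 := ha' ψ
    have h8 := hb' ψ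
    rw [classInner_def] at h7 h8
    simp only [hreal] at h7 h8
    rw [haψ] at h7
    rw [hbψ] at h8
    have h9 : ∑ g : G, (ψ : G → ℂ) g ^ 3 =
        ∑ g : G, ((ψ : G → ℂ) g ^ 2 - (ψ : G → ℂ) (g * g)) / 2 * (ψ : G → ℂ) g +
        ∑ g : G, ((ψ : G → ℂ) g ^ 2 + (ψ : G → ℂ) (g * g)) / 2 * (ψ : G → ℂ) g := by
      rw [← Finset.sum_add_distrib]
      refine Finset.sum_congr rfl fun g _ => ?_
      ring
    rw [h9]
    have h7' : ∑ g : G, ((ψ : G → ℂ) g ^ 2 - (ψ : G → ℂ) (g * g)) / 2 * (ψ : G → ℂ) g = 0 := by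
      rw [Nat.cast_zero] at h7
      rcases mul_eq_zero.mp h7 with h | h
      · exact absurd (inv_eq_zero.mp h) hcard
      · exact h
    have h8' : ∑ g : G, ((ψ : G → ℂ) g ^ 2 + (ψ : G → ℂ) (g * g)) / 2 * (ψ : G → ℂ) g = (Nat.card G : ℂ) := by
      rw [Nat.cast_one] at h8
      have h10 := congrArg (fun w => (Nat.card G : ℂ) * w) h8
      simp only [mul_one] at h10
      rw [mul_inv_cancel_left₀ hcard] at h10
      exact h10
    rw [h7', h8', zero_add]

open _root_.Classical in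
/-- An element of order divisible by `p` is conjugate to an element of the cyclic group. -/
theorem exists_conj_of_dvd [hfp : Fact p.Prime] (hz : orderOf z = p) (hC : centralizer ({z} : Set G) = zpowers z)
    {g : G} (hg : p ∣ orderOf g) : ∃ x : G, x⁻¹ * g * x ∈ zpowers z ∧ x⁻¹ * g * x ≠ 1 := by
  have hpr := hfp.out
  have hg0 : orderOf g ≠ 0 := (orderOf_pos g).ne'
  have hy : orderOf (g ^ (orderOf g / p)) = p := orderOf_pow_orderOf_div hg0 hg
  obtain ⟨Q₀, hQ₀⟩ := exists_sylow_eq hz hC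
  have hpa : IsPGroup p (zpowers (g ^ (orderOf g / p))) := by
    apply IsPGroup.of_card (n := 1)
    rw [Nat.card_zpowers, hy, pow_one]
  obtain ⟨Q, hQ⟩ := hpa.exists_le_sylow
  obtain ⟨c, hc⟩ := MulAction.exists_smul_eq G Q Q₀
  obtain ⟨a, ha⟩ : ∃ a, a = g ^ (orderOf g / p) := ⟨_, rfl⟩
  rw [← ha] at hy hQ
  have h1 : c * a * c⁻¹ ∈ (Q₀ : Subgroup G) := by
    rw [← hc]
    have h2 : a ∈ (Q : Subgroup G) := hQ (mem_zpowers a)
    have h3 : (MulAut.conj c) a ∈ (c • Q : Sylow p G) := by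
      rw [Sylow.smul_def]
      exact ⟨a, h2, rfl⟩
    rw [MulAut.conj_apply] at h3
    exact h3
  rw [hQ₀] at h1
  have h4 : c * a * c⁻¹ ≠ 1 := by
    intro h
    have h5 : a = 1 := by
      have e : a = c⁻¹ * (c * a * c⁻¹) * c := by group
      rw [e, h]
      group
    rw [h5, orderOf_one] at hy
    exact hpr.one_lt.ne hy
  have h5 := centralizer_of_mem hz hpr h1 h4
  rw [hC] at h5
  have h6 : c * g * c⁻¹ ∈ zpowers z := by
    rw [← h5, Subgroup.mem_centralizer_singleton_iff]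
    have h7 : Commute g a := by
      rw [ha]
      exact (Commute.refl g).pow_right _
    have e1 : c * g * c⁻¹ * (c * a * c⁻¹) = c * (g * a) * c⁻¹ := by group
    have e2 : c * a * c⁻¹ * (c * g * c⁻¹) = c * (a * g) * c⁻¹ := by group
    rw [e1, e2, h7.eq]
  refine ⟨c⁻¹, by simpa using h6, ?_⟩
  intro h8
  have h9 : g = 1 := by
    have e : g = c⁻¹ * (c * g * c⁻¹) * c := by group
    have h10 : c * g * c⁻¹ = 1 := by simpa using h8
    rw [e, h10]
    group
  rw [h9, orderOf_one] at hg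
  exact hpr.one_lt.ne' (Nat.dvd_one.mp hg)

open _root_.Classical in
/-- The number of elements of order divisible by `p`. -/
theorem card_sing [hfp : Fact p.Prime] (hz : orderOf z = p) (hC : centralizer ({z} : Set G) = zpowers z)
    {m : ℕ} (hN : Nat.card (normalizer ((zpowers z : Subgroup G) : Set G)) = m) :
    (Finset.univ.filter (fun g : G => p ∣ orderOf g)).card * m = Nat.card G * (p - 1) := by
  have hpr := hfp.out
  have hzw : ∀ w ∈ zpowers z, w ≠ 1 → zpowers w = zpowers z := by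
    intro w hw hw1
    apply Subgroup.eq_of_le_of_card_ge
    · rwa [Subgroup.zpowers_le]
    · rw [Nat.card_zpowers, hz, Nat.card_zpowers]
      have h7 : orderOf w ∣ p := by
        rw [← hz]
        exact orderOf_dvd_of_mem_zpowers hw
      rcases (Nat.dvd_prime hpr).1 h7 with h8 | h8
      · exact absurd (orderOf_eq_one_iff.mp h8) hw1
      · exact h8.ge
  have hnorm : ∀ (u y : G), u ∈ zpowers z → u ≠ 1 → y⁻¹ * u * y ∈ zpowers z →
      y ∈ normalizer ((zpowers z : Subgroup G) : Set G) := by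
    intro u y hu hu1 hy
    have hr1 : y⁻¹ * u * y ≠ 1 := by
      intro h
      apply hu1
      have e : u = y * (y⁻¹ * u * y) * y⁻¹ := by group
      rw [e, h]
      group
    have hr := hzw _ hy hr1
    have hu' := hzw u hu hu1
    have hconj : ∀ i : ℤ, (y⁻¹ * u * y) ^ i = y⁻¹ * u ^ i * y := by
      intro i
      have e := conj_zpow (a := y⁻¹) (b := u) (i := i)
      simpa using e
    rw [mem_normalizer_iff]
    intro h
    constructor
    · intro hh
      have hh' : h ∈ zpowers (y⁻¹ * u * y) := by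
        rw [hr]
        exact hh
      obtain ⟨i, rfl⟩ := mem_zpowers_iff.mp hh'
      rw [hconj]
      have e : y * (y⁻¹ * u ^ i * y) * y⁻¹ = u ^ i := by group
      rw [e, ← hu']
      exact zpow_mem (mem_zpowers u) i
    · intro hh
      have hh' : y * h * y⁻¹ ∈ zpowers u := by
        rw [hu']
        exact hh
      obtain ⟨i, hi⟩ := mem_zpowers_iff.mp hh'
      have e : h = y⁻¹ * u ^ i * y := by
        rw [hi]
        group
      rw [e, ← hconj]
      exact zpow_mem hy i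
  have h1 : ∀ g ∈ Finset.univ.filter (fun g : G => p ∣ orderOf g),
      (Finset.univ.filter (fun x : G => x⁻¹ * g * x ∈ zpowers z)).card = m := by
    intro g hg
    obtain ⟨x₀, h2, h3⟩ := exists_conj_of_dvd hz hC (Finset.mem_filter.mp hg).2
    obtain ⟨u, hu⟩ : ∃ u, u = x₀⁻¹ * g * x₀ := ⟨_, rfl⟩
    rw [← hu] at h2 h3
    have hg' : g = x₀ * u * x₀⁻¹ := by
      rw [hu]
      group
    have h4 : Finset.univ.filter (fun x : G => x⁻¹ * g * x ∈ zpowers z) =
        (Finset.univ.filter (fun y : G => y ∈ normalizer ((zpowers z : Subgroup G) : Set G))).image (fun y => x₀ * y) := by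
      ext x
      simp only [Finset.mem_filter, Finset.mem_univ, true_and, Finset.mem_image]
      constructor
      · intro hx
        refine ⟨x₀⁻¹ * x, hnorm u _ h2 h3 ?_, by group⟩
        have e : (x₀⁻¹ * x)⁻¹ * u * (x₀⁻¹ * x) = x⁻¹ * g * x := by
          rw [hg']
          group
        rw [e]
        exact hx
      · rintro ⟨y, hy, rfl⟩
        have e : (x₀ * y)⁻¹ * g * (x₀ * y) = y⁻¹ * u * y := by
          rw [hg']
          group
        rw [e]
        rw [mem_normalizer_iff] at hy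
        have h5 := (hy (y⁻¹ * u * y)).2 (by
          have e2 : y * (y⁻¹ * u * y) * y⁻¹ = u := by group
          rw [e2]
          exact h2)
        exact h5
    rw [h4, Finset.card_image_of_injective _ (mul_right_injective x₀), card_filter_mem, hN]
  have h2 : ∀ x : G, (Finset.univ.filter (fun g : G => p ∣ orderOf g ∧ x⁻¹ * g * x ∈ zpowers z)).card = p - 1 := by
    intro x
    have h3 : Finset.univ.filter (fun g : G => p ∣ orderOf g ∧ x⁻¹ * g * x ∈ zpowers z) =
        (Finset.univ.filter (fun u : G => u ∈ zpowers z ∧ u ≠ 1)).image (fun u => x * u * x⁻¹) := by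
      ext g
      simp only [Finset.mem_filter, Finset.mem_univ, true_and, Finset.mem_image]
      constructor
      · rintro ⟨h4, h5⟩
        refine ⟨x⁻¹ * g * x, ⟨h5, ?_⟩, by group⟩
        intro h6
        have h7 : g = 1 := by
          have e : g = x * (x⁻¹ * g * x) * x⁻¹ := by group
          rw [e, h6]
          group
        rw [h7, orderOf_one] at h4
        exact hpr.one_lt.ne' (Nat.dvd_one.mp h4)
      · rintro ⟨u, ⟨h4, h5⟩, rfl⟩
        constructor
        · have h6 : orderOf (x * u * x⁻¹) = orderOf u := by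
            have h3 := orderOf_injective (MulAut.conj x).toMonoidHom (MulAut.conj x).injective u
            simpa using h3
          rw [h6]
          have h7 : orderOf u ∣ p := by
            rw [← hz]
            exact orderOf_dvd_of_mem_zpowers h4
          rcases (Nat.dvd_prime hpr).1 h7 with h8 | h8
          · exact absurd (orderOf_eq_one_iff.mp h8) h5
          · rw [h8]
        · have e : x⁻¹ * (x * u * x⁻¹) * x = u := by group
          rw [e]
          exact h4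
    rw [h3, Finset.card_image_of_injective]
    · have := card_Pn hz hpr
      omega
    · intro a b hab
      simpa using hab
  have h3 := Finset.sum_card_bipartiteAbove_eq_sum_card_bipartiteBelow (s := Finset.univ.filter (fun g : G => p ∣ orderOf g))
    (t := (Finset.univ : Finset G)) (fun g x => x⁻¹ * g * x ∈ zpowers z)
  simp only [Finset.bipartiteAbove, Finset.bipartiteBelow] at h3
  rw [Finset.sum_congr rfl h1, Finset.sum_const, smul_eq_mul] at h3
  rw [h3]
  have h4 : ∀ x ∈ (Finset.univ : Finset G), (Finset.filter (fun g => x⁻¹ * g * x ∈ zpowers z)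
      (Finset.univ.filter (fun g : G => p ∣ orderOf g))).card = p - 1 := by
    intro x _
    rw [← h2 x, Finset.filter_filter]
  rw [Finset.sum_congr rfl h4, Finset.sum_const, smul_eq_mul, Finset.card_univ, Nat.card_eq_fintype_card]

open _root_.Classical in
/-- **The order of the group**, from the integrality of the character of degree `p - 1`. -/
theorem PD.card_of_int [hfp : Fact p.Prime] (P : PD p z s Xs Ys δ ε deg ψ) (hs : 2 ≤ s)
    (hreal : ∀ g, conj ((ψ : G → ℂ) g) = (ψ : G → ℂ) g)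
    (hν : ∑ g : G, (ψ : G → ℂ) (g * g) = (Nat.card G : ℂ)) (y : G → ℤ) (hy : ∀ g, (ψ : G → ℂ) g = (y g : ℂ))
    (hfaith : ∀ g, y g = (p : ℤ) - 1 → g = 1)
    (hN : Nat.card (normalizer ((zpowers z : Subgroup G) : Set G)) = 2 * p) :
    Nat.card G = p * (p - 1) * (p - 2) ∧ ∀ g : G, g ≠ 1 → ¬ p ∣ orderOf g → y g = 0 ∨ y g = 1 := by
  have D := P.D
  have hpr := D.hp
  have hst := D.hst
  have hpe : p = 2 * s + 1 := by omega
  have hp5 : (5 : ℤ) ≤ p := by exact_mod_cast (by omega : 5 ≤ p)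
  obtain ⟨hT, hcube⟩ := P.sq_data hs hreal hν
  have hψX : ψ ∈ Xs := by
    rw [P.hXs]
    simp
  have hψc := IsIrrCharacter.isCharacter ψ.2
  have hy1 : y 1 = (p : ℤ) - 1 := by
    have h1 := hy 1
    rw [(D.hdeg ψ).1] at h1
    have h2 : (deg ψ : ℤ) = y 1 := by exact_mod_cast h1
    have h3 : (deg ψ : ℤ) + 1 = p := by exact_mod_cast P.hdψ
    linarith
  have hTz : ∀ g : G, ¬ p ∣ orderOf g → y (g * g) = y g ^ 2 - ((p : ℤ) - 1) * (y g - 1) := by
    intro g hg
    have h1 := hT g hg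
    rw [hy, hy] at h1
    have h2 : ((y (g * g) : ℤ) : ℂ) = ((y g ^ 2 - ((p : ℤ) - 1) * (y g - 1) : ℤ) : ℂ) := by
      push_cast
      exact h1
    exact_mod_cast h2
  have hbd : ∀ g : G, |y g| ≤ (p : ℤ) - 1 := by
    intro g
    have h1 := IsCharacter.norm_le' hψc g
    rw [hy g, hy 1, hy1, Complex.norm_intCast, Complex.intCast_re] at h1
    exact_mod_cast h1
  have hbd' := fun g => abs_le.mp (hbd g)
  -- the non-negativity on the regular elements
  have hpos : ∀ g : G, ¬ p ∣ orderOf g → 0 ≤ y g := by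
    intro g hg
    by_contra h
    push Not at h
    have h1 := hTz g hg
    have h2 := (hbd' (g * g)).2
    rw [h1] at h2
    have h3 : y g ≤ -1 := by omega
    nlinarith
  have hle : ∀ g : G, g ≠ 1 → y g ≤ (p : ℤ) - 2 := by
    intro g hg
    have h1 := (hbd' g).2
    have h2 : y g ≠ (p : ℤ) - 1 := fun h => hg (hfaith g h)
    omega
  -- the singular elements
  have hC := D.hC
  have hsing : ∀ g : G, p ∣ orderOf g → y g = -1 := by
    intro g hg
    obtain ⟨x, h1, h2⟩ := exists_conj_of_dvd D.hz hC hg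
    have h3 := D.hXval ψ hψX _ h1 h2
    rw [P.hδψ] at h3
    have h4 : (ψ : G → ℂ) (x⁻¹ * g * x) = (ψ : G → ℂ) g := by
      have h5 := IsCharacter.isClassFunction hψc g x⁻¹
      simpa using h5
    rw [h4, hy] at h3
    have h6 : ((y g : ℤ) : ℂ) = ((-1 : ℤ) : ℂ) := by
      rw [h3]
    exact_mod_cast h6
  -- the moments
  have hcard0 : (Nat.card G : ℂ) ≠ 0 := by exact_mod_cast Nat.card_pos.ne'
  have hψ1 := P.hψ1
  have E1 : ∑ g : G, y g = 0 := by
    have h1 := classInner_irr_of_ne ψ.2 (oneIrr G).2 (fun h => hψ1 (Subtype.ext h))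
    rw [classInner_def] at h1
    have h2s : ∀ g : G, ((oneIrr G : IrrCharacter G) : G → ℂ) g = 1 := fun _ => rfl
    simp only [h2s, map_one, mul_one] at h1
    have h3 : ∑ g : G, (ψ : G → ℂ) g = 0 := by
      rcases mul_eq_zero.mp h1 with h | h
      · exact absurd (inv_eq_zero.mp h) hcard0
      · exact h
    simp only [hy] at h3
    exact_mod_cast h3
  have E2 : ∑ g : G, y g ^ 2 = Nat.card G := by
    have h1 := classInner_irr_self ψ.2
    rw [classInner_def] at h1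
    simp only [hreal] at h1
    simp only [hy] at h1
    have h3 : ∑ g : G, ((y g : ℤ) : ℂ) ^ 2 = (Nat.card G : ℂ) := by
      field_simp at h1
      exact h1
    exact_mod_cast h3
  have E3 : ∑ g : G, y g ^ 3 = Nat.card G := by
    simp only [hy] at hcube
    exact_mod_cast hcube
  -- the three parts
  obtain ⟨S, hS⟩ : ∃ S, S = Finset.univ.filter (fun g : G => p ∣ orderOf g) := ⟨_, rfl⟩
  obtain ⟨R, hR⟩ : ∃ R, R = Finset.univ.filter (fun g : G => ¬ p ∣ orderOf g ∧ g ≠ 1) := ⟨_, rfl⟩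
  have hmS : ∀ g, g ∈ S ↔ p ∣ orderOf g := fun g => by simp [hS]
  have hmR : ∀ g, g ∈ R ↔ ¬ p ∣ orderOf g ∧ g ≠ 1 := fun g => by simp [hR]
  have h1S : (1 : G) ∉ S := by
    rw [hmS, orderOf_one]
    exact fun h => hpr.one_lt.ne' (Nat.dvd_one.mp h)
  have hsplit : ∀ F : G → ℤ, ∑ g : G, F g = F 1 + ∑ g ∈ S, F g + ∑ g ∈ R, F g := by
    intro F
    have h1 : (Finset.univ : Finset G) = insert 1 (S ∪ R) := by
      ext g
      simp only [Finset.mem_univ, Finset.mem_insert, Finset.mem_union, hmS, hmR, true_iff]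
      by_cases h : g = 1
      · exact Or.inl h
      · by_cases h2 : p ∣ orderOf g
        · exact Or.inr (Or.inl h2)
        · exact Or.inr (Or.inr ⟨h2, h⟩)
    have hd : Disjoint S R := by
      rw [Finset.disjoint_left]
      intro g h2 h3
      exact ((hmR g).1 h3).1 ((hmS g).1 h2)
    have h4 : (1 : G) ∉ S ∪ R := by
      rw [Finset.mem_union]
      rintro (h | h)
      · exact h1S h
      · exact ((hmR 1).1 h).2 rfl
    rw [h1, Finset.sum_insert h4, Finset.sum_union hd, add_assoc]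
  obtain ⟨B, hB⟩ : ∃ B : ℤ, B = (S.card : ℤ) := ⟨_, rfl⟩
  obtain ⟨C, hCc⟩ : ∃ C : ℤ, C = (Nat.card G : ℤ) := ⟨_, rfl⟩
  have hIII : 2 * (p : ℤ) * B = ((p : ℤ) - 1) * C := by
    have h1 := card_sing D.hz hC hN
    rw [← hS] at h1
    have h2 : ((S.card * (2 * p) : ℕ) : ℤ) = ((Nat.card G * (p - 1) : ℕ) : ℤ) := by rw [h1]
    push_cast [Nat.cast_sub hpr.one_lt.le] at h2
    rw [hB, hCc]
    linear_combination h2
  have hSs : ∀ k : ℕ, ∑ g ∈ S, y g ^ k = (-1) ^ k * B := by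
    intro k
    rw [Finset.sum_congr rfl (fun g hg => by rw [hsing g ((hmS g).1 hg)]), Finset.sum_const, nsmul_eq_mul, hB]
    ring
  have e1 := hsplit (fun g => y g ^ 1)
  have e2 := hsplit (fun g => y g ^ 2)
  have e3 := hsplit (fun g => y g ^ 3)
  simp only [pow_one] at e1
  have hSs1 : ∑ g ∈ S, y g = -B := by
    have := hSs 1
    simpa using this
  rw [E1, hSs1, hy1] at e1
  rw [E2, hSs 2, hy1, ← hCc] at e2
  rw [E3, hSs 3, hy1, ← hCc] at e3
  -- the two inequalities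
  have hI : 0 ≤ ∑ g ∈ R, y g * (y g - 1) := by
    refine Finset.sum_nonneg fun g hg => ?_
    obtain ⟨h1, h2⟩ := (hmR g).1 hg
    have h3 := hpos g h1
    rcases eq_or_lt_of_le h3 with h4 | h4
    · rw [← h4]
      simp
    · exact mul_nonneg h3 (by omega)
  have hII : ∑ g ∈ R, y g * (y g - 1) * (y g - ((p : ℤ) - 2)) ≤ 0 := by
    refine Finset.sum_nonpos fun g hg => ?_
    obtain ⟨h1, h2⟩ := (hmR g).1 hg
    have h3 := hpos g h1
    have h4 := hle g h2
    rcases eq_or_lt_of_le h3 with h5 | h5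
    · rw [← h5]
      simp
    · exact mul_nonpos_of_nonneg_of_nonpos (mul_nonneg h3 (by omega)) (by omega)
  have hIe : ∑ g ∈ R, y g * (y g - 1) = ∑ g ∈ R, y g ^ 2 - ∑ g ∈ R, y g := by
    rw [← Finset.sum_sub_distrib]
    exact Finset.sum_congr rfl fun g _ => by ring
  have hIIe : ∑ g ∈ R, y g * (y g - 1) * (y g - ((p : ℤ) - 2)) =
      ∑ g ∈ R, y g ^ 3 - ((p : ℤ) - 1) * ∑ g ∈ R, y g ^ 2 + ((p : ℤ) - 2) * ∑ g ∈ R, y g := by
    rw [Finset.mul_sum, Finset.mul_sum, ← Finset.sum_sub_distrib, ← Finset.sum_add_distrib]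
    exact Finset.sum_congr rfl fun g _ => by ring
  obtain ⟨M1, hM1⟩ : ∃ M1, M1 = ∑ g ∈ R, y g := ⟨_, rfl⟩
  obtain ⟨M2, hM2⟩ : ∃ M2, M2 = ∑ g ∈ R, y g ^ 2 := ⟨_, rfl⟩
  obtain ⟨M3, hM3⟩ : ∃ M3, M3 = ∑ g ∈ R, y g ^ 3 := ⟨_, rfl⟩
  rw [← hM1] at e1 hIe hIIe
  rw [← hM2] at e2 hIe hIIe
  rw [← hM3] at e3 hIIe
  have hM1e : M1 = B - ((p : ℤ) - 1) := by linarith
  have hM2e : M2 = C - ((p : ℤ) - 1) ^ 2 - B := by linarith
  have hM3e : M3 = C - ((p : ℤ) - 1) ^ 3 + B := by linarith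
  rw [hIe, hM1e, hM2e] at hI
  rw [hIIe, hM1e, hM2e, hM3e] at hII
  have hp0 : (0 : ℤ) < p := by omega
  have hC1 : 0 ≤ C - (p : ℤ) * ((p : ℤ) - 1) * ((p : ℤ) - 2) := by
    have e : C - (p : ℤ) * ((p : ℤ) - 1) * ((p : ℤ) - 2) =
        (p : ℤ) * (C - ((p : ℤ) - 1) ^ 2 - B - (B - ((p : ℤ) - 1))) := by
      linear_combination hIII
    rw [e]
    exact mul_nonneg hp0.le hI
  have hC2 : C - (p : ℤ) * ((p : ℤ) - 1) * ((p : ℤ) - 2) ≤ 0 := by
    have e : C - (p : ℤ) * ((p : ℤ) - 1) * ((p : ℤ) - 2) =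
        (p : ℤ) * (C - ((p : ℤ) - 1) ^ 3 + B - ((p : ℤ) - 1) * (C - ((p : ℤ) - 1) ^ 2 - B) +
          ((p : ℤ) - 2) * (B - ((p : ℤ) - 1))) := by
      linear_combination (-((p : ℤ) - 1)) * hIII
    rw [e]
    exact mul_nonpos_of_nonneg_of_nonpos hp0.le hII
  have hCe : C = (p : ℤ) * ((p : ℤ) - 1) * ((p : ℤ) - 2) := by linarith
  constructor
  · rw [hCc] at hCe
    have h1 : ((p * (p - 1) * (p - 2) : ℕ) : ℤ) = (p : ℤ) * ((p : ℤ) - 1) * ((p : ℤ) - 2) := by
      push_cast [Nat.cast_sub (by omega : 1 ≤ p), Nat.cast_sub (by omega : 2 ≤ p)]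
      ring
    rw [← h1] at hCe
    exact_mod_cast hCe
  · intro g hg1 hg
    have hgR : g ∈ R := (hmR g).2 ⟨hg, hg1⟩
    have h2 : ∑ g ∈ R, y g * (y g - 1) = 0 := by
      rw [hIe, hM1e, hM2e]
      have hzz : (p : ℤ) * (C - ((p : ℤ) - 1) ^ 2 - B - (B - ((p : ℤ) - 1))) = 0 := by
        linear_combination hCe - hIII
      exact (mul_eq_zero.mp hzz).resolve_left hp0.ne'
    have h3 : ∀ g ∈ R, 0 ≤ y g * (y g - 1) := by
      intro g hg
      obtain ⟨h1, h2⟩ := (hmR g).1 hg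
      have h3 := hpos g h1
      rcases eq_or_lt_of_le h3 with h4 | h4
      · rw [← h4]
        simp
      · exact mul_nonneg h3 (by omega)
    have h4 := (Finset.sum_eq_zero_iff_of_nonneg h3).1 h2 g hgR
    rcases mul_eq_zero.mp h4 with h5 | h5
    · exact Or.inl h5
    · exact Or.inr (by omega)

open _root_.Classical in
/-- The block data of a group with a self-centralizing element and normalizer index two. -/
theorem exists_BD0 [hfp : Fact p.Prime] (hp5 : 5 ≤ p) (hperf : commutator G = ⊤)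
    (hz : orderOf z = p) (hC : centralizer ({z} : Set G) = zpowers z)
    (hN : Nat.card (normalizer ((zpowers z : Subgroup G) : Set G)) = 2 * p)
    (hsq : ¬ p ^ 2 ∣ Nat.card G) :
    ∃ (s : ℕ) (X Y : Finset (IrrCharacter G)) (δ : IrrCharacter G → ℤ) (ε : ℤ) (deg : IrrCharacter G → ℕ),
      BD0 p z 2 s X Y δ ε deg ∧ 2 ≤ s := by
  have hpr := hfp.out
  obtain ⟨M, hM⟩ := exists_isPModular p hpr
  have hN' : Nat.card (normalizer ((zpowers z : Subgroup G) : Set G)) = 2 * Nat.card (centralizer ({z} : Set G)) := by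
    rw [hN, hC, Nat.card_zpowers, hz]
  obtain ⟨X, Y, δ, ε, deg, hdeg, hB, hdisj, hXc, hYt, ht0, hXd, hε, hYdeg, hYeq, hrel, hYsum⟩ :=
    block_ext hM hz hsq 2 hN'
  have hst : Y.card * 2 + 1 = p := by omega
  have hs : 2 ≤ Y.card := by omega
  have hdeg1 : ∀ χ : IrrCharacter G, deg χ = 1 → χ = oneIrr G := by
    intro χ hd
    have h1 : (χ : G → ℂ) 1 = 1 := by
      rw [(hdeg χ).1, hd]
      simp
    apply Subtype.ext
    funext g
    exact Cfsg.Agent.Lib.Degree.irr_linear_commutator χ h1 (by rw [hperf]; trivial)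
  have hdegone : deg (oneIrr G) = 1 := by
    have h1 : ((oneIrr G : IrrCharacter G) : G → ℂ) 1 = 1 := rfl
    have h2 := (hdeg (oneIrr G)).1
    rw [h1] at h2
    exact_mod_cast h2.symm
  haveI hMp : M.IsPrime := hM.2.1.isPrime
  have hX1 : oneIrr G ∈ X := by
    by_contra hX1
    have hY1 : oneIrr G ∈ Y := ((hB _).1 (mem_blockOf_self (oneIrr G))).resolve_left hX1
    obtain ⟨θ, hθ, hθ1⟩ : ∃ θ ∈ Y, θ ≠ oneIrr G := by
      by_contra h
      push Not at h
      have : Y.card ≤ 1 := Finset.card_le_one.mpr fun a ha b hb => by rw [h a ha, h b hb]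
      omega
    apply hθ1
    apply hdeg1
    have h1 := hYeq θ hθ _ hY1 1 (by rw [orderOf_one]; exact fun h => hpr.one_lt.ne' (Nat.dvd_one.mp h))
    rw [(hdeg θ).1] at h1
    have h2 : ((oneIrr G : IrrCharacter G) : G → ℂ) 1 = 1 := rfl
    rw [h2] at h1
    exact_mod_cast h1
  have hδ1 : δ (oneIrr G) = 1 := by
    obtain ⟨h1, h2, -⟩ := hXd _ hX1
    rw [hdegone] at h2
    rcases h1 with h1 | h1
    · exact h1
    · exfalso
      rw [h1] at h2
      have h3 := Int.modEq_iff_dvd.mp h2.symm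
      have e1 : ((1 : ℕ) : ℤ) - -1 = 2 := by norm_num
      rw [e1] at h3
      have := Int.le_of_dvd (by norm_num) h3
      omega
  have hrest : ∀ χ : IrrCharacter G, χ ∉ X → χ ∉ Y → ∀ u : G, u ∈ zpowers z → u ≠ 1 →
      (χ : G → ℂ) u = 0 := by
    intro χ h1 h2 u hu hu1
    refine vanish_outside hM hz hC hsq χ ?_ hu hu1
    rw [hB]
    rintro (h | h)
    · exact h1 h
    · exact h2 h
  exact ⟨Y.card, X, Y, δ, ε, deg, ⟨hpr, hz, hC, hst, hdeg, hdeg1, hdisj, hXc, rfl, hX1, hδ1,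
    fun χ hχ => (hXd χ hχ).1, fun χ hχ => (hXd χ hχ).2.1, fun χ hχ => (hXd χ hχ).2.2, hrest, hε, hYdeg, hYeq, hrel,
    hYsum⟩, hs⟩

open _root_.Classical in
/-- The structure of the block from a character of degree `p - 1` in it. -/
theorem PD_of_psi (D : BD0 p z 2 s Xs Ys δ ε deg) (hs : 2 ≤ s) (hψ1 : ψ ≠ oneIrr G) (hX : Xs = {oneIrr G, ψ})
    (hdψ : deg ψ + 1 = p) (hδψ : δ ψ = -1) : PD p z s Xs Ys δ ε deg ψ := by
  have hp := D.hp
  have hst := D.hst
  have hdone := deg_one_of D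
  have hδone := D.hδone
  have hψX : ψ ∈ Xs := by
    rw [hX]
    simp
  have hrel1 : ∀ θ ∈ Ys, ε * (deg θ : ℤ) = 1 + δ ψ * (deg ψ : ℤ) := by
    intro θ hθ
    have h1 := D.hrel θ hθ 1 (by rw [orderOf_one]; exact fun h => hp.one_lt.ne' (Nat.dvd_one.mp h))
    rw [hX, Finset.sum_pair hψ1.symm, (D.hdeg θ).1, (D.hdeg ψ).1, (D.hdeg _).1, hdone, hδone] at h1
    have h2 : ((ε * (deg θ : ℤ) : ℤ) : ℂ) = ((1 + δ ψ * (deg ψ : ℤ) : ℤ) : ℂ) := by
      push_cast
      rw [h1]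
      push_cast
      ring
    exact_mod_cast h2
  have h4 := D.fx_X hψX
  rw [hδψ] at h4
  have hz1 : (deg ψ : ℤ) + 1 = p := by exact_mod_cast hdψ
  have hfψ : fx ψ (zpowers z) = 0 := by
    have h5 : (p : ℤ) * (fx ψ (zpowers z) : ℤ) = 0 := by
      rw [h4]
      push_cast
      linarith
    have h6 : (p : ℤ) ≠ 0 := by exact_mod_cast hp.pos.ne'
    have h7 := (mul_eq_zero.mp h5).resolve_left h6
    exact_mod_cast h7
  have hY0 : Ys.Nonempty := by
    rw [← Finset.card_pos, D.hYc]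
    omega
  obtain ⟨θ₀, hθ₀⟩ := hY0
  have hε : ε = -1 := by
    have h5 := hrel1 θ₀ hθ₀
    rcases D.hε with h6 | h6
    · exfalso
      rw [h6, hδψ] at h5
      have h8 : (0 : ℤ) ≤ deg θ₀ := by positivity
      have h9 : (3 : ℤ) ≤ p := by
        have : 3 ≤ p := by omega
        exact_mod_cast this
      linarith
    · exact h6
  have hdθ : ∀ θ ∈ Ys, deg θ + 2 = p := by
    intro θ hθ
    have h5 := hrel1 θ hθ
    rw [hε, hδψ] at h5
    have : (deg θ : ℤ) + 2 = p := by linarith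
    exact_mod_cast this
  have hfθ : ∀ θ ∈ Ys, fx θ (zpowers z) = 1 := by
    intro θ hθ
    have h5 := D.fx_Y hθ
    rw [hε] at h5
    have h7 : (deg θ : ℤ) + 2 = p := by exact_mod_cast hdθ θ hθ
    push_cast at h5
    have h8 : (p : ℤ) * (fx θ (zpowers z) : ℤ) = p * 1 := by linarith
    have h10 : (p : ℤ) ≠ 0 := by exact_mod_cast hp.pos.ne'
    have h9 : (fx θ (zpowers z) : ℤ) = 1 := mul_left_cancel₀ h10 h8
    exact_mod_cast h9
  have hrelθ : ∀ θ ∈ Ys, ∀ g : G, ¬ p ∣ orderOf g → (θ : G → ℂ) g = (ψ : G → ℂ) g - 1 := by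
    intro θ hθ g hg
    have h1 := D.hrel θ hθ g hg
    rw [hX, Finset.sum_pair hψ1.symm, hδone, hδψ, hε] at h1
    have h2 : ((oneIrr G : IrrCharacter G) : G → ℂ) g = 1 := rfl
    rw [h2] at h1
    push_cast at h1
    linear_combination -h1
  exact ⟨D, hX, hψ1, hdψ, hδψ, hfψ, hε, hdθ, hfθ, hrelθ⟩

open _root_.Classical in
/-- The Brauer data from the order of the group. -/
theorem PD.to_brd [hfp : Fact p.Prime] (P : PD p z s Xs Ys δ ε deg ψ) (hs : 2 ≤ s) (hperf : commutator G = ⊤)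
    (hN : Nat.card (normalizer ((zpowers z : Subgroup G) : Set G)) = 2 * p)
    (hsq : ¬ p ^ 2 ∣ Nat.card G) (hG : Nat.card G = p * (p - 1) * (p - 2)) :
    ∃ n : ℕ, s = n + 1 ∧ BRD p z 2 s n Xs Ys δ ε deg := by
  have D := P.D
  have hpr := hfp.out
  have hst := D.hst
  obtain ⟨n, hn⟩ : ∃ n, s = n + 1 := ⟨s - 1, by omega⟩
  have hn1 : 1 ≤ n := by omega
  have hpn : p = 2 * n + 3 := by omega
  have hG' : Nat.card G = p * 2 * (1 + n * p) := by
    rw [hG, hpn]
    have e1 : 2 * n + 3 - 2 = 2 * n + 1 := by omega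
    have e2 : 2 * n + 3 - 1 = 2 * n + 2 := by omega
    rw [e1, e2]
    ring
  obtain ⟨Q, hQ, -⟩ := exists_sylow_of_sq D.hz hsq
  have hsyl : Nat.card (Sylow p G) = 1 + n * p := by
    have h1 : Nat.card (Sylow p G) = (normalizer ((zpowers z : Subgroup G) : Set G)).index := by
      rw [← hQ]
      exact Sylow.card_eq_index_normalizer Q
    have h3 := (normalizer ((zpowers z : Subgroup G) : Set G)).card_mul_index
    rw [hN, ← h1, hG'] at h3
    have h4 : 2 * p * Nat.card (Sylow p G) = 2 * p * (1 + n * p) := by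
      rw [h3]
      ring
    exact Nat.eq_of_mul_eq_mul_left (by omega) h4
  exact ⟨n, hn, hpr, by omega, D.hz, D.hC, hperf, hst, le_refl 2, hn1, by omega, hG', hsyl,
    hN, D.hdeg, D.hdeg1, D.hdisj, D.hXc, D.hYc, D.hone, D.hδone, D.hδ, D.hXdeg, D.hXval, D.hrest, D.hε, D.hYdeg, D.hYeq,
    D.hrel, D.hYsum⟩

open _root_.Classical in
/-- The identification of the group from its order. -/
theorem PD.to_psl [hfp : Fact p.Prime] (P : PD p z s Xs Ys δ ε deg ψ) (hs : 2 ≤ s) (hperf : commutator G = ⊤)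
    (hN : Nat.card (normalizer ((zpowers z : Subgroup G) : Set G)) = 2 * p)
    (hsq : ¬ p ^ 2 ∣ Nat.card G) (hG : Nat.card G = p * (p - 1) * (p - 2)) :
    ∃ e : ℕ, p = 2 ^ e + 1 ∧ ∀ (F' : Type) [Field F'] [Fintype F'], Fintype.card F' = 2 ^ e →
      Nonempty (G ≃* Matrix.ProjectiveSpecialLinearGroup (Fin 2) F') := by
  obtain ⟨n, hn, B⟩ := P.to_brd hs hperf hN hsq hG
  have hA : (As Xs δ).card = 0 := by
    rw [Finset.card_eq_zero, Finset.eq_empty_iff_forall_notMem]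
    intro χ hχ
    obtain ⟨h1, h3, h4⟩ := B.mem_As hχ
    rw [P.hXs, Finset.mem_insert, Finset.mem_singleton] at h1
    rcases h1 with h1 | h1
    · exact h3 h1
    · rw [h1, P.hδψ] at h4
      norm_num at h4
  have hBc : (Bs Xs δ).card = 1 := by
    rw [Finset.card_eq_one]
    refine ⟨ψ, ?_⟩
    ext χ
    simp only [Bs, Finset.mem_filter, Finset.mem_singleton]
    constructor
    · rintro ⟨h1, h3⟩
      rw [P.hXs, Finset.mem_insert, Finset.mem_singleton] at h1
      rcases h1 with h1 | h1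
      · rw [h1, P.D.hδone] at h3
        norm_num at h3
      · exact h1
    · rintro rfl
      exact ⟨by rw [P.hXs]; simp, P.hδψ⟩
  have hdY : ∀ θ ∈ Ys, deg θ = p - 2 := by
    intro θ hθ
    have := P.hdθ θ hθ
    omega
  have hst := P.D.hst
  obtain ⟨e, he, -, hF⟩ := B.case_b' hdY hs hn.symm rfl (by omega) P.hε hA hBc
  exact ⟨e, he, hF⟩

end Cfsg.Agent.Lib.BR
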